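import Mathlib
import Cfsg.Agent.H52.SnDefs
import Cfsg.Agent.S2941
import Cfsg.Agent.H80.GroupBasic
import Cfsg.Agent.H14.Thompson
/-!
Team project S2942 (helper52), piece SN-IFN (helper80): `O₂(L)` normalizes the `J(T)`-component
`K ≤ L` — S2941 with `Q := O₂(L)` (normalized by `L ≥ ⟨K, J(T)⟩`, contained in the Sylow
2-subgroup `T` of `L`, which normalizes `J(T)`), transported to `↥L`.
-/
set_option autoImplicit false
open Cfsg

namespace Cfsg.Agent.H80.Sn

open Cfsg.Agent.H52.Sn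

universe u

theorem ifN : StIfN.{u} := by
  intro G _ _ hL hN hZ T hT hT1 L hLT K hK hKL
  obtain ⟨⟨hTL, hT2, hodd⟩, -, -⟩ := hLT
  have hp2 : Fact (Nat.Prime 2) := ⟨Nat.prime_two⟩
  have hQn : (pCore 2 ↥L).Normal := Cfsg.Agent.H80.pCore_normal 2 ↥L
  have hQp : IsPGroup 2 (pCore 2 ↥L) := Cfsg.Agent.H80.pCore_isPGroup 2 ↥L
  -- `L` normalizes `O₂(L)`
  have hLQ : L ≤ Subgroup.normalizer (pCoreOf 2 L : Set G) := by
    intro l hl
    rw [Subgroup.mem_normalizer_iff]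
    intro x
    unfold pCoreOf
    constructor
    · rintro ⟨y, hy, rfl⟩
      exact ⟨⟨l, hl⟩ * y * ⟨l, hl⟩⁻¹, hQn.conj_mem y hy ⟨l, hl⟩, rfl⟩
    · rintro ⟨y, hy, hyx⟩
      refine ⟨⟨l, hl⟩⁻¹ * y * ⟨l, hl⟩, ?_, ?_⟩
      · have h := hQn.conj_mem y hy (⟨l, hl⟩⁻¹)
        rwa [inv_inv] at h
      · show l⁻¹ * (y : G) * l = x
        have hyx' : (y : G) = l * x * l⁻¹ := hyx
        rw [hyx']
        group
  have hJT : thompsonSubgroupOf 2 T ≤ T := Cfsg.Agent.H14.thompsonSubgroupOf_le 2 T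
  have hQ1 : K ⊔ thompsonSubgroupOf 2 T ≤ Subgroup.normalizer (pCoreOf 2 L : Set G) :=
    sup_le (hKL.trans hLQ) (hJT.trans (hTL.trans hLQ))
  -- `O₂(L) ≤ T`
  have hQT : pCoreOf 2 L ≤ T := by
    have hTp : IsPGroup 2 ↥(T.subgroupOf L) := hT2.comap_subtype
    have hTi : ¬ 2 ∣ (T.subgroupOf L).index := by
      have h : (T.subgroupOf L).index = T.relIndex L := rfl
      rw [h]
      exact fun h2 => (Nat.not_even_iff_odd.mpr hodd) (even_iff_two_dvd.mpr h2)
    obtain ⟨P, hP⟩ : ∃ P : Sylow 2 ↥L, (P : Subgroup ↥L) = T.subgroupOf L :=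
      ⟨hTp.toSylow hTi, IsPGroup.toSylow_coe hTp hTi⟩
    have hle : pCore 2 ↥L ≤ (P : Subgroup ↥L) := by
      have h1 : IsPGroup 2 (pCore 2 ↥L ⊔ (P : Subgroup ↥L) : Subgroup ↥L) :=
        hQp.to_sup_of_normal_left P.isPGroup'
      have h2 := P.is_maximal' h1 le_sup_right
      rw [← h2]
      exact le_sup_left
    rintro x ⟨y, hy, rfl⟩
    have h3 : y ∈ T.subgroupOf L := by rw [← hP]; exact hle hy
    exact Subgroup.mem_subgroupOf.mp h3
  -- `T` normalizes `J(T)`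
  have hTJ : T ≤ Subgroup.normalizer (thompsonSubgroupOf 2 T : Set G) := by
    intro t ht
    have hmap : T.map (MulAut.conj t).toMonoidHom = T := by
      ext x
      constructor
      · rintro ⟨y, hy, rfl⟩
        exact T.mul_mem (T.mul_mem ht hy) (T.inv_mem ht)
      · intro hx
        refine ⟨t⁻¹ * x * t, T.mul_mem (T.mul_mem (T.inv_mem ht) hx) ht, ?_⟩
        show t * (t⁻¹ * x * t) * t⁻¹ = x
        group
    have hJ := Cfsg.Agent.H14.thompsonSubgroupOf_conj 2 t T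
    rw [hmap] at hJ
    rw [Subgroup.mem_normalizer_iff]
    intro x
    constructor
    · intro hx
      have h : (MulAut.conj t).toMonoidHom x ∈
          (thompsonSubgroupOf 2 T).map (MulAut.conj t).toMonoidHom := ⟨x, hx, rfl⟩
      rw [hJ] at h
      exact h
    · intro hx
      rw [← hJ] at hx
      obtain ⟨y, hy, hyx⟩ := hx
      have hyx' : t * y * t⁻¹ = t * x * t⁻¹ := hyx
      have e : y = x := by
        have h1 := mul_right_cancel hyx'
        exact mul_left_cancel h1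
      rw [← e]
      exact hy
  have hQ2 : pCoreOf 2 L ≤ Subgroup.normalizer (thompsonSubgroupOf 2 T : Set G) :=
    hQT.trans hTJ
  have hres := Cfsg.Agent.S2941.result hL hN hZ T hT hT1 K hK (pCoreOf 2 L) hQ1 hQ2
  intro q hq
  have hqG : (q : G) ∈ pCoreOf 2 L := ⟨q, hq, rfl⟩
  have hn := Subgroup.mem_normalizer_iff.mp (hres hqG)
  rw [Subgroup.mem_normalizer_iff]
  intro x
  rw [Subgroup.mem_subgroupOf, Subgroup.mem_subgroupOf]
  exact hn (x : G)

example : StIfN.{u} := ifN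

end Cfsg.Agent.H80.Sn
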