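import Mathlib
import Cfsg.Agent.H52.SpDefs
/-!
Team project S2944 (helper52/helper66), piece SP-NORMA (helper80): a conjugate `K^n` with
`[V, K]^n ≤ [V, K]` has the same image modulo `C = C_X(V)` — SO-UNIQ applied to `K^n`, `K`
(`O^n ≤ C`; `[K^n, K] ≤ C` since both are generated by elements of odd order of `M`;
`[V, K^n] = [V, K]^n = [V, K]` by cardinality).
-/
set_option autoImplicit false
open Cfsg
open scoped commutatorElement

namespace Cfsg.Agent.H80.Sn

open Cfsg.Agent.H52.Sn

universe u

theorem normA (hU : StUniq.{u}) : StNormA.{u} := by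
  intro X _ _ V T Q M J K O _ hV hF hOQ h4 n hn
  have hCn : (Subgroup.centralizer (V : Set X)).Normal := hF.hC
  have hMn : M.Normal := hF.hM
  have hinj : Function.Injective (MulAut.conj n).toMonoidHom := (MulAut.conj n).injective
  have hconj : ∀ x : X, (MulAut.conj n).toMonoidHom x = n * x * n⁻¹ := fun x => rfl
  -- `V^n = V`
  have hVmap : V.map (MulAut.conj n).toMonoidHom = V := by
    ext x
    constructor
    · rintro ⟨y, hy, rfl⟩
      rw [hconj]
      exact ‹V.Normal›.conj_mem y hy n
    · intro hx
      refine ⟨n⁻¹ * x * n, ?_, ?_⟩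
      · have h := ‹V.Normal›.conj_mem x hx n⁻¹
        rwa [inv_inv] at h
      · rw [hconj]; group
  -- `[V, K^n] = [V, K]`
  have hcomm_map : ⁅V, K.map (MulAut.conj n).toMonoidHom⁆ = ⁅V, K⁆ := by
    have e : ⁅V, K.map (MulAut.conj n).toMonoidHom⁆ = (⁅V, K⁆).map (MulAut.conj n).toMonoidHom := by
      rw [Subgroup.map_commutator, hVmap]
    rw [e]
    refine Subgroup.eq_of_le_of_card_ge hn ?_
    rw [Subgroup.card_map_of_injective hinj]
  -- `K ≤ M`
  have hKM : K ≤ M := by
    rw [← hF.hKJ]
    exact (Subgroup.commutator_mono le_rfl hF.hJM).trans (Subgroup.commutator_le_right K M)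
  -- commutators modulo `C`
  have hquot : ∀ a b : X, a * b * a⁻¹ * b⁻¹ ∈ Subgroup.centralizer (V : Set X) →
      (QuotientGroup.mk' (Subgroup.centralizer (V : Set X)) a) *
        (QuotientGroup.mk' (Subgroup.centralizer (V : Set X)) b) =
      (QuotientGroup.mk' (Subgroup.centralizer (V : Set X)) b) *
        (QuotientGroup.mk' (Subgroup.centralizer (V : Set X)) a) := by
    intro a b h
    rw [← map_mul, ← map_mul]
    have h' : (QuotientGroup.mk' (Subgroup.centralizer (V : Set X)) (a * b * a⁻¹ * b⁻¹)) = 1 :=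
      (QuotientGroup.eq_one_iff _).mpr h
    have e : a * b = (a * b * a⁻¹ * b⁻¹) * (b * a) := by group
    rw [e, map_mul, h', one_mul]
  have hstepA : ∀ a : X, a ∈ M → Odd (orderOf a) → ∀ b ∈ K,
      (QuotientGroup.mk' (Subgroup.centralizer (V : Set X)) a) *
        (QuotientGroup.mk' (Subgroup.centralizer (V : Set X)) b) =
      (QuotientGroup.mk' (Subgroup.centralizer (V : Set X)) b) *
        (QuotientGroup.mk' (Subgroup.centralizer (V : Set X)) a) := by
    intro a haM hao b hb
    rw [← hF.hKgen] at hb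
    refine Subgroup.closure_induction (p := fun b _ =>
      (QuotientGroup.mk' (Subgroup.centralizer (V : Set X)) a) *
        (QuotientGroup.mk' (Subgroup.centralizer (V : Set X)) b) =
      (QuotientGroup.mk' (Subgroup.centralizer (V : Set X)) b) *
        (QuotientGroup.mk' (Subgroup.centralizer (V : Set X)) a)) ?_ ?_ ?_ ?_ hb
    · rintro y ⟨hyK, hyo⟩
      exact hquot a y (hF.hcomm a haM y (hKM hyK) hao hyo)
    · rw [map_one, mul_one, one_mul]
    · intro x y _ _ hx hy
      rw [map_mul, ← mul_assoc, hx, mul_assoc, hy, mul_assoc]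
    · intro x _ hx
      rw [map_inv]
      exact (Commute.inv_right hx : Commute _ _)
  have hKK : ⁅K.map (MulAut.conj n).toMonoidHom, K⁆ ≤ Subgroup.centralizer (V : Set X) := by
    rw [Subgroup.commutator_le]
    intro a ha b hb
    have hab : (QuotientGroup.mk' (Subgroup.centralizer (V : Set X)) a) *
        (QuotientGroup.mk' (Subgroup.centralizer (V : Set X)) b) =
      (QuotientGroup.mk' (Subgroup.centralizer (V : Set X)) b) *
        (QuotientGroup.mk' (Subgroup.centralizer (V : Set X)) a) := by
      rw [← hF.hKgen, MonoidHom.map_closure] at ha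
      refine Subgroup.closure_induction (p := fun a _ =>
        (QuotientGroup.mk' (Subgroup.centralizer (V : Set X)) a) *
          (QuotientGroup.mk' (Subgroup.centralizer (V : Set X)) b) =
        (QuotientGroup.mk' (Subgroup.centralizer (V : Set X)) b) *
          (QuotientGroup.mk' (Subgroup.centralizer (V : Set X)) a)) ?_ ?_ ?_ ?_ ha
      · rintro x ⟨y, ⟨hyK, hyo⟩, rfl⟩
        have hxM : (MulAut.conj n).toMonoidHom y ∈ M := by
          rw [hconj]; exact hMn.conj_mem y (hKM hyK) n
        have hxo : Odd (orderOf ((MulAut.conj n).toMonoidHom y)) := by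
          rw [orderOf_injective _ hinj]; exact hyo
        exact hstepA _ hxM hxo b hb
      · rw [map_one, mul_one, one_mul]
      · intro x y _ _ hx hy
        rw [map_mul, mul_assoc, hy, ← mul_assoc, hx, mul_assoc]
      · intro x _ hx
        rw [map_inv]
        exact (Commute.inv_left hx : Commute _ _)
    rw [commutatorElement_def, ← QuotientGroup.eq_one_iff, ← QuotientGroup.mk'_apply,
      map_mul, map_mul, map_mul, map_inv, map_inv, hab]
    group
  -- apply UNIQ
  have hOC : O ≤ Subgroup.centralizer (V : Set X) := hOQ.trans hF.hQC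
  have hOnC : O.map (MulAut.conj n).toMonoidHom ≤ Subgroup.centralizer (V : Set X) := by
    rintro x ⟨y, hy, rfl⟩
    rw [hconj]
    exact hCn.conj_mem y (hOC hy) n
  have hrel : (O.map (MulAut.conj n).toMonoidHom).relIndex (K.map (MulAut.conj n).toMonoidHom) = 3 := by
    rw [Subgroup.relIndex_map_map_of_injective O K hinj]
    exact hF.hO3
  have hne : ⁅V, K.map (MulAut.conj n).toMonoidHom⁆ ⊓ ⁅V, K⁆ ≠ ⊥ := by
    rw [hcomm_map, inf_idem]
    intro hbot
    rw [hbot, Subgroup.card_bot] at h4
    norm_num at h4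
  exact hU V (K.map (MulAut.conj n).toMonoidHom) K (O.map (MulAut.conj n).toMonoidHom) O hV
    (Subgroup.map_mono hF.hOK) hOnC hrel hF.hOK hOC hF.hO3 hKK (by rw [hcomm_map]; exact h4) h4 hne

example (hU : StUniq.{u}) : StNormA.{u} := normA hU

end Cfsg.Agent.H80.Sn
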