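import Mathlib
import Cfsg.Agent.H14.SpDefs
/-!
Team project S2944 (helper52), pure-involution step (helper14), piece SP-FOUR (helper80):
automorphisms of a four-group `W = {1, a, b, c}` induced by conjugation.  `x` of odd order acting
non-trivially is the 3-cycle `a → b → c → a`; an involution acting non-trivially fixes exactly
one of `a, b, c` and swaps the other two; everything else is a finite check.
-/
set_option autoImplicit false
open Cfsg

namespace Cfsg.Agent.H80.Sp

open Cfsg.Agent.H14.Sp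

universe u

/-- a subgroup of order 4 containing three distinct non-identity elements consists of them and
`1` -/
theorem mem_four {Y : Type u} [Group Y] (W : Subgroup Y) (h4 : Nat.card ↥W = 4) (a b c : Y)
    (ha : a ∈ W) (hb : b ∈ W) (hc : c ∈ W) (ha1 : a ≠ 1) (hb1 : b ≠ 1) (hc1 : c ≠ 1)
    (hab : a ≠ b) (hac : a ≠ c) (hbc : b ≠ c) :
    ∀ w ∈ W, w = 1 ∨ w = a ∨ w = b ∨ w = c := by
  intro w hw
  have hfin : Finite ↥W := Nat.finite_of_card_ne_zero (by rw [h4]; norm_num)
  obtain ⟨g, hg⟩ : ∃ g : Fin 4 → ↥W, g = ![1, ⟨a, ha⟩, ⟨b, hb⟩, ⟨c, hc⟩] := ⟨_, rfl⟩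
  have hinj : Function.Injective g := by
    intro i j hij
    have h : (g i : Y) = (g j : Y) := congrArg Subtype.val hij
    rw [hg] at h
    fin_cases i <;> fin_cases j <;>
      first
      | rfl
      | exact (ha1 h).elim | exact (ha1 h.symm).elim
      | exact (hb1 h).elim | exact (hb1 h.symm).elim
      | exact (hc1 h).elim | exact (hc1 h.symm).elim
      | exact (hab h).elim | exact (hab h.symm).elim
      | exact (hac h).elim | exact (hac h.symm).elim
      | exact (hbc h).elim | exact (hbc h.symm).elim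
  have hbij := hinj.bijective_of_nat_card_le (by rw [h4]; simp)
  obtain ⟨i, hi⟩ := hbij.2 ⟨w, hw⟩
  have hi' : (g i : Y) = w := congrArg Subtype.val hi
  rw [hg] at hi'
  fin_cases i
  · left; exact hi'.symm
  · right; left; exact hi'.symm
  · right; right; left; exact hi'.symm
  · right; right; right; exact hi'.symm

theorem four : StFour.{u} := by
  intro Y _ W x t t' h4 hexp hx ht ht' hodd htt htt' hmx hmt hmt'
  obtain ⟨a, haW, hxa⟩ := hmx
  have hWcomm : ∀ u ∈ W, ∀ v ∈ W, u * v = v * u := by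
    intro u hu v hv
    have h1 := hexp _ (W.mul_mem hu hv)
    have hu2 := hexp u hu
    have hv2 := hexp v hv
    calc u * v = u * 1 * v := by group
      _ = u * ((u * v) * (u * v)) * v := by rw [h1]
      _ = (u * u) * (v * u) * (v * v) := by group
      _ = v * u := by rw [hu2, hv2, one_mul, mul_one]
  have hWinv : ∀ u ∈ W, u⁻¹ = u := fun u hu => inv_eq_of_mul_eq_one_left (hexp u hu)
  have cmul : ∀ g u v : Y, g * (u * v) * g⁻¹ = (g * u * g⁻¹) * (g * v * g⁻¹) := by
    intro g u v; group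
  have cinj : ∀ g u v : Y, g * u * g⁻¹ = g * v * g⁻¹ → u = v := by
    intro g u v h
    exact mul_left_cancel (mul_right_cancel h)
  have cone : ∀ g : Y, g * 1 * g⁻¹ = 1 := by intro g; group
  -- the elements `b = x a x⁻¹`, `c = a b`
  obtain ⟨b, hbdef⟩ : ∃ b, b = x * a * x⁻¹ := ⟨_, rfl⟩
  have hfa : x * a * x⁻¹ = b := hbdef.symm
  have hbW : b ∈ W := by rw [hbdef]; exact hx a haW
  have hba : b ≠ a := by rw [hbdef]; exact hxa
  have ha1 : a ≠ 1 := by
    intro h; apply hxa; rw [h]; exact cone x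
  have hb1 : b ≠ 1 := by
    intro h
    apply ha1
    have e : x * a * x⁻¹ = x * 1 * x⁻¹ := by rw [hfa, h, cone]
    exact cinj x a 1 e
  obtain ⟨c, hcdef⟩ : ∃ c, c = a * b := ⟨_, rfl⟩
  have hcW : c ∈ W := by rw [hcdef]; exact W.mul_mem haW hbW
  have haa := hexp a haW
  have hbb := hexp b hbW
  have hc1 : c ≠ 1 := by
    intro h
    apply hba
    rw [hcdef] at h
    have e : b = a⁻¹ := eq_inv_of_mul_eq_one_right h
    rw [e, hWinv a haW]
  have hac : a ≠ c := by
    intro h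
    apply hb1
    rw [hcdef] at h
    have e : a * 1 = a * b := by rw [mul_one]; exact h
    exact (mul_left_cancel e).symm
  have hbc : b ≠ c := by
    intro h
    apply ha1
    rw [hcdef] at h
    have e : 1 * b = a * b := by rw [one_mul]; exact h
    exact (mul_right_cancel e).symm
  have hw4 := mem_four W h4 a b c haW hbW hcW ha1 hb1 hc1 (Ne.symm hba) hac hbc
  have hab_c : a * b = c := hcdef.symm
  have hba_c : b * a = c := by rw [← hWcomm a haW b hbW]; exact hab_c
  have hac_b : a * c = b := by rw [hcdef, ← mul_assoc, haa, one_mul]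
  have hca_b : c * a = b := by rw [← hWcomm a haW c hcW]; exact hac_b
  have hbc_a : b * c = a := by
    calc b * c = b * (b * a) := by rw [hba_c]
      _ = (b * b) * a := by group
      _ = a := by rw [hbb, one_mul]
  have hcb_a : c * b = a := by rw [← hWcomm b hbW c hcW]; exact hbc_a
  -- `x` is the 3-cycle
  have hfb : x * b * x⁻¹ = c := by
    rcases hw4 _ (hx b hbW) with h | h | h | h
    · exfalso; exact hb1 (cinj x b 1 (by rw [h, cone]))
    · exfalso
      have hpow : ∀ k : ℕ, x ^ (2 * k) * b * (x ^ (2 * k))⁻¹ = b := by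
        intro k
        induction k with
        | zero => simp
        | succ k ih =>
          have e : x ^ (2 * (k + 1)) * b * (x ^ (2 * (k + 1)))⁻¹ =
              x ^ (2 * k) * (x * (x * b * x⁻¹) * x⁻¹) * (x ^ (2 * k))⁻¹ := by
            rw [show 2 * (k + 1) = 2 * k + 1 + 1 from by ring, pow_succ, pow_succ]
            generalize x ^ (2 * k) = P
            group
          rw [e, h, hfa, ih]
      obtain ⟨k, hk⟩ := hodd
      have hone : x ^ (2 * k + 1) = 1 := by rw [← hk]; exact pow_orderOf_eq_one x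
      have e2 : x ^ (2 * k + 1) * a * (x ^ (2 * k + 1))⁻¹ =
          x ^ (2 * k) * (x * a * x⁻¹) * (x ^ (2 * k))⁻¹ := by
        rw [pow_succ]
        generalize x ^ (2 * k) = P
        group
      rw [hone, hfa, hpow k] at e2
      apply hba
      rw [← e2]; simp
    · exfalso; exact hba (cinj x b a (by rw [h, hfa]))
    · exact h
  have hfc : x * c * x⁻¹ = a := by
    rw [hcdef, cmul, hfa, hfb]; exact hbc_a
  have F1 : ∀ w ∈ W, x * w * x⁻¹ = w → w = 1 := by
    intro w hw h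
    rcases hw4 w hw with h1 | h1 | h1 | h1
    · exact h1
    · rw [h1] at h; exact absurd (hfa.symm.trans h) hba
    · rw [h1] at h; exact absurd (hfb.symm.trans h) (Ne.symm hbc)
    · rw [h1] at h; exact absurd (hfc.symm.trans h) hac
  have F2 : ∀ w ∈ W, ∃ u ∈ W, x * u * x⁻¹ * u⁻¹ = w := by
    intro w hw
    rcases hw4 w hw with h1 | h1 | h1 | h1
    · exact ⟨1, W.one_mem, by rw [h1]; group⟩
    · exact ⟨b, hbW, by rw [h1, hfb, hWinv b hbW, hcb_a]⟩
    · exact ⟨c, hcW, by rw [h1, hfc, hWinv c hcW, hac_b]⟩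
    · exact ⟨a, haW, by rw [h1, hfa, hWinv a haW, hba_c]⟩
  -- involutions acting non-trivially are the three transpositions
  have hT : ∀ s : Y, (∀ w ∈ W, s * w * s⁻¹ ∈ W) → s * s = 1 → (∃ w ∈ W, s * w * s⁻¹ ≠ w) →
      (s * a * s⁻¹ = a ∧ s * b * s⁻¹ = c ∧ s * c * s⁻¹ = b) ∨
      (s * a * s⁻¹ = b ∧ s * b * s⁻¹ = a ∧ s * c * s⁻¹ = c) ∨
      (s * a * s⁻¹ = c ∧ s * b * s⁻¹ = b ∧ s * c * s⁻¹ = a) := by
    intro s hs hss hmv
    have hs2 : ∀ u : Y, s * (s * u * s⁻¹) * s⁻¹ = u := by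
      intro u
      calc s * (s * u * s⁻¹) * s⁻¹ = (s * s) * u * (s * s)⁻¹ := by group
        _ = u := by rw [hss]; group
    rcases hw4 _ (hs a haW) with h | h | h | h
    · exfalso; exact ha1 (cinj s a 1 (by rw [h, cone]))
    · rcases hw4 _ (hs b hbW) with h' | h' | h' | h'
      · exfalso; exact hb1 (cinj s b 1 (by rw [h', cone]))
      · exfalso; exact hba (cinj s b a (by rw [h', h]))
      · exfalso
        obtain ⟨w, hw, hne⟩ := hmv
        have hsc : s * c * s⁻¹ = c := by rw [hcdef, cmul, h, h']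
        rcases hw4 w hw with h1 | h1 | h1 | h1
        · exact hne (by rw [h1]; exact cone s)
        · exact hne (by rw [h1]; exact h)
        · exact hne (by rw [h1]; exact h')
        · exact hne (by rw [h1]; exact hsc)
      · left
        refine ⟨h, h', ?_⟩
        rw [hcdef, cmul, h, h']; exact hac_b
    · right; left
      have h' : s * b * s⁻¹ = a := by
        have e := hs2 a
        rw [h] at e; exact e
      refine ⟨h, h', ?_⟩
      rw [hcdef, cmul, h, h']; exact hWcomm b hbW a haW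
    · right; right
      have h' : s * c * s⁻¹ = a := by
        have e := hs2 a
        rw [h] at e; exact e
      refine ⟨h, ?_, h'⟩
      have e : s * b * s⁻¹ = s * (a * c) * s⁻¹ := by rw [hac_b]
      rw [e, cmul, h, h']; exact hca_b
  have htinv : t⁻¹ = t := inv_eq_of_mul_eq_one_left htt
  have hci : ∀ u : Y, t⁻¹ * u * t⁻¹⁻¹ = t * u * t⁻¹ := by
    intro u
    conv_lhs => rw [htinv]
  have hid3 : ∀ w : Y, (t * x * t⁻¹ * x) * w * (t * x * t⁻¹ * x)⁻¹ =
      t * (x * (t * (x * w * x⁻¹) * t⁻¹) * x⁻¹) * t⁻¹ := by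
    intro w
    have e : (t * x * t⁻¹ * x) * w * (t * x * t⁻¹ * x)⁻¹ =
        t * (x * (t⁻¹ * (x * w * x⁻¹) * t⁻¹⁻¹) * x⁻¹) * t⁻¹ := by group
    rw [e, hci]
  have F3 : ∀ w ∈ W, (t * x * t⁻¹ * x) * w * (t * x * t⁻¹ * x)⁻¹ = w := by
    intro w hw
    rw [hid3]
    rcases hT t ht htt hmt with ⟨h1, h2, h3⟩ | ⟨h1, h2, h3⟩ | ⟨h1, h2, h3⟩ <;>
    rcases hw4 w hw with hw1 | hw1 | hw1 | hw1 <;>
    rw [hw1] <;>
    simp only [cone, hfa, hfb, hfc, h1, h2, h3]
  have hid4 : ∀ w : Y, (t' * t⁻¹) * w * (t' * t⁻¹)⁻¹ = t' * (t * w * t⁻¹) * t'⁻¹ := by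
    intro w
    have e : (t' * t⁻¹) * w * (t' * t⁻¹)⁻¹ = t' * (t⁻¹ * w * t⁻¹⁻¹) * t'⁻¹ := by group
    rw [e, hci]
  have hx2 : ∀ w : Y, x ^ 2 * w * (x ^ 2)⁻¹ = x * (x * w * x⁻¹) * x⁻¹ := by
    intro w; rw [pow_two]; group
  have hx1 : ∀ w : Y, x ^ 1 * w * (x ^ 1)⁻¹ = x * w * x⁻¹ := by intro w; rw [pow_one]
  have hx0 : ∀ w : Y, x ^ 0 * w * (x ^ 0)⁻¹ = w := by intro w; simp
  have F4 : ∃ m : ℕ, ∀ w ∈ W, (t' * t⁻¹) * w * (t' * t⁻¹)⁻¹ = x ^ m * w * (x ^ m)⁻¹ := by
    rcases hT t ht htt hmt with ⟨h1, h2, h3⟩ | ⟨h1, h2, h3⟩ | ⟨h1, h2, h3⟩ <;>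
    rcases hT t' ht' htt' hmt' with ⟨k1, k2, k3⟩ | ⟨k1, k2, k3⟩ | ⟨k1, k2, k3⟩ <;>
    first
    | (refine ⟨0, fun w hw => ?_⟩
       rw [hid4, hx0]
       rcases hw4 w hw with hw1 | hw1 | hw1 | hw1 <;> rw [hw1] <;>
         (simp only [cone, h1, h2, h3, k1, k2, k3]; done))
    | (refine ⟨1, fun w hw => ?_⟩
       rw [hid4, hx1]
       rcases hw4 w hw with hw1 | hw1 | hw1 | hw1 <;> rw [hw1] <;>
         (simp only [cone, hfa, hfb, hfc, h1, h2, h3, k1, k2, k3]; done))
    | (refine ⟨2, fun w hw => ?_⟩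
       rw [hid4, hx2]
       rcases hw4 w hw with hw1 | hw1 | hw1 | hw1 <;> rw [hw1] <;>
         simp only [cone, hfa, hfb, hfc, h1, h2, h3, k1, k2, k3])
  exact ⟨F1, F2, F3, F4⟩

example : StFour.{u} := four

end Cfsg.Agent.H80.Sp
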