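import Mathlib
import Cfsg.Agent.H42.UnDefs

/-!
# S5954 piece UN-FIB: every nondegenerate `m`-space of the standard hermitian space has the same
number of orthonormal bases
-/

set_option autoImplicit false

namespace Cfsg.Agent.H80.Un

open Cfsg.Agent.H45 Cfsg.Agent.H42.Spd Cfsg.Agent.H42.Un Module

universe u

theorem orth_coeff {F : Type u} [Field F] {σ : F →+* F} {V : Type u} [AddCommGroup V]
    [Module F V] (B : V →ₗ[F] V →ₛₗ[σ] F) {m : ℕ} (v : Fin m → V)
    (h : ∀ a b, B (v a) (v b) = if a = b then 1 else 0) (c : Fin m → F) (b : Fin m) :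
    B (∑ a, c a • v a) (v b) = c b := by
  simp [map_sum, LinearMap.sum_apply, h]

theorem orth_li {F : Type u} [Field F] {σ : F →+* F} {V : Type u} [AddCommGroup V]
    [Module F V] (B : V →ₗ[F] V →ₛₗ[σ] F) {m : ℕ} (v : Fin m → V)
    (h : ∀ a b, B (v a) (v b) = if a = b then 1 else 0) : LinearIndependent F v := by
  rw [Fintype.linearIndependent_iff]
  intro c hc b
  have h1 := orth_coeff B v h c b
  rw [hc] at h1
  simpa using h1.symm

theorem frob_invol {F : Type u} [Field F] [Fintype F] (q : ℕ) (σ : F →+* F)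
    (hcard : Fintype.card F = q ^ 2) (hσ : ∀ x, σ x = x ^ q) (a : F) : σ (σ a) = a := by
  rw [hσ, hσ, ← pow_mul, ← sq, ← hcard]
  exact FiniteField.pow_card a

theorem frob_nontriv {F : Type u} [Field F] [Fintype F] (q : ℕ) (σ : F →+* F)
    (hcard : Fintype.card F = q ^ 2) (hσ : ∀ x, σ x = x ^ q) : ∃ a, σ a ≠ a := by
  have hq2 : 1 < q := by
    have h1 : 1 < Fintype.card F := Fintype.one_lt_card
    rw [hcard] at h1
    by_contra h
    have h2 : q = 0 ∨ q = 1 := by omega
    rcases h2 with rfl | rfl <;> simp at h1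
  by_contra hall
  push Not at hall
  apply FiniteField.X_pow_card_sub_X_ne_zero F hq2
  apply Polynomial.eq_zero_of_natDegree_lt_card_of_eval_eq_zero' _ Finset.univ
  · intro a _
    simp [← hσ, hall a]
  · rw [FiniteField.X_pow_card_sub_X_natDegree_eq F hq2, Finset.card_univ, hcard]
    nlinarith

theorem uFib (hFr : StUFrames.{u,u}) : StUFib.{u} := by
  classical
  intro F _ _ q σ hcard hσ n m
  let f : {v : Fin m → (Fin n → F) //
        ∀ a b, hermB σ n (v a) (v b) = if a = b then 1 else 0} →
      {W : Submodule F (Fin n → F) // Module.finrank F ↥W = m ∧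
        (∀ u ∈ W, u ≠ 0 → ∃ v ∈ W, Cfsg.hermForm n F q u v ≠ 0)} :=
    fun v => ⟨Submodule.span F (Set.range v.1), by
      rw [finrank_span_eq_card (orth_li (hermB σ n) v.1 v.2), Fintype.card_fin],
      by
        intro u hu hu0
        obtain ⟨c, rfl⟩ := (Submodule.mem_span_range_iff_exists_fun F).1 hu
        have hex : ∃ b, c b ≠ 0 := by
          by_contra hcon
          push Not at hcon
          apply hu0
          simp [hcon]
        obtain ⟨b, hb⟩ := hex
        refine ⟨v.1 b, Submodule.subset_span ⟨b, rfl⟩, ?_⟩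
        rw [← hermB_eq_hermForm σ hσ, orth_coeff (hermB σ n) v.1 v.2 c b]
        exact hb⟩
  have hfib : ∀ W : {W : Submodule F (Fin n → F) // Module.finrank F ↥W = m ∧
        (∀ u ∈ W, u ≠ 0 → ∃ v ∈ W, Cfsg.hermForm n F q u v ≠ 0)},
      Nat.card {v // f v = W} =
        ∏ j ∈ Finset.range m,
          (if Even (m - j) then q ^ (m - j - 1) * (q ^ (m - j) - 1)
          else q ^ (m - j - 1) * (q ^ (m - j) + 1)) := by
    intro W
    have hiso : UIso ((hermB σ n).domRestrict₁₂ W.1 W.1) (1 : Module.End F ↥W.1) :=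
      { invol := frob_invol q σ hcard hσ
        nontriv := frob_nontriv q σ hcard hσ
        herm := by
          intro x y
          rw [LinearMap.domRestrict₁₂_apply, LinearMap.domRestrict₁₂_apply, hermB_apply,
            hermB_apply, map_sum]
          apply Finset.sum_congr rfl
          intro i _
          rw [map_mul, frob_invol q σ hcard hσ, mul_comm]
        nondeg := by
          intro x hx
          by_contra hx0
          have hx0' : (x : Fin n → F) ≠ 0 := fun h => hx0 (Subtype.ext h)
          obtain ⟨v, hv, hne⟩ := W.2.2 (x : Fin n → F) x.2 hx0'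
          apply hne
          rw [← hermB_eq_hermForm σ hσ]
          exact hx ⟨v, hv⟩
        isom := fun x y => rfl }
    have hfr := hFr F q σ ↥W.1 ((hermB σ n).domRestrict₁₂ W.1 W.1) hcard hσ hiso m
      (le_of_eq W.2.1.symm)
    rw [W.2.1] at hfr
    rw [← hfr]
    refine Nat.card_congr ?_
    refine
      { toFun := fun v => ⟨fun i => ⟨v.1.1 i, ?_⟩, ?_⟩
        invFun := fun s => ⟨⟨fun i => (s.1 i : Fin n → F), ?_⟩, ?_⟩
        left_inv := ?_
        right_inv := ?_ }
    · have h1 : Submodule.span F (Set.range v.1.1) = W.1 := congrArg Subtype.val v.2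
      rw [← h1]
      exact Submodule.subset_span ⟨i, rfl⟩
    · intro a b
      exact v.1.2 a b
    · intro a b
      exact s.2 a b
    · refine Subtype.ext ?_
      show Submodule.span F (Set.range fun i => (s.1 i : Fin n → F)) = W.1
      have hLI : LinearIndependent F (fun i => (s.1 i : Fin n → F)) :=
        orth_li (hermB σ n) _ (fun a b => s.2 a b)
      refine Submodule.eq_of_le_of_finrank_eq ?_ ?_
      · rw [Submodule.span_le]
        rintro _ ⟨i, rfl⟩
        exact (s.1 i).2
      · rw [finrank_span_eq_card hLI, Fintype.card_fin, W.2.1]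
    · intro v
      exact Subtype.ext (Subtype.ext rfl)
    · intro s
      exact Subtype.ext rfl
  have : Fintype {W : Submodule F (Fin n → F) // Module.finrank F ↥W = m ∧
        (∀ u ∈ W, u ≠ 0 → ∃ v ∈ W, Cfsg.hermForm n F q u v ≠ 0)} := Fintype.ofFinite _
  rw [← Nat.card_congr (Equiv.sigmaFiberEquiv f), Nat.card_sigma,
    Finset.sum_congr rfl (fun W _ => hfib W), Finset.sum_const, Finset.card_univ,
    smul_eq_mul, Nat.card_eq_fintype_card]

example (hFr : Cfsg.Agent.H42.Un.StUFrames.{u,u}) : Cfsg.Agent.H42.Un.StUFib.{u} :=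
  Cfsg.Agent.H80.Un.uFib hFr

end Cfsg.Agent.H80.Un
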