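import Mathlib

/-!
# S3777-AB: groups with an abelian normal subgroup of prime index
-/

set_option autoImplicit false

namespace Cfsg.Agent.H80.VL

open Subgroup
open scoped commutatorElement

theorem ab_key {Q : Type*} [Group Q] [Finite Q] {p : ℕ} [Fact p.Prime] (A : Subgroup Q) [A.Normal]
    (hab : ∀ x ∈ A, ∀ y ∈ A, x * y = y * x) (hidx : A.index = p) :
    ∃ Z : Subgroup Q, Z ≤ A ∧ Nat.card (commutator Q) * Nat.card Z = Nat.card A ∧
      (∀ x ∈ A, x ∉ Z → Subgroup.centralizer ({x} : Set Q) ≤ A) ∧
      (∀ t : Q, t ∉ A → (Subgroup.centralizer ({t} : Set Q)).index * Nat.card Z = Nat.card A) := by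
  classical
  have hp : p.Prime := Fact.out
  have hAn : A.Normal := inferInstance
  -- every element is `t ^ k * a`
  have hgen : ∀ t : Q, t ∉ A → ∀ q : Q, ∃ k : ℤ, ∃ a ∈ A, q = t ^ k * a := by
    intro t ht q
    have hcard : Nat.card (Q ⧸ A) = p := hidx
    have hne : (QuotientGroup.mk t : Q ⧸ A) ≠ 1 := by
      intro h
      exact ht ((QuotientGroup.eq_one_iff t).mp h)
    have htop := zpowers_eq_top_of_prime_card hcard hne
    have hmem : (QuotientGroup.mk q : Q ⧸ A) ∈ Subgroup.zpowers (QuotientGroup.mk t : Q ⧸ A) := by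
      rw [htop]
      exact Subgroup.mem_top _
    obtain ⟨k, hk⟩ := Subgroup.mem_zpowers_iff.mp hmem
    refine ⟨k, (t ^ k)⁻¹ * q, ?_, by group⟩
    rw [← QuotientGroup.mk_zpow] at hk
    exact QuotientGroup.eq.mp hk
  -- elements of `A` commuting with some `t ∉ A` are central
  have hcen : ∀ t : Q, t ∉ A → ∀ x ∈ A, x * t = t * x → x ∈ Subgroup.center Q := by
    intro t ht x hx hxt
    rw [Subgroup.mem_center_iff]
    intro q
    obtain ⟨k, a, ha, rfl⟩ := hgen t ht q
    have c1 : Commute x (t ^ k) := (show Commute x t from hxt).zpow_right k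
    have c2 : Commute x a := hab x hx a ha
    exact ((c1.mul_right c2).eq).symm
  obtain ⟨t, ht⟩ : ∃ t : Q, t ∉ A := by
    by_contra hcon
    have h1 : A = ⊤ := by
      rw [eq_top_iff]
      intro x _
      by_contra hx
      exact hcon ⟨x, hx⟩
    rw [h1, Subgroup.index_top] at hidx
    exact hp.one_lt.ne hidx
  refine ⟨A ⊓ Subgroup.center Q, inf_le_left, ?_, ?_, ?_⟩
  · -- `|Q'| * |Z| = |A|`
    let φ : ↥A →* Q :=
      { toFun := fun a => ⁅(a : Q), t⁆
        map_one' := by simp
        map_mul' := by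
          intro a b
          have hu : t * (a : Q)⁻¹ * t⁻¹ ∈ A := hAn.conj_mem _ (A.inv_mem a.2) t
          have hv : (b : Q) * t * (b : Q)⁻¹ * t⁻¹ ∈ A := by
            have h1 : t * (b : Q)⁻¹ * t⁻¹ ∈ A := hAn.conj_mem _ (A.inv_mem b.2) t
            have h2 : (b : Q) * t * (b : Q)⁻¹ * t⁻¹ = (b : Q) * (t * (b : Q)⁻¹ * t⁻¹) := by group
            rw [h2]
            exact A.mul_mem b.2 h1
          have e1 : ⁅((a * b : ↥A) : Q), t⁆ =
              (a : Q) * (((b : Q) * t * (b : Q)⁻¹ * t⁻¹) * (t * (a : Q)⁻¹ * t⁻¹)) := by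
            rw [commutatorElement_def, Subgroup.coe_mul]
            group
          have e2 : ⁅(a : Q), t⁆ * ⁅(b : Q), t⁆ =
              (a : Q) * ((t * (a : Q)⁻¹ * t⁻¹) * ((b : Q) * t * (b : Q)⁻¹ * t⁻¹)) := by
            rw [commutatorElement_def, commutatorElement_def]
            group
          change ⁅((a * b : ↥A) : Q), t⁆ = ⁅(a : Q), t⁆ * ⁅(b : Q), t⁆
          rw [e1, e2, hab _ hv _ hu] }
    have hφ : ∀ a : ↥A, φ a = ⁅(a : Q), t⁆ := fun a => rfl
    have hker : φ.ker = (A ⊓ Subgroup.center Q).subgroupOf A := by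
      ext a
      rw [MonoidHom.mem_ker, hφ, commutatorElement_eq_one_iff_mul_comm, Subgroup.mem_subgroupOf,
        Subgroup.mem_inf]
      constructor
      · intro h
        exact ⟨a.2, hcen t ht a a.2 h⟩
      · rintro ⟨-, h⟩
        exact (Subgroup.mem_center_iff.mp h t).symm
    have hRA : φ.range ≤ A := by
      rintro _ ⟨a, rfl⟩
      rw [hφ, commutatorElement_def]
      have h1 : t * (a : Q)⁻¹ * t⁻¹ ∈ A := hAn.conj_mem _ (A.inv_mem a.2) t
      have h2 : (a : Q) * t * (a : Q)⁻¹ * t⁻¹ = (a : Q) * (t * (a : Q)⁻¹ * t⁻¹) := by group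
      rw [h2]
      exact A.mul_mem a.2 h1
    -- the range is normal
    have htN : t ∈ Subgroup.normalizer (φ.range : Set Q) := by
      rw [Subgroup.mem_normalizer_iff]
      intro h
      constructor
      · rintro ⟨a, rfl⟩
        refine ⟨⟨t * a * t⁻¹, hAn.conj_mem _ a.2 t⟩, ?_⟩
        rw [hφ, hφ, commutatorElement_def, commutatorElement_def]
        group
      · rintro ⟨a, ha⟩
        refine ⟨⟨t⁻¹ * a * t, by simpa using hAn.conj_mem _ a.2 t⁻¹⟩, ?_⟩
        rw [hφ] at ha
        rw [hφ]
        have h1 : h = t⁻¹ * (t * h * t⁻¹) * t := by group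
        rw [h1, ← ha, commutatorElement_def, commutatorElement_def]
        group
    have hAN : A ≤ Subgroup.normalizer (φ.range : Set Q) := by
      intro a ha
      rw [Subgroup.mem_normalizer_iff]
      intro h
      constructor
      · intro hh
        have h1 : a * h * a⁻¹ = h := by
          rw [hab a ha h (hRA hh), mul_inv_cancel_right]
        rw [h1]
        exact hh
      · intro hh
        have h2 : h ∈ A := by
          have h3 : h = a⁻¹ * (a * h * a⁻¹) * a := by group
          rw [h3]
          exact A.mul_mem (A.mul_mem (A.inv_mem ha) (hRA hh)) ha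
        have h1 : a * h * a⁻¹ = h := by
          rw [hab a ha h h2, mul_inv_cancel_right]
        rw [h1] at hh
        exact hh
    have hRn : φ.range.Normal := by
      rw [← Subgroup.normalizer_eq_top_iff, eq_top_iff]
      intro q _
      obtain ⟨k, a, ha, rfl⟩ := hgen t ht q
      exact Subgroup.mul_mem _ (Subgroup.zpow_mem _ htN k) (hAN ha)
    -- the quotient is commutative
    have hcomm : IsMulCommutative (Q ⧸ φ.range) := by
      have hTa : ∀ a ∈ A, Commute (QuotientGroup.mk a : Q ⧸ φ.range) (QuotientGroup.mk t) := by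
        intro a ha
        have h1 : (QuotientGroup.mk' φ.range) ⁅a, t⁆ = 1 :=
          (QuotientGroup.eq_one_iff _).mpr ⟨⟨a, ha⟩, rfl⟩
        rw [map_commutatorElement] at h1
        exact commutatorElement_eq_one_iff_commute.mp h1
      have hAA : ∀ a ∈ A, ∀ b ∈ A,
          Commute (QuotientGroup.mk a : Q ⧸ φ.range) (QuotientGroup.mk b) := by
        intro a ha b hb
        change (QuotientGroup.mk a : Q ⧸ φ.range) * QuotientGroup.mk b =
          QuotientGroup.mk b * QuotientGroup.mk a
        rw [← QuotientGroup.mk_mul, ← QuotientGroup.mk_mul, hab a ha b hb]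
      refine ⟨⟨fun x y => ?_⟩⟩
      induction x using QuotientGroup.induction_on with
      | H q₁ =>
        induction y using QuotientGroup.induction_on with
        | H q₂ =>
          obtain ⟨i, a, ha, rfl⟩ := hgen t ht q₁
          obtain ⟨j, b, hb, rfl⟩ := hgen t ht q₂
          rw [QuotientGroup.mk_mul, QuotientGroup.mk_mul, QuotientGroup.mk_zpow,
            QuotientGroup.mk_zpow]
          have c1 : Commute ((QuotientGroup.mk t : Q ⧸ φ.range) ^ i) ((QuotientGroup.mk t) ^ j) :=
            (Commute.refl _).zpow_zpow i j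
          have c2 : Commute ((QuotientGroup.mk t : Q ⧸ φ.range) ^ i) (QuotientGroup.mk b) :=
            ((hTa b hb).symm).zpow_left i
          have c3 : Commute (QuotientGroup.mk a : Q ⧸ φ.range) ((QuotientGroup.mk t) ^ j) :=
            (hTa a ha).zpow_right j
          have c4 : Commute (QuotientGroup.mk a : Q ⧸ φ.range) (QuotientGroup.mk b) :=
            hAA a ha b hb
          exact ((c1.mul_right c2).mul_left (c3.mul_right c4)).eq
    have hle : commutator Q ≤ φ.range :=
      Subgroup.Normal.quotient_commutative_iff_commutator_le.mp hcomm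
    have hge : φ.range ≤ commutator Q := by
      rintro _ ⟨a, rfl⟩
      rw [hφ, _root_.commutator_def]
      exact Subgroup.commutator_mem_commutator (Subgroup.mem_top _) (Subgroup.mem_top _)
    have heq : commutator Q = φ.range := le_antisymm hle hge
    have h1 : Nat.card φ.ker * φ.ker.index = Nat.card ↥A := Subgroup.card_mul_index φ.ker
    rw [Subgroup.index_ker, hker] at h1
    have h2 : Nat.card ↥((A ⊓ Subgroup.center Q).subgroupOf A) =
        Nat.card ↥(A ⊓ Subgroup.center Q) :=
      Nat.card_congr (Subgroup.subgroupOfEquivOfLe inf_le_left).toEquiv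
    rw [h2] at h1
    rw [heq, mul_comm]
    exact h1
  · -- centralizers of non-central elements of `A`
    intro x hx hxZ q hq
    by_contra hqA
    apply hxZ
    exact ⟨hx, hcen q hqA x hx (Subgroup.mem_centralizer_iff.mp hq x (Set.mem_singleton x))⟩
  · -- class sizes outside `A`
    intro s hs
    have hsC : s ∈ Subgroup.centralizer ({s} : Set Q) := by
      rw [Subgroup.mem_centralizer_iff]
      intro h hh
      rw [Set.mem_singleton_iff.mp hh]
    have hCA : A ⊓ Subgroup.centralizer ({s} : Set Q) = A ⊓ Subgroup.center Q := by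
      ext x
      simp only [Subgroup.mem_inf]
      constructor
      · rintro ⟨hx, hxC⟩
        exact ⟨hx, hcen s hs x hx (Subgroup.mem_centralizer_iff.mp hxC s rfl).symm⟩
      · rintro ⟨hx, hxZ⟩
        refine ⟨hx, Subgroup.mem_centralizer_iff.mpr (fun h hh => ?_)⟩
        rw [Set.mem_singleton_iff.mp hh]
        exact Subgroup.mem_center_iff.mp hxZ s
    have hsup : Subgroup.centralizer ({s} : Set Q) ⊔ A = ⊤ := by
      rw [eq_top_iff]
      intro q _
      obtain ⟨k, a, ha, rfl⟩ := hgen s hs q
      exact Subgroup.mul_mem_sup (Subgroup.zpow_mem _ hsC k) ha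
    have hrel : A.relIndex (Subgroup.centralizer ({s} : Set Q)) = p := by
      rw [← Subgroup.relIndex_sup_right (H := Subgroup.centralizer ({s} : Set Q)) (K := A), hsup,
        Subgroup.relIndex_top_right, hidx]
    have hcardC : Nat.card ↥(A ⊓ Subgroup.center Q) * p =
        Nat.card ↥(Subgroup.centralizer ({s} : Set Q)) := by
      have h1 := Subgroup.relIndex_mul_relIndex ⊥ (A ⊓ Subgroup.centralizer ({s} : Set Q))
        (Subgroup.centralizer ({s} : Set Q)) bot_le inf_le_right
      rw [Subgroup.relIndex_bot_left, Subgroup.relIndex_bot_left, Subgroup.inf_relIndex_right, hrel,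
        hCA] at h1
      exact h1
    have h3 : (Subgroup.centralizer ({s} : Set Q)).index *
        Nat.card ↥(Subgroup.centralizer ({s} : Set Q)) = Nat.card Q := Subgroup.index_mul_card _
    have h4 : Nat.card ↥A * A.index = Nat.card Q := Subgroup.card_mul_index A
    rw [hidx] at h4
    rw [← hcardC, ← h4, ← mul_assoc] at h3
    exact Nat.eq_of_mul_eq_mul_right hp.pos h3

example {Q : Type*} [Group Q] [Finite Q] {p : ℕ} [Fact p.Prime] (A : Subgroup Q) [A.Normal]
    (hab : ∀ x ∈ A, ∀ y ∈ A, x * y = y * x) (hidx : A.index = p) :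
    ∃ Z : Subgroup Q, Z ≤ A ∧ Nat.card (commutator Q) * Nat.card Z = Nat.card A ∧
      (∀ x ∈ A, x ∉ Z → Subgroup.centralizer ({x} : Set Q) ≤ A) ∧
      (∀ t : Q, t ∉ A → (Subgroup.centralizer ({t} : Set Q)).index * Nat.card Z = Nat.card A) :=
  ab_key A hab hidx

end Cfsg.Agent.H80.VL
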