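import Mathlib
import Cfsg.Agent.H53.VLMaxSub

/-!
# S3777-M3: a third maximal subgroup
-/

set_option autoImplicit false
set_option linter.unusedVariables false
set_option linter.style.haveILetI false

namespace Cfsg.Agent.H80.VL

/-- A subgroup of index `p` in a finite `p`-group is normal. -/
theorem normal_of_index_p {S : Type*} [Group S] [Finite S] {p : ℕ} [Fact p.Prime]
    (hS : IsPGroup p S) (Q : Subgroup S) (hQ : Q.index = p) : Q.Normal := by
  have hp : p.Prime := Fact.out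
  obtain ⟨k, hk⟩ := IsPGroup.iff_card.1 hS
  apply Subgroup.normal_of_index_eq_minFac_card
  have hk0 : k ≠ 0 := by
    rintro rfl
    have h1 : Q.index ∣ Nat.card S := Subgroup.index_dvd_card Q
    rw [hk, pow_zero, hQ] at h1
    exact hp.one_lt.ne' (Nat.dvd_one.1 h1)
  rw [hQ, hk, hp.pow_minFac hk0]

/-- A homomorphism to `Multiplicative (ZMod p)` with a prescribed kernel of index `p`. -/
theorem exists_hom_ker {S : Type*} [Group S] [Finite S] {p : ℕ} [Fact p.Prime]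
    (hS : IsPGroup p S) (Q : Subgroup S) (hQ : Q.index = p) :
    ∃ χ : S →* Multiplicative (ZMod p), ∀ s : S, χ s = 1 ↔ s ∈ Q := by
  haveI : Q.Normal := normal_of_index_p hS Q hQ
  have hcard : Nat.card (S ⧸ Q) = p := hQ
  have hcyc : IsCyclic (S ⧸ Q) := isCyclic_of_prime_card hcard
  have e0 : Multiplicative (ZMod (Nat.card (S ⧸ Q))) ≃* (S ⧸ Q) := zmodCyclicMulEquiv hcyc
  rw [hcard] at e0
  refine ⟨e0.symm.toMonoidHom.comp (QuotientGroup.mk' Q), fun s => ?_⟩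
  simp only [MonoidHom.comp_apply, MulEquiv.coe_toMonoidHom, QuotientGroup.mk'_apply]
  rw [MulEquiv.map_eq_one_iff, QuotientGroup.eq_one_iff]

theorem exists_M3 {G : Type*} [Group G] [Finite G] {p : ℕ} [Fact p.Prime] (hG : IsPGroup p G)
    (M D N₂ : Subgroup G) (hDM : D ≤ M) (hD : D.relIndex M = p)
    (hN₂M : N₂ ≤ M) (hcomm : ⁅M, M⁆ ≤ N₂) (hN₂D : ¬ N₂ ≤ D) (hN₂ne : N₂ ≠ M) :
    ∃ M₃ : Subgroup G, M₃ ≤ M ∧ M₃.relIndex M = p ∧ M₃ ⊓ N₂ ≤ D ∧ ¬ M₃ ≤ D := by
  classical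
  have hp : p.Prime := Fact.out
  obtain ⟨M₁, hN₂M₁, hM₁M, hM₁⟩ := Cfsg.Agent.H53.VL.exists_max_between hG N₂ M hN₂M hN₂ne
  have hMp : IsPGroup p ↥M := hG.to_subgroup M
  obtain ⟨χD, hχD⟩ := exists_hom_ker hMp (D.subgroupOf M) hD
  obtain ⟨χ1, hχ1⟩ := exists_hom_ker hMp (M₁.subgroupOf M) hM₁
  have cD : p * Nat.card D = Nat.card M := by
    have h := Cfsg.Agent.H53.VL.relIndex_mul_card_of_le hDM
    rw [hD] at h
    exact h
  have cM₁ : p * Nat.card M₁ = Nat.card M := by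
    have h := Cfsg.Agent.H53.VL.relIndex_mul_card_of_le hM₁M
    rw [hM₁] at h
    exact h
  obtain ⟨x, hxD, hxM₁⟩ : ∃ x ∈ D, x ∉ M₁ := by
    by_contra hcon
    have hle : D ≤ M₁ := by
      intro x hx
      by_contra hx1
      exact hcon ⟨x, hx, hx1⟩
    have heq : D = M₁ := Subgroup.eq_of_le_of_card_ge hle (by
      have h : p * Nat.card M₁ = p * Nat.card D := by rw [cM₁, cD]
      exact (Nat.eq_of_mul_eq_mul_left hp.pos h).le)
    exact hN₂D (heq ▸ hN₂M₁)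
  have hχx : (χD * χ1) ⟨x, hDM hxD⟩ ≠ 1 := by
    rw [MonoidHom.mul_apply, (hχD _).mpr (Subgroup.mem_subgroupOf.mpr hxD), one_mul]
    intro h
    exact hxM₁ (Subgroup.mem_subgroupOf.mp ((hχ1 _).mp h))
  have hidx : (χD * χ1).ker.index = p := by
    rw [Subgroup.index_ker]
    have hcard : Nat.card (Multiplicative (ZMod p)) = p := by
      rw [Nat.card_eq_fintype_card, Fintype.card_multiplicative, ZMod.card]
    haveI : Fact (Nat.card (Multiplicative (ZMod p))).Prime := ⟨by rw [hcard]; exact hp⟩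
    rcases Subgroup.eq_bot_or_eq_top_of_prime_card (χD * χ1).range with h | h
    · exfalso
      apply hχx
      have h1 : (χD * χ1) ⟨x, hDM hxD⟩ ∈ (χD * χ1).range := ⟨_, rfl⟩
      rw [h, Subgroup.mem_bot] at h1
      exact h1
    · rw [h, Subgroup.card_top]
      exact hcard
  have hrel : ((χD * χ1).ker.map M.subtype).relIndex M = p := by
    rw [Subgroup.relIndex, Subgroup.subgroupOf,
      Subgroup.comap_map_eq_self_of_injective (Subgroup.subtype_injective M)]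
    exact hidx
  refine ⟨(χD * χ1).ker.map M.subtype, Subgroup.map_subtype_le _, hrel, ?_, ?_⟩
  · rintro m ⟨⟨m', hm', rfl⟩, hmN⟩
    have h1 : χ1 m' = 1 := (hχ1 m').mpr (Subgroup.mem_subgroupOf.mpr (hN₂M₁ hmN))
    have h2 : χD m' * χ1 m' = 1 := hm'
    rw [h1, mul_one] at h2
    exact Subgroup.mem_subgroupOf.mp ((hχD m').mp h2)
  · intro hle
    have c3 : p * Nat.card ((χD * χ1).ker.map M.subtype) = Nat.card M := by
      have h := Cfsg.Agent.H53.VL.relIndex_mul_card_of_le (Subgroup.map_subtype_le (χD * χ1).ker)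
      rw [hrel] at h
      exact h
    have heq : (χD * χ1).ker.map M.subtype = D := Subgroup.eq_of_le_of_card_ge hle (by
      have h : p * Nat.card D = p * Nat.card ((χD * χ1).ker.map M.subtype) := by rw [cD, c3]
      exact (Nat.eq_of_mul_eq_mul_left hp.pos h).le)
    have hx3 : x ∈ (χD * χ1).ker.map M.subtype := heq ▸ hxD
    obtain ⟨x', hx', hxx'⟩ := hx3
    have hx'' : x' = ⟨x, hDM hxD⟩ := Subtype.ext hxx'
    rw [hx''] at hx'
    exact hχx hx'

example {G : Type*} [Group G] [Finite G] {p : ℕ} [Fact p.Prime] (hG : IsPGroup p G)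
    (M D N₂ : Subgroup G) (hDM : D ≤ M) (hD : D.relIndex M = p)
    (hN₂M : N₂ ≤ M) (hcomm : ⁅M, M⁆ ≤ N₂) (hN₂D : ¬ N₂ ≤ D) (hN₂ne : N₂ ≠ M) :
    ∃ M₃ : Subgroup G, M₃ ≤ M ∧ M₃.relIndex M = p ∧ M₃ ⊓ N₂ ≤ D ∧ ¬ M₃ ≤ D :=
  exists_M3 hG M D N₂ hDM hD hN₂M hcomm hN₂D hN₂ne

end Cfsg.Agent.H80.VL
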