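import Mathlib
import Cfsg.Agent.H45.D4Defs

/-!
# The kernel of the pairing (team project S1082, piece P-PAIR)
-/

set_option autoImplicit false

namespace Cfsg.Agent.H80.D4

open Matrix Cfsg.Agent.H49 Cfsg.Agent.H45.D4

variable {F : Type*} [Field F]

/-- Inverse of `pos`. -/
def unpos (n : ℕ) : I8 :=
  if h : n < 4 then Sum.inl ⟨n, h⟩ else Sum.inr ⟨(n - 4) % 4, Nat.mod_lt _ (by norm_num)⟩

theorem unpos_pos : ∀ a : I8, unpos (pos a) = a := by decide

theorem pos_ne_par : ∀ a : I8, pos a ≠ par (pos a) := by decide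

theorem partner_symm : ∀ a b : I8, pos b = par (pos a) → pos a = par (pos b) := by decide

theorem pos_inj : ∀ a b : I8, pos a = pos b → a = b := by decide

theorem partner_inl_inr : ∀ j : Fin 4, pos (Sum.inr j) = par (pos (Sum.inl j)) := by decide

theorem partner_cases : ∀ a b : I8, pos b = par (pos a) →
    (∃ j : Fin 4, a = Sum.inl j ∧ b = Sum.inr j) ∨ (∃ j : Fin 4, a = Sum.inr j ∧ b = Sum.inl j) := by
  decide

theorem pair_cover : ∀ a b : I8, pos a < pos b → pos b ≠ par (pos a) →
    ∃ r : Fin 24, pairTab r = (pos a, pos b) := by decide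

theorem quad_single_add (a b : I8) (hab : a ≠ b) :
    Cfsg.quadFormPlus 4 F (Pi.single a 1 + Pi.single b 1) =
      if pos b = par (pos a) then 1 else 0 := by
  rcases a with i | i <;> rcases b with j | j <;> fin_cases i <;> fin_cases j <;>
    simp [Cfsg.quadFormPlus, Pi.single_apply, pos, par] at hab ⊢

theorem quad_single (a : I8) :
    Cfsg.quadFormPlus 4 F (Pi.single a 1) = 0 := by
  rcases a with i | i <;> simp [Cfsg.quadFormPlus, Pi.single_apply]

theorem trace_transpose_mul (X R : Matrix I8 I8 F) :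
    Matrix.trace (Xᵀ * R) = ∑ a : I8, ∑ b : I8, X a b * R a b := by
  rw [Matrix.trace, Finset.sum_comm]
  simp [Matrix.mul_apply]

theorem Bmat_apply (a b : I8) : Bmat F a b = if pos b = par (pos a) then 1 else 0 := by
  rcases a with i | i <;> rcases b with j | j <;> fin_cases i <;> fin_cases j <;>
    simp [Bmat, pos, par]

theorem kerPair : KerPair F := by
  intro c R H1 H2
  -- diagonal entries
  have hdiag : ∀ a : I8, R a a = 0 := by
    intro a
    have h := H1 (Pi.single a 1)
    rw [quad_single, mul_zero] at h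
    simpa using h
  -- symmetric sums
  have hsym : ∀ a b : I8, a ≠ b → R a b + R b a = c * (if pos b = par (pos a) then 1 else 0) := by
    intro a b hab
    have h := H1 (Pi.single a 1 + Pi.single b 1)
    rw [quad_single_add a b hab] at h
    rw [← h]
    simp [Matrix.mulVec_add, add_dotProduct, hdiag]
    ring
  -- the entries in the table vanish
  have hz : ∀ r : Fin 24, R (unpos (pairTab r).1) (unpos (pairTab r).2) = 0 := by
    intro r
    have h := H2 (Sum.inr r)
    rw [trace_transpose_mul] at h
    fin_cases r <;>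
      simpa [Xtab, pairTab, sgnTab, pos, unpos, Fintype.sum_sum_type, Fin.sum_univ_four, c0] using h
  -- non-partner entries vanish
  have hZlt : ∀ a b : I8, pos a < pos b → pos b ≠ par (pos a) → R a b = 0 := by
    intro a b hlt hnp
    obtain ⟨r, hr⟩ := pair_cover a b hlt hnp
    have h := hz r
    rw [hr] at h
    simpa [unpos_pos] using h
  have hZ : ∀ a b : I8, a ≠ b → pos b ≠ par (pos a) → R a b = 0 := by
    intro a b hab hnp
    rcases Nat.lt_or_ge (pos a) (pos b) with hlt | hge
    · exact hZlt a b hlt hnp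
    · have hne : pos b ≠ pos a := fun h => hab (pos_inj _ _ h.symm)
      have hlt : pos b < pos a := lt_of_le_of_ne hge hne
      have hnp' : pos a ≠ par (pos b) := fun h => hnp (partner_symm b a h)
      have h1 := hZlt b a hlt hnp'
      have h2 := hsym a b hab
      rw [if_neg hnp, mul_zero, h1, add_zero] at h2
      exact h2
  have h0 := H2 (Sum.inl 0)
  have h1 := H2 (Sum.inl 1)
  have h2 := H2 (Sum.inl 2)
  have h3 := H2 (Sum.inl 3)
  rw [trace_transpose_mul] at h0 h1 h2 h3
  simp [Xtab, hX, Fintype.sum_sum_type, Fin.sum_univ_four, c0] at h0 h1 h2 h3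
  have hc : c = 2 * R (Sum.inl 0) (Sum.inr 0) := by
    linear_combination (-1 : F) * h3 - 2 * h0 - 2 * h1 - h2
  have hup : ∀ j : Fin 4, R (Sum.inl j) (Sum.inr j) = R (Sum.inl 0) (Sum.inr 0) := by
    intro j
    fin_cases j
    · rfl
    · change R (Sum.inl 1) (Sum.inr 1) = R (Sum.inl 0) (Sum.inr 0)
      linear_combination (-1 : F) * h0
    · change R (Sum.inl 2) (Sum.inr 2) = R (Sum.inl 0) (Sum.inr 0)
      linear_combination (-1 : F) * h0 - h1
    · change R (Sum.inl 3) (Sum.inr 3) = R (Sum.inl 0) (Sum.inr 0)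
      linear_combination (-1 : F) * h0 - h1 - h2
  have hlow : ∀ j : Fin 4, R (Sum.inr j) (Sum.inl j) = R (Sum.inl 0) (Sum.inr 0) := by
    intro j
    have h := hsym (Sum.inl j) (Sum.inr j) (by simp)
    rw [if_pos (partner_inl_inr j), mul_one, hup j] at h
    linear_combination h + hc
  refine ⟨R (Sum.inl 0) (Sum.inr 0), ?_, hc⟩
  ext a b
  rw [Matrix.smul_apply, Bmat_apply, smul_eq_mul]
  by_cases hp : pos b = par (pos a)
  · rw [if_pos hp, mul_one]
    rcases partner_cases a b hp with ⟨j, rfl, rfl⟩ | ⟨j, rfl, rfl⟩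
    · exact hup j
    · exact hlow j
  · rw [if_neg hp, mul_zero]
    by_cases hab : a = b
    · subst hab
      exact hdiag a
    · exact hZ a b hab hp

example : KerPair F := kerPair

end Cfsg.Agent.H80.D4
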