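import Cfsg.Agent.H46.OSDefs
import Cfsg.Agent.H23.StbDecDefs2
/-!
Team project S2159 (helper46), piece OS-DNG (helper80), GENERIC PART (light imports): graph
automorphisms normalise the set of diagonal automorphisms, for a datum with a pack, the S2157
conjugation formula and generation by the fundamental root elements (`dNG_gen`).  The wrapper for
the seven types is `Cfsg.Agent.H80.OSDNG`.

`ψ = g d g⁻¹` maps `x_{±α_j}(s)` to `x_{±α_j}(c_j^{±1} s)` (`t ↦ t ^ e` is onto the finite field);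
HATEX gives `k ∈ Ĥ` realising the `c_j`, HATAUT the conjugation `δ` by `k`, `ψ = δ` on the
fundamental root elements, and ROOTCHAR says `k` is the diagonal matrix of a root character.
-/
set_option autoImplicit false

namespace Cfsg.Agent.H80.OS

open Cfsg Cfsg.Lie Cfsg.Agent.H23 Cfsg.Agent.H23.Stb Cfsg.Agent.H23.StbD Cfsg.Agent.H46.OS
open scoped MatrixGroups

universe u

/-- a group element whose matrix is `x_r(t)` is `xG r t` -/
theorem eq_xG_of_mat {D : ChevalleyDatum} {F : Type u} [Field F] {z : ℕ → ℕ → ℤ} (hS : Sem D F z)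
    (y : ↥(D.group F)) (r : ℕ) (t : F)
    (h : ((y : GL D.Idx F) : Matrix D.Idx D.Idx F) = D.x F r t) : y = xG hS r t :=
  Subtype.ext (Units.ext h)

/-- on a finite field, `t ↦ t ^ graphExp (ringChar F) i j` is onto -/
theorem exists_pow_graphExp {F : Type u} [Field F] [Finite F] (D : ChevalleyDatum) (i j : ℕ)
    (s : F) : ∃ t : F, t ^ D.graphExp (ringChar F) i j = s := by
  unfold ChevalleyDatum.graphExp
  split_ifs
  · have : CharP F (ringChar F) := ringChar.charP F
    have hp : (ringChar F).Prime := CharP.char_is_prime F (ringChar F)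
    have : Fact (ringChar F).Prime := ⟨hp⟩
    have hinj : Function.Injective (frobenius F (ringChar F)) := frobenius_inj F (ringChar F)
    obtain ⟨t, ht⟩ := (Finite.injective_iff_surjective.mp hinj) s
    exact ⟨t, ht⟩
  · exact ⟨s, pow_one s⟩

/-- OS-DNG for a datum with a pack, the S2157 conjugation formula and generation by the
fundamental root elements. -/
theorem dNG_gen (h1 : StHatEx.{u}) (h2 : StHatAut.{u}) (h3 : StRootChar.{u})
    (F : Type u) [Field F] [Finite F] (D : ChevalleyDatum) (z η : ℕ → ℕ → ℤ) (hP : PackB D F z η)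
    (hconj : ∀ χ : ℕ → Fˣ, D.IsRootCharacter χ → ∀ r < D.nroots, ∀ t : F,
      D.charDiag F χ * D.x F r t * D.charDiag F (fun s => (χ s)⁻¹) = D.x F r ((χ r : F) * t))
    (hext : ∀ a b : ↥(D.group F) →* ↥(D.group F),
      (∀ (y : ↥(D.group F)) (i : ℕ) (t : F), i < D.rank →
        (((y : GL D.Idx F) : Matrix D.Idx D.Idx F) = D.x F (D.simple i) t ∨
          ((y : GL D.Idx F) : Matrix D.Idx D.Idx F) = D.x F (D.neg (D.simple i)) t) → a y = b y) →
      a = b)
    (m : ℕ → ℕ → ℤ) (hm : Coord D m)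
    (hchain : ∀ r < D.nroots, ∀ s < D.nroots, ∀ k, D.chainRoot r s 1 = some k →
      k < D.nroots ∧ s ≠ r ∧ s ≠ D.neg r)
    (g d : MulAut ↥(D.group F)) (hg : D.IsGraphAut g) (hd : D.IsDiagonalAut d) :
    D.IsDiagonalAut (g * d * g⁻¹) := by
  have hS := hP.sem
  obtain ⟨π, -, hg⟩ := hg
  obtain ⟨χ, hχ, hd⟩ := hd
  have hgpos : ∀ (i : Fin D.rank) (t : F), g (xG hS (D.simple i) t) =
      xG hS (D.simple (π i)) (t ^ D.graphExp (ringChar F) i (π i)) := by
    intro i t
    exact eq_xG_of_mat hS _ _ _ ((hg (xG hS (D.simple i) t) i t).1 rfl)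
  have hgneg : ∀ (i : Fin D.rank) (t : F), g (xG hS (D.neg (D.simple i)) t) =
      xG hS (D.neg (D.simple (π i))) (t ^ D.graphExp (ringChar F) i (π i)) := by
    intro i t
    exact eq_xG_of_mat hS _ _ _ ((hg (xG hS (D.neg (D.simple i)) t) i t).2 rfl)
  have hdx : ∀ r < D.nroots, ∀ t : F, d (xG hS r t) = xG hS r ((χ r : F) * t) := by
    intro r hr t
    apply eq_xG_of_mat hS
    rw [hd]
    exact hconj χ hχ r hr t
  -- the scalars
  obtain ⟨c, hcdef⟩ : ∃ c : ℕ → F, ∀ (j : ℕ) (hj : j < D.rank),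
      c j = (χ (D.simple (π.symm ⟨j, hj⟩)) : F) ^
        D.graphExp (ringChar F) (π.symm ⟨j, hj⟩) j :=
    ⟨fun j => if hj : j < D.rank then (χ (D.simple (π.symm ⟨j, hj⟩)) : F) ^
        D.graphExp (ringChar F) (π.symm ⟨j, hj⟩) j else 1, fun j hj => by simp only [dif_pos hj]⟩
  have hc : ∀ j < D.rank, c j ≠ 0 := by
    intro j hj
    rw [hcdef j hj]
    exact pow_ne_zero _ (Units.ne_zero _)
  have hψpos : ∀ (j : ℕ) (hj : j < D.rank) (s : F),
      (g * d * g⁻¹) (xG hS (D.simple j) s) = xG hS (D.simple j) (c j * s) := by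
    intro j hj s
    obtain ⟨i, hi⟩ : ∃ i : Fin D.rank, π.symm ⟨j, hj⟩ = i := ⟨_, rfl⟩
    have hij : ((π i : Fin D.rank) : ℕ) = j := by rw [← hi, Equiv.apply_symm_apply]
    obtain ⟨t, ht⟩ := exists_pow_graphExp D i j s
    have e1 : g (xG hS (D.simple i) t) = xG hS (D.simple j) s := by
      rw [hgpos i t, hij, ht]
    have e2 : g⁻¹ (xG hS (D.simple j) s) = xG hS (D.simple i) t := by
      rw [← e1]
      exact MulAut.inv_apply_self _ g _
    show g (d (g⁻¹ (xG hS (D.simple j) s))) = _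
    rw [e2, hdx _ (hP.tab.simple_lt i i.2) t, hgpos i _, hij, mul_pow, ht, hcdef j hj, hi]
  have hψneg : ∀ (j : ℕ) (hj : j < D.rank) (s : F),
      (g * d * g⁻¹) (xG hS (D.neg (D.simple j)) s) =
        xG hS (D.neg (D.simple j)) ((c j)⁻¹ * s) := by
    intro j hj s
    obtain ⟨i, hi⟩ : ∃ i : Fin D.rank, π.symm ⟨j, hj⟩ = i := ⟨_, rfl⟩
    have hij : ((π i : Fin D.rank) : ℕ) = j := by rw [← hi, Equiv.apply_symm_apply]
    obtain ⟨t, ht⟩ := exists_pow_graphExp D i j s
    have e1 : g (xG hS (D.neg (D.simple i)) t) = xG hS (D.neg (D.simple j)) s := by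
      rw [hgneg i t, hij, ht]
    have e2 : g⁻¹ (xG hS (D.neg (D.simple j)) s) = xG hS (D.neg (D.simple i)) t := by
      rw [← e1]
      exact MulAut.inv_apply_self _ g _
    show g (d (g⁻¹ (xG hS (D.neg (D.simple j)) s))) = _
    have hri : D.simple i < D.nroots := hP.tab.simple_lt i i.2
    rw [e2, hdx _ (hP.tab.neg_lt _ hri) t, hgneg i _, hij, hχ.1 _ hri, Units.val_inv_eq_inv_val,
      mul_pow, ht, inv_pow, hcdef j hj, hi]
  obtain ⟨k, hk, hkx⟩ := h1 D F z η hP m hm c hc
  obtain ⟨δ, hδ⟩ := h2 D F z hS k hk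
  have heq : (g * d * g⁻¹ : MulAut ↥(D.group F)).toMonoidHom = δ.toMonoidHom := by
    apply hext
    intro y i t hi hy
    show (g * d * g⁻¹) y = δ y
    rcases hy with hy | hy
    · rw [eq_xG_of_mat hS y _ t hy, hψpos i hi t]
      apply Subtype.ext
      rw [hδ]
      exact ((hkx i hi t).1).symm
    · rw [eq_xG_of_mat hS y _ t hy, hψneg i hi t]
      apply Subtype.ext
      rw [hδ]
      exact ((hkx i hi t).2).symm
  obtain ⟨χ', hχ', hk1, hk2⟩ := h3 D F z η hP hchain k hk
  refine ⟨χ', hχ', fun y => ?_⟩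
  have e : (g * d * g⁻¹) y = δ y := DFunLike.congr_fun heq y
  rw [e, hδ y, Units.val_mul, Units.val_mul, hk1, hk2]

end Cfsg.Agent.H80.OS

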