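import Mathlib

set_option autoImplicit false
set_option linter.unusedSectionVars false
set_option linter.style.haveILetI false

/-!
# helper80: a `p'`-group of automorphisms of a cyclic `p`-group

Let `P` be a cyclic `p`-subgroup of a finite group `G` and `T ≤ N_G(P)` with `p ∤ |T : C_T(P)|`.
Then `T / C_T(P)` is cyclic of order dividing `p - 1` and acts freely on `P \ {1}`.

* `actHom`: the conjugation action `T →* MulAut P`.
* `cyclic_sub_action`: the statement.
-/

namespace Cfsg.Agent.H80

section CycAct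

variable {G : Type*} [Group G]

/-- The conjugation action of `T ≤ N_G(P)` on `P`. -/
noncomputable def actHom (P T : Subgroup G) (hTN : T ≤ Subgroup.normalizer (P : Set G)) :
    T →* MulAut P :=
  P.normalizerMonoidHom.comp (Subgroup.inclusion hTN)

theorem actHom_apply (P T : Subgroup G) (hTN : T ≤ Subgroup.normalizer (P : Set G)) (t : T)
    (q : P) : ((actHom P T hTN t q : P) : G) = (t : G) * q * (t : G)⁻¹ := rfl

theorem actHom_eq_one_iff (P T : Subgroup G) (hTN : T ≤ Subgroup.normalizer (P : Set G))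
    (t : T) : actHom P T hTN t = 1 ↔ (t : G) ∈ Subgroup.centralizer (P : Set G) := by
  constructor
  · intro h
    rw [Subgroup.mem_centralizer_iff]
    intro q hq
    have h1 : ((actHom P T hTN t ⟨q, hq⟩ : P) : G) = q := by rw [h]; rfl
    rw [actHom_apply] at h1
    calc q * (t : G) = ((t : G) * q * (t : G)⁻¹) * (t : G) := by rw [h1]
      _ = (t : G) * q := by group
  · intro h
    ext q
    rw [actHom_apply, MulAut.one_apply]
    have h1 := Subgroup.mem_centralizer_iff.mp h q q.2
    rw [← h1, mul_inv_cancel_right]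

theorem cyclic_sub_action [Finite G] (p : ℕ) [Fact p.Prime] (P T : Subgroup G)
    (hP : IsPGroup p P) [IsCyclic P] (hTN : T ≤ Subgroup.normalizer (P : Set G))
    (hcop : ¬ p ∣ (Subgroup.centralizer (P : Set G)).relIndex T)
    [hn : ((Subgroup.centralizer (P : Set G)).subgroupOf T).Normal] :
    IsCyclic (T ⧸ (Subgroup.centralizer (P : Set G)).subgroupOf T) ∧
      (Subgroup.centralizer (P : Set G)).relIndex T ∣ p - 1 ∧
      ∀ g ∈ T, ∀ x ∈ P, x ≠ 1 → g * x * g⁻¹ = x → g ∈ Subgroup.centralizer (P : Set G) := by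
  classical
  have hpp := (Fact.out : p.Prime)
  obtain ⟨k, hk⟩ := (IsPGroup.iff_card (p := p) (G := P)).mp hP
  have hker : ∀ t : T, t ∈ (Subgroup.centralizer (P : Set G)).subgroupOf T →
      actHom P T hTN t = 1 := fun t ht =>
    (actHom_eq_one_iff P T hTN t).mpr (Subgroup.mem_subgroupOf.mp ht)
  obtain ⟨ψ, hψ⟩ : ∃ ψ : T ⧸ (Subgroup.centralizer (P : Set G)).subgroupOf T →* MulAut P,
      ∀ t : T, ψ (QuotientGroup.mk t) = actHom P T hTN t :=
    ⟨QuotientGroup.lift _ (actHom P T hTN) hker, fun t => rfl⟩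
  have hinj : Function.Injective ψ := by
    rw [injective_iff_map_eq_one]
    intro q hq
    induction q using QuotientGroup.induction_on with
    | H t =>
      rw [hψ] at hq
      rw [QuotientGroup.eq_one_iff, Subgroup.mem_subgroupOf]
      exact (actHom_eq_one_iff P T hTN t).mp hq
  have hcardQ : Nat.card (T ⧸ (Subgroup.centralizer (P : Set G)).subgroupOf T)
      = (Subgroup.centralizer (P : Set G)).relIndex T := rfl
  have hdvd1 : (Subgroup.centralizer (P : Set G)).relIndex T ∣ Nat.card (MulAut P) := by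
    rw [← hcardQ]; exact Subgroup.card_dvd_of_injective ψ hinj
  have hcardA : Nat.card (MulAut P) = Nat.totient (p ^ k) := by
    rw [IsCyclic.card_mulAut, hk]
  have hdvd : (Subgroup.centralizer (P : Set G)).relIndex T ∣ p - 1 := by
    rcases Nat.eq_zero_or_pos k with h0 | hpos
    · rw [hcardA, h0, pow_zero, Nat.totient_one] at hdvd1
      exact hdvd1.trans (one_dvd _)
    · rw [hcardA, Nat.totient_prime_pow hpp hpos] at hdvd1
      have hc : ((Subgroup.centralizer (P : Set G)).relIndex T).Coprime (p ^ (k - 1)) :=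
        Nat.Coprime.pow_right _ ((Nat.Prime.coprime_iff_not_dvd hpp).mpr hcop).symm
      exact hc.dvd_of_dvd_mul_left hdvd1
  refine ⟨?_, hdvd, ?_⟩
  · by_cases hp2 : p = 2
    · have h1 : (Subgroup.centralizer (P : Set G)).relIndex T = 1 := by
        rw [hp2] at hdvd
        exact Nat.dvd_one.mp hdvd
      rw [← hcardQ] at h1
      haveI : Subsingleton (T ⧸ (Subgroup.centralizer (P : Set G)).subgroupOf T) :=
        (Nat.card_eq_one_iff_unique.mp h1).1
      infer_instance
    · haveI : IsCyclic (ZMod (Nat.card P))ˣ := by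
        rw [hk]
        exact ZMod.isCyclic_units_of_prime_pow p hpp hp2 k
      haveI : IsCyclic (MulAut P) :=
        isCyclic_of_injective (IsCyclic.mulAutMulEquiv P).toMonoidHom
          (IsCyclic.mulAutMulEquiv P).injective
      exact isCyclic_of_injective ψ hinj
  · intro g hg x hx hx1 hfix
    obtain ⟨u, hu⟩ := IsCyclic.exists_monoid_generator (α := P)
    obtain ⟨α, hα⟩ : ∃ α : MulAut P, α = actHom P T hTN ⟨g, hg⟩ := ⟨_, rfl⟩
    obtain ⟨m, hm⟩ := (Submonoid.mem_powers_iff _ _).mp (hu (α u))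
    obtain ⟨i, hi⟩ := (Submonoid.mem_powers_iff _ _).mp (hu ⟨x, hx⟩)
    have hord : orderOf u = p ^ k := by
      rw [← hk]
      apply orderOf_eq_card_of_forall_mem_zpowers
      intro y
      obtain ⟨j, hj⟩ := (Submonoid.mem_powers_iff _ _).mp (hu y)
      exact ⟨j, by simpa using hj⟩
    have hαpow : ∀ j : ℕ, (α ^ j) u = u ^ (m ^ j) := by
      intro j
      induction j with
      | zero => simp
      | succ j ih =>
        rw [pow_succ', MulAut.mul_apply, ih, map_pow, ← hm, ← pow_mul, pow_succ']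
    have hαx : α ⟨x, hx⟩ = ⟨x, hx⟩ := by
      apply Subtype.ext
      rw [hα, actHom_apply]
      exact hfix
    have h1 : u ^ (m * i) = u ^ i := by
      rw [pow_mul, hm, ← map_pow, hi, hαx]
    rw [pow_eq_pow_iff_modEq, hord] at h1
    have hni : ¬ p ^ k ∣ i := by
      intro hdiv
      apply hx1
      have h2 : u ^ i = 1 := by
        rw [← hord] at hdiv
        exact orderOf_dvd_iff_pow_eq_one.mp hdiv
      rw [hi] at h2
      exact congrArg Subtype.val h2
    have hkpos : 0 < k := by
      rcases Nat.eq_zero_or_pos k with h0 | hpos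
      · exfalso; apply hni; rw [h0, pow_zero]; exact one_dvd _
      · exact hpos
    have h2 : ((p : ℤ) ^ k) ∣ (i : ℤ) * ((m : ℤ) - 1) := by
      have h3 := (Nat.modEq_iff_dvd.mp h1.symm)
      push_cast at h3
      have e : (i : ℤ) * ((m : ℤ) - 1) = (m : ℤ) * i - i := by ring
      rw [e]
      exact h3
    have hpZ : Prime (p : ℤ) := Nat.prime_iff_prime_int.mp hpp
    have h3 : (p : ℤ) ∣ (m : ℤ) - 1 := by
      by_contra hcon
      have hcop' : IsCoprime ((p : ℤ) ^ k) ((m : ℤ) - 1) :=
        (hpZ.irreducible.coprime_iff_not_dvd.mpr hcon).pow_left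
      have h4 : ((p : ℤ) ^ k) ∣ (i : ℤ) := hcop'.dvd_of_dvd_mul_right h2
      apply hni
      have h5 : ((p ^ k : ℕ) : ℤ) ∣ (i : ℤ) := by push_cast; exact h4
      exact Int.natCast_dvd_natCast.mp h5
    have h4 := dvd_sub_pow_of_dvd_sub (R := ℤ) (p := p) (a := (m : ℤ)) (b := 1) h3 (k - 1)
    have hk1 : k - 1 + 1 = k := Nat.sub_add_cancel hkpos
    rw [hk1, one_pow] at h4
    have hmod : m ^ p ^ (k - 1) ≡ 1 [MOD p ^ k] := by
      apply Nat.ModEq.symm
      rw [Nat.modEq_iff_dvd]
      push_cast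
      exact h4
    have h5 : (α ^ (p ^ (k - 1))) u = u := by
      rw [hαpow]
      conv_rhs => rw [← pow_one u]
      rw [pow_eq_pow_iff_modEq, hord]
      exact hmod
    have h6 : α ^ (p ^ (k - 1)) = 1 := by
      ext y
      obtain ⟨j, hj⟩ := (Submonoid.mem_powers_iff _ _).mp (hu y)
      rw [← hj, map_pow, h5]
      rfl
    obtain ⟨q, hq⟩ : ∃ q : T ⧸ (Subgroup.centralizer (P : Set G)).subgroupOf T,
        q = QuotientGroup.mk ⟨g, hg⟩ := ⟨_, rfl⟩
    have h7 : q ^ (p ^ (k - 1)) = 1 := by
      apply hinj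
      rw [map_pow, map_one, hq, hψ, ← hα, h6]
    have h8 : q ^ ((Subgroup.centralizer (P : Set G)).relIndex T) = 1 := by
      rw [← hcardQ]; exact pow_card_eq_one'
    have h9 : orderOf q = 1 := by
      apply Nat.eq_one_of_dvd_coprimes
        (Nat.Coprime.pow_right (k - 1) ((Nat.Prime.coprime_iff_not_dvd hpp).mpr hcop).symm)
        (orderOf_dvd_of_pow_eq_one h8) (orderOf_dvd_of_pow_eq_one h7)
    have h10 : q = 1 := orderOf_eq_one_iff.mp h9
    rw [hq, QuotientGroup.eq_one_iff, Subgroup.mem_subgroupOf] at h10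
    exact h10

end CycAct

end Cfsg.Agent.H80
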