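import Cfsg.Agent.H80.ExtMain
import Cfsg.Agent.H80.CycAct

set_option autoImplicit false
set_option linter.unusedSectionVars false
set_option linter.style.haveILetI false

/-!
# helper80: a block of `C_G(P)` inducing `B`, for a defect group `P` of `B`

* `isBrauerPairOf_of_isInducedBlock`: if the block `c` of `C_G(P)` induces `B` (`P` a
  `p`-subgroup), then `(P, c)` is a Brauer pair of `B`.
* `isMaximal_of_isInducedBlock`: if moreover `P` is a defect group of `B`, the pair is maximal.
* `not_dvd_relIndex_of_maximal_abelian`: for a maximal pair `(P, e)` with `P ≤ C_G(P)`, the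
  index of `C_G(P)` in the stabilizer of `e` in `N_G(P)` is prime to `p`.
-/

namespace Cfsg.Agent.H80

open Cfsg Cfsg.Agent.H20 Cfsg.Agent.H4

universe u

variable {G : Type u} [Group G] [Fintype G] {M : Ideal AlgInt} (p : ℕ) [Fact p.Prime]

theorem isBrauerPairOf_of_isInducedBlock (hM : IsPModular p M) {P : Subgroup G}
    (hP : IsPGroup p P) {c : Set (IrrCharacter (Subgroup.centralizer (P : Set G)))}
    {B : Set (IrrCharacter G)}
    (hc : IsInducedBlock M (Subgroup.centralizer (P : Set G)) c B) :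
    IsBrauerPairOf p M B P c := by
  classical
  haveI : Fintype ↥(Subgroup.centralizer (P : Set G)) := Fintype.ofFinite _
  have hMp := isPrime_of_isPModular hM
  have hHN : Subgroup.centralizer (P : Set G) ≤ Subgroup.normalizer (P : Set G) :=
    Subgroup.centralizer_le_normalizer _
  obtain ⟨ξ₀, hcξ⟩ := hc.1
  have hξ₀ : ξ₀ ∈ c := by rw [hcξ]; exact mem_blockOf_self hMp ξ₀
  obtain ⟨χ₁, hBχ₁⟩ := hc.2.1
  have hχ₁ : χ₁ ∈ B := by rw [hBχ₁]; exact mem_blockOf_self hMp χ₁
  obtain ⟨χ₀, hχ₀⟩ := (isModHom_brauer hM hP le_rfl hHN ξ₀).exists_irr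
  have hind_eq : ∀ g : G, inducedCentralChar (Subgroup.centralizer (P : Set G)) ξ₀.1 g
      = brauerCentralChar P (Subgroup.centralizer (P : Set G)) ξ₀.1 g := by
    intro g
    unfold inducedCentralChar brauerCentralChar
    have e : {h : Subgroup.centralizer (P : Set G) | IsConj g (h : G) ∧
        (h : G) ∈ Subgroup.centralizer (P : Set G)}
        = {h : Subgroup.centralizer (P : Set G) | IsConj g (h : G)} := by
      ext h
      exact ⟨fun hh => hh.1, fun hh => ⟨hh, h.2⟩⟩
    rw [e]
  have hχ₀B : χ₀ ∈ B := by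
    rw [hBχ₁]
    intro g
    have t3 := hχ₀ (classSum g) (classSum_mem _ g)
    rw [omega_brMap_classSum, omega_classSum _ (irr_isClassFunction χ₀), ← hind_eq] at t3
    have t4 := hc.2.2 ξ₀ hξ₀ χ₁ hχ₁ g
    have t5 := memLocalIdeal_add hMp (memLocalIdeal_neg t4) t3
    convert t5 using 1
    ring
  have hL := hχ₀ (blockElt B) (by rw [hBχ₁]; exact blockElt_mem hMp χ₁)
  rw [omega_blockElt, if_pos hχ₀B] at hL
  have h3 : brauerOmega P (blockCoeff B) ξ₀.1
      = omega ξ₀.1 (brMap P (Subgroup.centralizer (P : Set G)) (blockElt B)) := by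
    unfold brauerOmega omega
    rw [finsum_eq_sum_of_fintype, Finset.sum_div]
    apply Finset.sum_congr rfl
    intro x _
    rw [coeff_brMap, if_pos x.2, coeff_blockElt]
  have h5 := isBrauerPairOf_of_one p hM hc.2.1 hP ξ₀ (by rw [h3]; exact hL)
  rw [← hcξ] at h5
  exact h5

theorem isMaximal_of_isInducedBlock (hM : IsPModular p M) {B : Set (IrrCharacter G)}
    {P : Subgroup G} (hPD : IsDefectGroup p M B P)
    {c : Set (IrrCharacter (Subgroup.centralizer (P : Set G)))}
    (hc : IsInducedBlock M (Subgroup.centralizer (P : Set G)) c B) :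
    IsMaximalBrauerPair p M B P c := by
  have hP : IsPGroup p P := by
    obtain ⟨g, -, S, hS⟩ := id hPD
    rw [hS]
    exact S.isPGroup'.map _
  exact isMaximal_of_card_defectGroup p hM (isBrauerPairOf_of_isInducedBlock p hM hP hc) hPD
    le_rfl

theorem not_dvd_relIndex_of_maximal_abelian (hM : IsPModular p M) {B : Set (IrrCharacter G)}
    {P : Subgroup G} {e : Set (IrrCharacter (Subgroup.centralizer (P : Set G)))}
    (hmax : IsMaximalBrauerPair p M B P e) (hPC : P ≤ Subgroup.centralizer (P : Set G))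
    (T : Subgroup G)
    (hT : ∀ g : G, g ∈ T ↔ (g ∈ Subgroup.normalizer (P : Set G) ∧
      StabilizesBlock (Subgroup.centralizer (P : Set G)) e g)) :
    ¬ p ∣ (Subgroup.centralizer (P : Set G)).relIndex T := by
  obtain ⟨S⟩ : Nonempty (Sylow p T) := inferInstance
  have hS : IsPGroup p ((S : Subgroup T).map T.subtype) := S.isPGroup'.map _
  have hST : (S : Subgroup T).map T.subtype ≤ T := Subgroup.map_subtype_le _
  have h1 := le_sup_centralizer_of_maximal p hM hmax _ hS
    (fun s hs => ((hT s).mp (hST hs)).1) (fun s hs => ((hT s).mp (hST hs)).2)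
  rw [sup_eq_right.mpr hPC] at h1
  have h2 : (S : Subgroup T) ≤ (Subgroup.centralizer (P : Set G)).subgroupOf T := by
    intro s hs
    rw [Subgroup.mem_subgroupOf]
    exact h1 ⟨s, hs, rfl⟩
  intro hdvd
  have h3 : ((Subgroup.centralizer (P : Set G)).subgroupOf T).index ∣ (S : Subgroup T).index :=
    Subgroup.index_dvd_of_le h2
  exact S.not_dvd_index (hdvd.trans h3)

end Cfsg.Agent.H80
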