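import Cfsg.Agent.H80.NilFusion

set_option autoImplicit false
set_option linter.unusedSectionVars false
set_option linter.style.haveILetI false

/-!
# helper80: Brauer pairs of a block `f` of `C_G(Q)` and Brauer pairs of `G` above `(Q, f)`

For a Brauer pair `(Q, f)` of `B` and a Brauer pair `(R, g)` of the block `f` of `H = C_G(Q)`,
the pair `(Q R, g)` is a Brauer pair of `B` (here `C_H(R) = C_G(Q R)`).

* `supEqv`: `C_H(R) ≃* C_G(Q ⊔ R)`.
* `isBrauerPairOf_sup`: `(Q ⊔ R, g)` is a Brauer pair of `B`.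
* `isNilpotentBlock_centralizer`: if `B` is nilpotent, so is `f`.
* `isDefectGroup_centralizer_of_nilpotent`: for `B` nilpotent and `(Q, f) ≤ (P, e)`, `C_P(Q)` is
  a defect group of `f`.
-/

namespace Cfsg.Agent.H80

open Cfsg Cfsg.Agent.H20 Cfsg.Agent.H4

universe u

variable {G : Type u} [Group G] [Fintype G] {M : Ideal AlgInt}

section Gen

variable (H : Subgroup G) (R : Subgroup H) (R' : Subgroup G)
  (ψ : Subgroup.centralizer (R : Set H) ≃* Subgroup.centralizer (R' : Set G))
  (hψ : ∀ c, ((ψ c : _) : G) = ((c : H) : G))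

include hψ in
theorem brauerOmega_eqv (β : H → ℂ) (β' : G → ℂ) (hβ : ∀ x : H, β' (x : G) = β x)
    (ξ : IrrCharacter (Subgroup.centralizer (R : Set H))) :
    brauerOmega R' β' (eqvIrr ψ ξ).1 = brauerOmega R β ξ.1 := by
  unfold brauerOmega
  rw [← finsum_comp_equiv ψ.toEquiv]
  apply finsum_congr
  intro c
  rw [eqvIrr_apply, eqvIrr_apply, map_one]
  have e1 : ψ.symm (ψ.toEquiv c) = c := ψ.symm_apply_apply c
  rw [e1]
  have e2 : ((ψ.toEquiv c : _) : G) = ((c : H) : G) := hψ c
  rw [e2, hβ]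

include hψ in
theorem stabilizesBlock_eqv {g : Set (IrrCharacter (Subgroup.centralizer (R : Set H)))} {x : H}
    (hxN : (x : G) ∈ Subgroup.normalizer ((Subgroup.centralizer (R' : Set G) : Subgroup G) : Set G))
    (hx : StabilizesBlock (Subgroup.centralizer (R : Set H)) g x) :
    StabilizesBlock (Subgroup.centralizer (R' : Set G)) (eqvIrr ψ '' g) (x : G) := by
  refine ⟨hxN, ?_⟩
  rintro ξ' ⟨χ, hχ, rfl⟩
  obtain ⟨χ', hχ', hconj⟩ := hx.2 χ hχ
  refine ⟨eqvIrr ψ χ', ⟨χ', hχ', rfl⟩, ?_⟩
  intro k k' hk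
  rw [eqvIrr_apply, eqvIrr_apply]
  apply hconj
  apply Subtype.ext
  have h1 := hψ (ψ.symm k')
  have h2 := hψ (ψ.symm k)
  rw [MulEquiv.apply_symm_apply] at h1 h2
  show (((ψ.symm k' : _) : H) : G) = (x : G) * (((ψ.symm k : _) : H) : G) * (x : G)⁻¹
  rw [← h1, ← h2]
  exact hk

end Gen

/-- `C_H(R) ≃* C_G(Q ⊔ R)` for `H = C_G(Q)`. -/
noncomputable def supEqv (Q : Subgroup G) (R : Subgroup (Subgroup.centralizer (Q : Set G))) :
    Subgroup.centralizer (R : Set (Subgroup.centralizer (Q : Set G)))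
      ≃* Subgroup.centralizer
        ((Q ⊔ R.map (Subgroup.centralizer (Q : Set G)).subtype : Subgroup G) : Set G) where
  toFun c := ⟨((c : Subgroup.centralizer (Q : Set G)) : G), by
    have h1 : Q ⊔ R.map (Subgroup.centralizer (Q : Set G)).subtype
        ≤ Subgroup.centralizer ({((c : Subgroup.centralizer (Q : Set G)) : G)} : Set G) := by
      apply sup_le
      · intro q hq
        rw [Subgroup.mem_centralizer_iff]
        intro y hy
        rw [Set.mem_singleton_iff] at hy
        subst hy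
        exact (Subgroup.mem_centralizer_iff.mp (c : Subgroup.centralizer (Q : Set G)).2 q hq).symm
      · rintro _ ⟨r, hr, rfl⟩
        rw [Subgroup.mem_centralizer_iff]
        intro y hy
        rw [Set.mem_singleton_iff] at hy
        subst hy
        have := Subgroup.mem_centralizer_iff.mp c.2 r hr
        exact (congrArg Subtype.val this).symm
    rw [Subgroup.mem_centralizer_iff]
    intro y hy
    exact (Subgroup.mem_centralizer_iff.mp (h1 hy) _ (Set.mem_singleton _)).symm⟩
  invFun c' := ⟨⟨(c' : G), Subgroup.centralizer_le (le_sup_left : Q ≤ _) c'.2⟩, by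
    rw [Subgroup.mem_centralizer_iff]
    intro r hr
    apply Subtype.ext
    exact Subgroup.mem_centralizer_iff.mp c'.2 (r : G) (Subgroup.mem_sup_right ⟨r, hr, rfl⟩)⟩
  left_inv c := rfl
  right_inv c' := rfl
  map_mul' a b := rfl

theorem supEqv_apply (Q : Subgroup G) (R : Subgroup (Subgroup.centralizer (Q : Set G)))
    (c : Subgroup.centralizer (R : Set (Subgroup.centralizer (Q : Set G)))) :
    ((supEqv Q R c : _) : G) = ((c : Subgroup.centralizer (Q : Set G)) : G) := rfl

section Main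

variable (p : ℕ) [Fact p.Prime]

/-- A Brauer pair `(R, g)` of the block `f` of `C_G(Q)` gives the Brauer pair `(Q ⊔ R, g)` of `G`,
normally above `(Q, f)`. -/
theorem isNormalSubpair_sup (hM : IsPModular p M) {Q : Subgroup G}
    {f : Set (IrrCharacter (Subgroup.centralizer (Q : Set G)))} (hQf : IsBrauerPair p M Q f)
    {R : Subgroup (Subgroup.centralizer (Q : Set G))}
    {g : Set (IrrCharacter (Subgroup.centralizer (R : Set (Subgroup.centralizer (Q : Set G)))))}
    (hRg : IsBrauerPairOf p M f R g) :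
    IsNormalSubpair p M Q f (Q ⊔ R.map (Subgroup.centralizer (Q : Set G)).subtype)
      (eqvIrr (supEqv Q R) '' g) := by
  classical
  have hMp := isPrime_of_isPModular hM
  have hRC : R.map (Subgroup.centralizer (Q : Set G)).subtype ≤ Subgroup.centralizer (Q : Set G) :=
    Subgroup.map_subtype_le _
  have hRN : R.map (Subgroup.centralizer (Q : Set G)).subtype ≤ Subgroup.normalizer (Q : Set G) :=
    hRC.trans (Subgroup.centralizer_le_normalizer _)
  obtain ⟨T, hT⟩ := exists_stabilizer' hMp Q hQf.2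
  have hCT : Subgroup.centralizer (Q : Set G) ≤ T := fun c hc =>
    (hT c).mpr ⟨Subgroup.centralizer_le_normalizer _ hc, stabilizesBlock_of_mem _ _ hc⟩
  have hQT : Q ≤ T := fun q hq => (hT q).mpr ⟨Subgroup.le_normalizer hq,
    stabilizesBlock_of_commute _ _ (fun k hk => Subgroup.mem_centralizer_iff.mp hk q hq)⟩
  have hsupT : Q ⊔ R.map (Subgroup.centralizer (Q : Set G)).subtype ≤ T :=
    sup_le hQT (hRC.trans hCT)
  refine ⟨hQf, ⟨IsPGroup.to_sup_of_normal_left' hQf.1 (hRg.1.1.map _) hRN,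
    isPBlock_eqvIrr_image _ hRg.1.2⟩, le_sup_left, fun x hx => ((hT x).mp (hsupT hx)).1,
    fun x hx => ((hT x).mp (hsupT hx)).2, ?_⟩
  rintro ξ' ⟨ξ, hξ, rfl⟩
  rw [brauerOmega_eqv (Subgroup.centralizer (Q : Set G)) R _ (supEqv Q R) (fun c => rfl)
    (blockCoeff f) (subgroupBlockCoeff (Subgroup.centralizer (Q : Set G)) f) (fun x => by
      unfold subgroupBlockCoeff
      rw [dif_pos x.2]) ξ]
  exact hRg.2.2 ξ hξ

/-- If `B` is nilpotent and `(Q, f)` is a Brauer pair of `B`, then `f` is a nilpotent block of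
`C_G(Q)`. -/
theorem isNilpotentBlock_centralizer (hM : IsPModular p M) {B : Set (IrrCharacter G)}
    (hnil : IsNilpotentBlock p M B) {Q : Subgroup G}
    {f : Set (IrrCharacter (Subgroup.centralizer (Q : Set G)))}
    (hQf : IsBrauerPairOf p M B Q f) : IsNilpotentBlock p M f := by
  refine ⟨hQf.1.2, ?_⟩
  intro R g hRg x hxN hxst hxreg
  have hnorm := isNormalSubpair_sup p hM hQf.1 hRg
  have hpair : IsBrauerPairOf p M B (Q ⊔ R.map (Subgroup.centralizer (Q : Set G)).subtype)
      (eqvIrr (supEqv Q R) '' g) :=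
    (Cfsg.Agent.S4658.step p M hM _ _ _ _ hnorm B hQf.2.1).mpr hQf
  have hxNG : (x : G) ∈ Subgroup.normalizer
      ((Q ⊔ R.map (Subgroup.centralizer (Q : Set G)).subtype : Subgroup G) : Set G) := by
    apply Subgroup.normalizer_inf_normalizer_le_normalizer_sup
    exact Subgroup.mem_inf.mpr ⟨Subgroup.centralizer_le_normalizer _ x.2,
      mem_normalizer_map_subtype _ R hxN⟩
  have hst : StabilizesBlock (Subgroup.centralizer
      ((Q ⊔ R.map (Subgroup.centralizer (Q : Set G)).subtype : Subgroup G) : Set G))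
      (eqvIrr (supEqv Q R) '' g) (x : G) :=
    stabilizesBlock_eqv _ R _ (supEqv Q R) (fun c => rfl)
      (normalizer_le_normalizer_centralizer _ hxNG) hxst
  have hreg : IsPRegular p (x : G) := by
    unfold IsPRegular at hxreg ⊢
    rw [Subgroup.orderOf_coe]
    exact hxreg
  have h1 := hnil.2 _ _ hpair (x : G) hxNG hst hreg
  rw [Subgroup.mem_centralizer_iff]
  intro r hr
  apply Subtype.ext
  exact Subgroup.mem_centralizer_iff.mp h1 (r : G) (Subgroup.mem_sup_right ⟨r, hr, rfl⟩)

/-- For a nilpotent block `B` with maximal Brauer pair `(P, e)` and `(Q, f) ≤ (P, e)`, the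
subgroup `C_P(Q)` is a defect group of `f`. -/
theorem isDefectGroup_centralizer_of_nilpotent (hM : IsPModular p M) {B : Set (IrrCharacter G)}
    {P : Subgroup G} {e : Set (IrrCharacter (Subgroup.centralizer (P : Set G)))}
    (hmax : IsMaximalBrauerPair p M B P e) (hnil : IsNilpotentBlock p M B) {Q : Subgroup G}
    {f : Set (IrrCharacter (Subgroup.centralizer (Q : Set G)))} (hle : SubpairLE p M Q f P e) :
    IsDefectGroup p M f
      ((P ⊓ Subgroup.centralizer (Q : Set G)).subgroupOf (Subgroup.centralizer (Q : Set G))) := by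
  have hPe : IsBrauerPair p M P e := hmax.1.1
  have hf : IsPBlock M f := (isBrauerPair_of_subpairLE hle hPe).2
  have hcardsub : ∀ Q₁ : Subgroup G, Nat.card ↥((P ⊓ Subgroup.centralizer (Q₁ : Set G)).subgroupOf
      (Subgroup.centralizer (Q₁ : Set G))) = Nat.card ↥(P ⊓ Subgroup.centralizer (Q₁ : Set G)) :=
    fun Q₁ => Nat.card_congr (Subgroup.subgroupOfEquivOfLe inf_le_right).toEquiv
  obtain ⟨x, hlex, hDx⟩ := exists_conj_fully_centralized p hM hmax hle
  obtain ⟨u, hu, hux⟩ := exists_inner_of_nilpotent p hM hmax hnil _ Q f x rfl hle hlex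
  have hQxu : Q.map (MulAut.conj x).toMonoidHom = Q.map (MulAut.conj u).toMonoidHom := by
    ext y
    constructor
    · rintro ⟨q, hq, rfl⟩
      exact ⟨q, hq, (hux q hq).symm⟩
    · rintro ⟨q, hq, rfl⟩
      exact ⟨q, hq, hux q hq⟩
  have hmap : (P ⊓ Subgroup.centralizer (Q : Set G)).map (MulAut.conj u).toMonoidHom
      = P ⊓ Subgroup.centralizer ((Q.map (MulAut.conj u).toMonoidHom : Subgroup G) : Set G) := by
    ext y
    rw [mem_map_conj_iff, Subgroup.mem_inf, Subgroup.mem_inf, mem_centralizer_map_conj_iff]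
    constructor
    · rintro ⟨h1, h2⟩
      refine ⟨?_, h2⟩
      have := mul_mem (mul_mem hu h1) (inv_mem hu)
      have e1 : u * (u⁻¹ * y * u) * u⁻¹ = y := by group
      rwa [e1] at this
    · rintro ⟨h1, h2⟩
      exact ⟨mul_mem (mul_mem (inv_mem hu) h1) hu, h2⟩
  have hc : Nat.card ↥(P ⊓ Subgroup.centralizer
      ((Q.map (MulAut.conj x).toMonoidHom : Subgroup G) : Set G))
      = Nat.card ↥(P ⊓ Subgroup.centralizer (Q : Set G)) := by
    rw [hQxu, ← hmap, Subgroup.card_map_of_injective (MulEquiv.injective _)]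
  obtain ⟨D, hD, hCD⟩ := exists_defectGroup_ge_centralizer p hM hPe hle
  have h1 := card_defectGroup_conjBlock p hM Q x hf hD hDx
  have heq := Subgroup.eq_of_le_of_card_ge hCD (by rw [hcardsub, h1, hcardsub, hc])
  rw [heq]
  exact hD

end Main

end Cfsg.Agent.H80
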