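import Cfsg.Agent.H80.NilIndex
import Cfsg.Agent.H80.NilCent

set_option autoImplicit false
set_option linter.unusedSectionVars false
set_option linter.style.haveILetI false

/-!
# helper80: blocks of `P C_G(P)` with defect group `P` and the defect groups of the induced block

Let `P` be a `p`-subgroup of `G`, `H = P C_G(P)` and `b` a block of `H` with defect group `P`,
inducing the block `B` of `G`.  Then `B` has defect group `P` iff `p` does not divide the index
of `H` in the stabilizer of `b` in `N_G(P)`.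

* `exists_isBrauerPairOf_of_coeff`: a Brauer pair at `R` from a coefficient of the idempotent
  outside the ideal on `C_G(R)`.
* `stab_cond_iff`: the conjugation-stability condition as `autIrr (conjAut H g) '' b = b`.
* `autIrr_image_eq_iff_of_coeff`: stability of a block of `H` and of a block of `C ≤ H` with the
  same idempotent.
* `isDefectGroup_iff_not_dvd_relIndex`: the criterion.
-/

namespace Cfsg.Agent.H80

open Cfsg Cfsg.Agent.H20 Cfsg.Agent.H4

universe u

variable {G : Type u} [Group G] [Fintype G] {M : Ideal AlgInt}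

section Aux

theorem mem_normalizer_sup {A C : Subgroup G} {y : G}
    (hA : y ∈ Subgroup.normalizer (A : Set G)) (hC : y ∈ Subgroup.normalizer (C : Set G)) :
    y ∈ Subgroup.normalizer ((A ⊔ C : Subgroup G) : Set G) := by
  rw [← map_conj_eq_iff_mem_normalizer] at hA hC ⊢
  rw [Subgroup.map_sup, hA, hC]

/-- `brauerOmega` of a coefficient function agreeing with the coefficients of `z` on `C_G(P)`. -/
theorem brauerOmega_eq_of_coeff (P : Subgroup G) [Fintype (Subgroup.centralizer (P : Set G))]
    (β : G → ℂ) (z : MonoidAlgebra ℂ G)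
    (hβ : ∀ c : Subgroup.centralizer (P : Set G), β c = z.coeff (c : G))
    (ξ : Subgroup.centralizer (P : Set G) → ℂ) :
    brauerOmega P β ξ = omega ξ (truncTo (Subgroup.centralizer (P : Set G)) z) := by
  unfold brauerOmega omega
  rw [finsum_eq_sum_of_fintype, Finset.sum_div]
  apply Finset.sum_congr rfl
  intro x _
  rw [coeff_truncTo, hβ]

/-- The conjugation-stability condition on a block `b` of a subgroup `H`, for `g` normalizing
`H`. -/
theorem stab_cond_iff (hM : M.IsPrime) (H : Subgroup G) {b : Set (IrrCharacter H)}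
    (hb : IsPBlock M b) (g : G) (hg : g ∈ Subgroup.normalizer (H : Set G)) :
    (∀ θ ∈ b, ∀ θ' : IrrCharacter H,
        (∀ h h' : H, (h' : G) = g * h * g⁻¹ → (θ' : H → ℂ) h' = (θ : H → ℂ) h) → θ' ∈ b)
      ↔ autIrr (conjAut H g hg) '' b = b := by
  constructor
  · intro h
    apply autIrr_image_eq_of_subset hM _ hb
    rintro _ ⟨θ, hθ, rfl⟩
    exact h θ hθ _ ((isConjCharOf_iff H g hg θ _).mpr rfl)
  · intro himg θ hθ θ' hconj
    have h1 : θ' = autIrr (conjAut H g hg) θ := (isConjCharOf_iff H g hg θ θ').mp hconj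
    rw [h1, ← himg]
    exact ⟨θ, hθ, rfl⟩

/-- A block `b` of `H` and a set `e` of characters of `C ≤ H` with the same idempotent are
stabilized by the same elements normalizing `H` and `C`. -/
theorem autIrr_image_eq_iff_of_coeff (H C : Subgroup G) (hCH : C ≤ H)
    {b : Set (IrrCharacter H)} {e : Set (IrrCharacter C)}
    (hbc : ∀ h : H, blockCoeff b h = subgroupBlockCoeff C e (h : G)) (g : G)
    (hgH : g ∈ Subgroup.normalizer (H : Set G)) (hgC : g ∈ Subgroup.normalizer (C : Set G)) :
    autIrr (conjAut H g hgH) '' b = b ↔ autIrr (conjAut C g hgC) '' e = e := by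
  classical
  haveI : Fintype H := Fintype.ofFinite _
  haveI : Fintype C := Fintype.ofFinite _
  have hA : ∀ h : H, blockCoeff (autIrr (conjAut H g hgH) '' b) h
      = subgroupBlockCoeff C (autIrr (conjAut C g hgC) '' e) (h : G) := by
    intro h
    rw [blockCoeff_autIrr_image, hbc, conjAut_symm_apply, subgroupBlockCoeff_eq,
      subgroupBlockCoeff_eq, coeff_extZero_blockElt_autIrr]
  have hcoe : ∀ (A : Set (IrrCharacter C)) (k : C),
      subgroupBlockCoeff C A (k : G) = blockCoeff A k := by
    intro A k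
    unfold subgroupBlockCoeff
    rw [dif_pos k.2]
  constructor
  · intro h
    apply eq_of_blockCoeff_eq
    intro k
    have h1 := hA ⟨(k : G), hCH k.2⟩
    rw [h, hbc] at h1
    have h2 : subgroupBlockCoeff C e (k : G)
        = subgroupBlockCoeff C (autIrr (conjAut C g hgC) '' e) (k : G) := h1
    rw [hcoe, hcoe] at h2
    exact h2.symm
  · intro h
    apply eq_of_blockCoeff_eq
    intro k
    rw [hA, h, hbc]

end Aux

section Pair

variable (p : ℕ) [Fact p.Prime]

/-- If the idempotent of `B` has a coefficient outside the local ideal at an element of `C_G(R)`,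
for a `p`-subgroup `R`, then `B` has a Brauer pair at `R`. -/
theorem exists_isBrauerPairOf_of_coeff (hM : IsPModular p M) {B : Set (IrrCharacter G)}
    (hB : IsPBlock M B) {R : Subgroup G} (hR : IsPGroup p R) (g : G)
    (hg : g ∈ Subgroup.centralizer (R : Set G)) (hcoef : ¬ MemLocalIdeal M (blockCoeff B g)) :
    ∃ f : Set (IrrCharacter (Subgroup.centralizer (R : Set G))), IsBrauerPairOf p M B R f := by
  classical
  haveI : Fintype ↥(Subgroup.centralizer (R : Set G)) := Fintype.ofFinite _
  have hMp := isPrime_of_isPModular hM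
  have hε : blockElt B ∈ brRing R hMp := by
    obtain ⟨χ₀, rfl⟩ := hB
    exact cfSubring_le_brRing R hMp (blockElt_mem hMp χ₀)
  have hε' := mem_brRing.mp hε
  have ht := truncTo_mem_of_brRing R hε
  have htt : ∀ c, MemLocalIdeal M
      ((truncTo (Subgroup.centralizer (R : Set G)) (blockElt B)
        * truncTo (Subgroup.centralizer (R : Set G)) (blockElt B)
        - truncTo (Subgroup.centralizer (R : Set G)) (blockElt B)).coeff c) := by
    intro c
    have := brauer_coeff_mul p hM R hR hε'.1 hε'.1 hε'.2.2 hε'.2.2 c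
    rw [blockElt_mul_self] at this
    have h2 := memLocalIdeal_neg this
    rw [neg_sub] at h2
    rw [MonoidAlgebra.coeff_sub, Finsupp.sub_apply]
    exact h2
  obtain ⟨ξ', hξ'⟩ : ∃ ξ' : IrrCharacter (Subgroup.centralizer (R : Set G)),
      ¬ MemLocalIdeal M (brLam R ξ'.1 (blockElt B)) := by
    by_contra hcon
    push Not at hcon
    obtain ⟨n, hn, hcoefn⟩ := exists_pow_coeff_memLocalIdeal hMp ht hcon
    have hall := coeff_memLocalIdeal_of_idem_of_pow hMp ht.2 htt n hn hcoefn
    apply hcoef
    have h1 := hall ⟨g, hg⟩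
    rw [coeff_truncTo, coeff_blockElt] at h1
    exact h1
  have h1 := brLam_idem R p hM hR hε (blockElt_mul_self B) ξ' hξ'
  refine ⟨blockOf M ξ'.1, isBrauerPairOf_of_one p hM hB hR ξ' ?_⟩
  rw [brauerOmega_eq R _ (blockElt B) (fun g => (coeff_blockElt _ g).symm)]
  exact h1

end Pair

section Core

variable (p : ℕ) [Fact p.Prime]

/-- Setup for the criterion: a Brauer pair `(R, e')` of `b` in `H`, stabilized by all of `H`,
whose idempotent is that of `b`, and such that the corresponding pair of `G` is a Brauer pair of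
the induced block `B`. -/
theorem exists_pair_of_sup_centralizer (hM : IsPModular p M) (H : Subgroup G) (R : Subgroup H)
    (hR : IsPGroup p R)
    (hH : H = R.map H.subtype ⊔ Subgroup.centralizer ((R.map H.subtype : Subgroup G) : Set G))
    {b : Set (IrrCharacter H)} (hb : IsPBlock M b) (hbR : IsDefectGroup p M b R)
    {B : Set (IrrCharacter G)} (hind : IsInducedBlock M H b B) :
    ∃ e' : Set (IrrCharacter (Subgroup.centralizer (R : Set H))),
      IsBrauerPairOf p M b R e' ∧
      (∀ h : H, blockCoeff b h = subgroupBlockCoeff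
        (Subgroup.centralizer ((R.map H.subtype : Subgroup G) : Set G)) (upBlock H R e') (h : G)) ∧
      IsBrauerPairOf p M B (R.map H.subtype) (upBlock H R e') := by
  classical
  haveI : Fintype H := Fintype.ofFinite _
  haveI : Fintype ↥(Subgroup.centralizer (R : Set H)) := Fintype.ofFinite _
  haveI : Fintype ↥(Subgroup.centralizer ((R.map H.subtype : Subgroup G) : Set G)) :=
    Fintype.ofFinite _
  have hMp := isPrime_of_isPModular hM
  have hP₁H : R.map H.subtype ≤ H := Subgroup.map_subtype_le R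
  have ha : Subgroup.centralizer ((R.map H.subtype : Subgroup G) : Set G) ≤ H := by
    conv_rhs => rw [hH]
    exact le_sup_right
  have hP₁ : IsPGroup p (R.map H.subtype) := hR.map _
  have hHN : H ≤ Subgroup.normalizer ((R.map H.subtype : Subgroup G) : Set G) := by
    conv_lhs => rw [hH]
    exact sup_le Subgroup.le_normalizer (Subgroup.centralizer_le_normalizer _)
  -- a Brauer pair of `b` at `R`
  obtain ⟨g, hgdef, S, hS⟩ := hbR
  have hgC : g ∈ Subgroup.centralizer (R : Set H) := by
    rw [Subgroup.mem_centralizer_iff]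
    intro r hr
    rw [hS] at hr
    obtain ⟨s, -, rfl⟩ := hr
    exact (Subgroup.mem_centralizer_iff.mp s.2 g (Set.mem_singleton g)).symm
  obtain ⟨e', hpair⟩ := exists_isBrauerPairOf_of_coeff p hM hb hR g hgC hgdef.2.1
  refine ⟨e', hpair, ?_⟩
  -- every element of `H` stabilizes `e'`
  obtain ⟨T₀, hT₀⟩ := exists_stabilizer hMp (Subgroup.centralizer (R : Set H)) hpair.1.2
  have hall : ∀ h : H, StabilizesBlock (Subgroup.centralizer (R : Set H)) e' h := by
    have h1 : R.map H.subtype ≤ T₀.map H.subtype := by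
      rintro _ ⟨r, hr, rfl⟩
      refine ⟨r, (hT₀ r).mpr ?_, rfl⟩
      apply stabilizesBlock_of_commute
      intro k hk
      exact Subgroup.mem_centralizer_iff.mp hk r hr
    have h2 : Subgroup.centralizer ((R.map H.subtype : Subgroup G) : Set G)
        ≤ T₀.map H.subtype := by
      intro c hc
      refine ⟨⟨c, ha hc⟩, (hT₀ _).mpr ?_, rfl⟩
      apply stabilizesBlock_of_mem
      exact ((upEqv H R ha).symm ⟨c, hc⟩).2
    have h3 : H ≤ T₀.map H.subtype := by
      conv_lhs => rw [hH]
      exact sup_le h1 h2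
    intro h
    obtain ⟨t, ht, hth⟩ := h3 h.2
    have e : t = h := Subtype.ext hth
    rw [← e]
    exact (hT₀ t).mp ht
  have hnormal : ∀ h : H, h ∈ Subgroup.normalizer (R : Set H) := by
    intro h
    rw [Subgroup.mem_normalizer_iff]
    intro y
    have h1 := Subgroup.mem_normalizer_iff.mp (hHN h.2) (y : G)
    constructor
    · intro hy
      obtain ⟨r, hr, hry⟩ := h1.mp ⟨y, hy, rfl⟩
      have e : r = h * y * h⁻¹ := Subtype.ext hry
      rw [← e]
      exact hr
    · intro hy
      obtain ⟨r, hr, hry⟩ := h1.mpr ⟨h * y * h⁻¹, hy, rfl⟩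
      have e : r = y := Subtype.ext hry
      rw [← e]
      exact hr
  -- the idempotent of `b`
  obtain ⟨B₀, hB₀, hB₀c⟩ := exists_block_of_stable_top p hM hpair.1
    (fun x => ⟨hnormal x, hall x⟩)
  have hnormQQ : IsNormalSubpair p M R e' R e' :=
    normalSubpair_of_le_of_le p hM hpair.1 le_rfl Subgroup.le_normalizer
      Relation.ReflTransGen.refl Relation.ReflTransGen.refl
  have hpairB₀ : IsBrauerPairOf p M B₀ R e' := by
    refine ⟨hpair.1, hB₀, fun ξ hξ => ?_⟩
    have e : blockCoeff B₀ = subgroupBlockCoeff (Subgroup.centralizer (R : Set H)) e' :=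
      funext hB₀c
    rw [e]
    exact hnormQQ.2.2.2.2.2 ξ hξ
  have hBb : B₀ = b := block_unique_of_isBrauerPairOf p hM hpairB₀ hpair
  have hbc : ∀ h : H, blockCoeff b h = subgroupBlockCoeff
      (Subgroup.centralizer ((R.map H.subtype : Subgroup G) : Set G)) (upBlock H R e') (h : G) := by
    intro h
    rw [subgroupBlockCoeff_upBlock H R ha e' h, ← hBb]
    exact hB₀c h
  refine ⟨hbc, ?_⟩
  -- the pair of `G`
  obtain ⟨ξ'₀, he'⟩ := hpair.1.2
  have hξ'₀ : ξ'₀ ∈ e' := by rw [he']; exact mem_blockOf_self hMp ξ'₀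
  obtain ⟨ψ, hbψ⟩ := id hb
  have hψ : ψ ∈ b := by rw [hbψ]; exact mem_blockOf_self hMp ψ
  obtain ⟨χ₁, hBχ₁⟩ := hind.2.1
  have hχ₁ : χ₁ ∈ B := by rw [hBχ₁]; exact mem_blockOf_self hMp χ₁
  obtain ⟨χ₀, hχ₀⟩ := (isModHom_brauer hM hP₁ ha hHN ψ).exists_irr
  have hχ₀B : χ₀ ∈ B := by
    rw [hBχ₁]
    intro g
    have t1 := inducedCentralChar_sub_brauerCentralChar_mem hM (R.map H.subtype) H hP₁ hP₁H hHN
      ψ g
    have t3 := hχ₀ (classSum g) (classSum_mem _ g)
    rw [omega_brMap_classSum, omega_classSum _ (irr_isClassFunction χ₀)] at t3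
    have t4 := hind.2.2 ψ hψ χ₁ hχ₁ g
    have t5 := memLocalIdeal_add hMp (memLocalIdeal_add hMp (memLocalIdeal_neg t4) t1) t3
    convert t5 using 1
    ring
  have hL := hχ₀ (blockElt B) (by rw [hBχ₁]; exact blockElt_mem hMp χ₁)
  rw [omega_blockElt, if_pos hχ₀B] at hL
  have hz' : brMap (R.map H.subtype) H (blockElt B) ∈ cfSubring H (localRing M hMp) :=
    brMap_mem hHN (by rw [hBχ₁]; exact blockElt_mem hMp χ₁)
  have h1 := brLam_of_isBrauerPairOf p hpair ξ'₀ hξ'₀
  have h2 := brLam_sub_omega_mem p hM R hR hb ξ'₀ h1 hz' hψ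
  have h3 : MemLocalIdeal M
      (brLam R ξ'₀.1 (brMap (R.map H.subtype) H (blockElt B)) - 1) := by
    have h3' : MemLocalIdeal M
        (brLam R ξ'₀.1 (brMap (R.map H.subtype) H (blockElt B))
          - omega ψ.1 (brMap (R.map H.subtype) H (blockElt B))
          + (omega ψ.1 (brMap (R.map H.subtype) H (blockElt B)) - 1)) :=
      memLocalIdeal_add hMp h2 hL
    rw [sub_add_sub_cancel] at h3'
    exact h3'
  have h4 : brauerOmega (R.map H.subtype) (blockCoeff B) (eqvIrr (upEqv H R ha) ξ'₀).1
      = brLam R ξ'₀.1 (brMap (R.map H.subtype) H (blockElt B)) := by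
    rw [brauerOmega_eqv H R (R.map H.subtype) (upEqv H R ha) (fun c => rfl)
      (fun h : H => blockCoeff B (h : G)) (blockCoeff B) (fun x => rfl) ξ'₀]
    rw [brauerOmega_eq_of_coeff R (fun h : H => blockCoeff B (h : G))
      (brMap (R.map H.subtype) H (blockElt B)) ?_ ξ'₀.1]
    · rfl
    · intro c
      have hc : (((c : H) : G)) ∈ Subgroup.centralizer ((R.map H.subtype : Subgroup G) : Set G) :=
        (upEqv H R ha c).2
      rw [coeff_brMap, if_pos hc, coeff_blockElt]
  have h5 := isBrauerPairOf_of_one p hM hind.2.1 hP₁ (eqvIrr (upEqv H R ha) ξ'₀)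
    (by rw [h4]; exact h3)
  rw [← eqvIrr_image_blockOf, ← he', ← upBlock_eq_image H R ha] at h5
  exact h5

/-- **Defect groups of induced blocks.**  Let `R` be a `p`-subgroup (of `H`) with
`H = R C_G(R)`, `b` a block of `H` with defect group `R` inducing `B`, and `T` the stabilizer of
`b` in `N_G(R)`.  Then `B` has defect group `R` iff `p ∤ |T : H|`. -/
theorem isDefectGroup_iff_not_dvd_relIndex (hM : IsPModular p M) (H : Subgroup G)
    (R : Subgroup H) (hR : IsPGroup p R)
    (hH : H = R.map H.subtype ⊔ Subgroup.centralizer ((R.map H.subtype : Subgroup G) : Set G))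
    {b : Set (IrrCharacter H)} (hb : IsPBlock M b) (hbR : IsDefectGroup p M b R)
    {B : Set (IrrCharacter G)} (hind : IsInducedBlock M H b B) (T : Subgroup G)
    (hT : ∀ g : G, g ∈ T ↔ (g ∈ Subgroup.normalizer ((R.map H.subtype : Subgroup G) : Set G) ∧
      ∀ θ ∈ b, ∀ θ' : IrrCharacter H,
        (∀ h h' : H, (h' : G) = g * h * g⁻¹ → (θ' : H → ℂ) h' = (θ : H → ℂ) h) → θ' ∈ b)) :
    IsDefectGroup p M B (R.map H.subtype) ↔ ¬ p ∣ H.relIndex T := by
  classical
  haveI : Fintype H := Fintype.ofFinite _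
  have hMp := isPrime_of_isPModular hM
  have hpp := (Fact.out : p.Prime)
  have hP₁H : R.map H.subtype ≤ H := Subgroup.map_subtype_le R
  have ha : Subgroup.centralizer ((R.map H.subtype : Subgroup G) : Set G) ≤ H := by
    conv_rhs => rw [hH]
    exact le_sup_right
  have hP₁ : IsPGroup p (R.map H.subtype) := hR.map _
  have hHN : H ≤ Subgroup.normalizer ((R.map H.subtype : Subgroup G) : Set G) := by
    conv_lhs => rw [hH]
    exact sup_le Subgroup.le_normalizer (Subgroup.centralizer_le_normalizer _)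
  obtain ⟨e', hpair, hbc, hpairG⟩ := exists_pair_of_sup_centralizer p hM H R hR hH hb hbR hind
  have he₁ : IsPBlock M (upBlock H R e') := hpairG.1.2
  -- normalizers
  have hNH : ∀ g : G, g ∈ Subgroup.normalizer ((R.map H.subtype : Subgroup G) : Set G) →
      g ∈ Subgroup.normalizer (H : Set G) := by
    intro g hg
    have h1 := mem_normalizer_sup hg (normalizer_le_normalizer_centralizer _ hg)
    have e : ((R.map H.subtype ⊔ Subgroup.centralizer ((R.map H.subtype : Subgroup G) : Set G)
        : Subgroup G) : Set G) = (H : Set G) := by rw [← hH]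
    rw [e] at h1
    exact h1
  -- the stabilizer
  have hT₁ : ∀ g : G, g ∈ T ↔
      g ∈ Subgroup.normalizer ((R.map H.subtype : Subgroup G) : Set G) ∧
      StabilizesBlock (Subgroup.centralizer ((R.map H.subtype : Subgroup G) : Set G))
        (upBlock H R e') g := by
    intro g
    rw [hT]
    constructor
    · rintro ⟨hg, hS⟩
      refine ⟨hg, ?_⟩
      have hgH := hNH g hg
      have hgC := normalizer_le_normalizer_centralizer _ hg
      rw [stab_cond_iff hMp H hb g hgH, autIrr_image_eq_iff_of_coeff H _ ha hbc g hgH hgC] at hS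
      exact (stabilizesBlock_iff hMp _ he₁ g).mpr ⟨hgC, hS⟩
    · rintro ⟨hg, hS⟩
      refine ⟨hg, ?_⟩
      have hgH := hNH g hg
      have hgC := normalizer_le_normalizer_centralizer _ hg
      obtain ⟨hgC', hS'⟩ := (stabilizesBlock_iff hMp _ he₁ g).mp hS
      rw [stab_cond_iff hMp H hb g hgH, autIrr_image_eq_iff_of_coeff H _ ha hbc g hgH hgC]
      exact hS'
  constructor
  · -- defect group ⟹ index prime to `p`
    intro hD
    have hmax : IsMaximalBrauerPair p M B (R.map H.subtype) (upBlock H R e') :=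
      isMaximal_of_card_defectGroup p hM hpairG hD le_rfl
    obtain ⟨S⟩ : Nonempty (Sylow p T) := inferInstance
    have hS : IsPGroup p ((S : Subgroup T).map T.subtype) := S.isPGroup'.map _
    have hST : (S : Subgroup T).map T.subtype ≤ T := Subgroup.map_subtype_le _
    have h1 := le_sup_centralizer_of_maximal p hM hmax _ hS
      (fun s hs => ((hT₁ s).mp (hST hs)).1) (fun s hs => ((hT₁ s).mp (hST hs)).2)
    have h2 : (S : Subgroup T) ≤ H.subgroupOf T := by
      intro s hs
      rw [Subgroup.mem_subgroupOf, hH]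
      exact h1 ⟨s, hs, rfl⟩
    intro hdvd
    have h3 : (H.subgroupOf T).index ∣ (S : Subgroup T).index := Subgroup.index_dvd_of_le h2
    exact S.not_dvd_index (hdvd.trans h3)
  · -- index prime to `p` ⟹ defect group
    intro hp
    have hmax : IsMaximalBrauerPair p M B (R.map H.subtype) (upBlock H R e') := by
      refine ⟨hpairG, fun R₂ g₂ hR₂g₂ hle => ?_⟩
      by_contra hne
      have hle' : Relation.ReflTransGen (NormalSubpairRel p M)
          ⟨R.map H.subtype, upBlock H R e'⟩ ⟨R₂, g₂⟩ := hle
      have hP₁R₂ : R.map H.subtype ≤ R₂ := subpairLE_le hle'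
      obtain ⟨Q₁, hlt, hQ₁R₂, hQ₁N⟩ := exists_normalizing_lt R₂ (R.map H.subtype) hR₂g₂.1.1
        hP₁R₂ (fun h => hne h.symm)
      obtain ⟨g₁, hg₁, hle₁⟩ := exists_subpairLE hM R₂ g₂ hR₂g₂.1 _ Q₁ hQ₁R₂ rfl
      have hnorm : IsNormalSubpair p M (R.map H.subtype) (upBlock H R e') Q₁ g₁ :=
        normalSubpair_of_le_of_le p hM hR₂g₂.1 hlt.le hQ₁N hle hle₁
      have hQ₁p : IsPGroup p Q₁ := hnorm.2.1.1
      have hQ₁T : Q₁ ≤ T := fun x hx => (hT₁ x).mpr ⟨hQ₁N hx, hnorm.2.2.2.2.1 x hx⟩
      have hTNH : T ≤ Subgroup.normalizer (H : Set G) := fun t ht => hNH t ((hT₁ t).mp ht).1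
      haveI hnormalHT : (H.subgroupOf T).Normal := by
        constructor
        intro n hn t
        rw [Subgroup.mem_subgroupOf] at hn ⊢
        exact (Subgroup.mem_normalizer_iff.mp (hTNH t.2) (n : G)).mp hn
      have hQ₁H : Q₁ ≤ H := by
        intro x hx
        have h1 : (⟨x, hQ₁T hx⟩ : T) ^ (H.subgroupOf T).index ∈ H.subgroupOf T :=
          Subgroup.pow_index_mem _ _
        obtain ⟨k, hk⟩ := hQ₁p ⟨x, hx⟩
        have hk' : x ^ (p ^ k) = 1 := congrArg Subtype.val hk
        have hord : orderOf (⟨x, hQ₁T hx⟩ : T) ∣ p ^ k := by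
          apply orderOf_dvd_of_pow_eq_one
          apply Subtype.ext
          exact hk'
        have hcop : ((H.subgroupOf T).index).Coprime (orderOf (⟨x, hQ₁T hx⟩ : T)) := by
          apply Nat.Coprime.coprime_dvd_right hord
          apply Nat.Coprime.pow_right
          exact (Nat.Coprime.symm ((Nat.Prime.coprime_iff_not_dvd hpp).mpr hp))
        obtain ⟨j, hj⟩ := exists_pow_eq_self_of_coprime hcop
        have h2 : (⟨x, hQ₁T hx⟩ : T) ∈ H.subgroupOf T := by
          rw [← hj]; exact pow_mem h1 j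
        exact Subgroup.mem_subgroupOf.mp h2
      -- a coefficient of the idempotent of `b` on `C_H(Q₁)`
      obtain ⟨y, hyC, hy⟩ := exists_coeff_of_normalSubpair p hM hnorm
      have hyC₁ : y ∈ Subgroup.centralizer ((R.map H.subtype : Subgroup G) : Set G) :=
        Subgroup.centralizer_le hlt.le hyC
      have hyH : y ∈ H := ha hyC₁
      have hy' : ¬ MemLocalIdeal M (blockCoeff b ⟨y, hyH⟩) := by
        rw [hbc]; exact hy
      have hD₀ : IsPGroup p (Q₁.subgroupOf H) := hQ₁p.comap_subtype
      have hD₀y : Q₁.subgroupOf H ≤ Subgroup.centralizer ({(⟨y, hyH⟩ : H)} : Set H) := by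
        intro d hd
        rw [Subgroup.mem_centralizer_iff]
        intro z hz
        rw [Set.mem_singleton_iff] at hz
        subst hz
        apply Subtype.ext
        exact (Subgroup.mem_centralizer_iff.mp hyC (d : G) (Subgroup.mem_subgroupOf.mp hd)).symm
      obtain ⟨D, hD, hD₀D⟩ := exists_defectGroup_ge p hM hb ⟨y, hyH⟩ hy' _ hD₀ hD₀y
      have hc1 : Nat.card D = Nat.card R := card_defectGroup_eq p hM hb hD hbR
      have hc2 : Nat.card (Q₁.subgroupOf H) ≤ Nat.card D := Subgroup.card_le_of_le hD₀D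
      have hc3 : Nat.card (Q₁.subgroupOf H) = Nat.card Q₁ :=
        Nat.card_congr (Subgroup.subgroupOfEquivOfLe hQ₁H).toEquiv
      have hc4 : Nat.card (R.map H.subtype) = Nat.card R :=
        Subgroup.card_map_of_injective H.subtype_injective
      have hc5 : Nat.card Q₁ ≤ Nat.card (R.map H.subtype) := by omega
      exact absurd (Subgroup.eq_of_le_of_card_ge hlt.le hc5) hlt.ne
    exact isDefectGroup_of_maximal p hM B _ _ hmax

end Core

end Cfsg.Agent.H80
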