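import Cfsg.Agent.H80.IndPair
import Cfsg.Agent.S4687

set_option autoImplicit false
set_option linter.unusedSectionVars false
set_option linter.style.haveILetI false

/-!
# helper80: abelian defect groups, blocks induced inside `C_G(Q)` and free action

Let `(P, c)` be a maximal Brauer pair of `B` with `P` abelian and `T` the stabilizer of `c` in
`N_G(P)`.  For `Q ≤ P` and a block `f` of `C_G(Q)` induced by `c` inside `C_G(Q)`, the block `f`
is nilpotent iff `T ∩ C_G(Q) ≤ C_G(P)`.

* `inducedCentralChar_up`: induced central characters computed in `H` and inside `H`.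
* `isInducedBlockIn_up_iff`: `IsInducedBlockIn` for the transported pair.
* `stabilizesBlock_of_up`: stabilizers, from `G` to `H`.
* `exists_isInducedBlockIn`, `nilpotent_iff_of_induced_in`.
-/

namespace Cfsg.Agent.H80

open Cfsg Cfsg.Agent.H20 Cfsg.Agent.H4

universe u

variable {G : Type u} [Group G] [Fintype G] {M : Ideal AlgInt}

section Up

variable (H : Subgroup G)

/-- The induced central character of a character of `C_H(R)`, computed in the group `H`, is the
central character induced inside `H` of the corresponding character of `C_G(R)`. -/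
theorem inducedCentralChar_up (R : Subgroup H)
    (h : Subgroup.centralizer ((R.map H.subtype : Subgroup G) : Set G) ≤ H)
    (ξ : IrrCharacter (Subgroup.centralizer (R : Set H))) (y : H) :
    inducedCentralCharIn H (Subgroup.centralizer ((R.map H.subtype : Subgroup G) : Set G))
        (eqvIrr (upEqv H R h) ξ).1 (y : G)
      = inducedCentralChar (Subgroup.centralizer (R : Set H)) ξ.1 y := by
  unfold inducedCentralCharIn inducedCentralChar
  symm
  apply finsum_mem_eq_of_bijOn (upEqv H R h)
  · refine ⟨?_, (upEqv H R h).injective.injOn, ?_⟩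
    · intro k hk
      obtain ⟨c, hc⟩ := isConj_iff.mp hk
      refine ⟨c⁻¹, ?_⟩
      have h1 : ((upEqv H R h k : _) : G) = ((k : H) : G) := rfl
      rw [h1, ← hc]
      show (c⁻¹ : H) * (((c * y * c⁻¹ : H)) : G) * ((c⁻¹ : H) : G)⁻¹ = (y : G)
      push_cast
      group
    · intro k' hk'
      obtain ⟨x, hx⟩ := hk'
      refine ⟨(upEqv H R h).symm k', ?_, MulEquiv.apply_symm_apply _ _⟩
      show IsConj y ((((upEqv H R h).symm k' : _) : H))
      rw [isConj_iff]
      refine ⟨x⁻¹, ?_⟩
      apply Subtype.ext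
      have h1 : ((((upEqv H R h).symm k' : _) : H) : G) = (k' : G) := rfl
      rw [h1]
      push_cast
      rw [← hx]
      group
  · intro k _
    rw [eqvIrr_apply, eqvIrr_apply, MulEquiv.symm_apply_apply, map_one]

/-- Block induction inside `H` from `C_G(R)`, and block induction in the group `H` from
`C_H(R)`. -/
theorem isInducedBlockIn_up_iff (a : BrauerPairIdx H)
    (ha : Subgroup.centralizer ((a.1.map H.subtype : Subgroup G) : Set G) ≤ H)
    (f : Set (IrrCharacter H)) :
    IsInducedBlockIn M H (Subgroup.centralizer (((upPair H a).1 : Subgroup G) : Set G))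
        (upPair H a).2 f
      ↔ IsInducedBlock M (Subgroup.centralizer (a.1 : Set H)) a.2 f := by
  obtain ⟨R, g⟩ := a
  simp only at ha
  show IsInducedBlockIn M H (Subgroup.centralizer ((R.map H.subtype : Subgroup G) : Set G))
    (upBlock H R g) f ↔ IsInducedBlock M (Subgroup.centralizer (R : Set H)) g f
  constructor
  · rintro ⟨h1, h2, h3⟩
    refine ⟨isPBlock_of_upBlock H R ha h1, h2, fun ξ hξ χ hχ y => ?_⟩
    have h4 := h3 (eqvIrr (upEqv H R ha) ξ)
      (by rw [upBlock_eq_image H R ha]; exact ⟨ξ, hξ, rfl⟩) χ hχ y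
    rw [inducedCentralChar_up H R ha ξ y] at h4
    exact h4
  · rintro ⟨h1, h2, h3⟩
    refine ⟨isPBlock_upBlock H R ha h1, h2, fun ξ' hξ' χ hχ y => ?_⟩
    rw [upBlock_eq_image H R ha] at hξ'
    obtain ⟨ξ, hξ, rfl⟩ := hξ'
    rw [inducedCentralChar_up H R ha ξ y]
    exact h3 ξ hξ χ hχ y

/-- Stabilizers of blocks, from `G` to `H`. -/
theorem stabilizesBlock_of_up (R : Subgroup H)
    (h : Subgroup.centralizer ((R.map H.subtype : Subgroup G) : Set G) ≤ H)
    {g : Set (IrrCharacter (Subgroup.centralizer (R : Set H)))} {x : H}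
    (hxN : x ∈ Subgroup.normalizer (R : Set H))
    (hx : StabilizesBlock (Subgroup.centralizer ((R.map H.subtype : Subgroup G) : Set G))
      (upBlock H R g) (x : G)) :
    StabilizesBlock (Subgroup.centralizer (R : Set H)) g x := by
  refine ⟨normalizer_le_normalizer_centralizer R hxN, ?_⟩
  intro χ hχ
  obtain ⟨ξ', hξ', hconj⟩ := hx.2 (eqvIrr (upEqv H R h) χ)
    (by rw [upBlock_eq_image H R h]; exact ⟨χ, hχ, rfl⟩)
  rw [upBlock_eq_image H R h] at hξ'
  obtain ⟨χ', hχ', rfl⟩ := hξ'
  refine ⟨χ', hχ', fun k k' hk => ?_⟩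
  have h1 := hconj (upEqv H R h k) (upEqv H R h k') (congrArg Subtype.val hk)
  rw [eqvIrr_apply, eqvIrr_apply, MulEquiv.symm_apply_apply, MulEquiv.symm_apply_apply] at h1
  exact h1

end Up

section Main

variable (p : ℕ) [Fact p.Prime]

/-- For `Q ≤ P` abelian, a block of `C_G(P)` induces a block inside `C_G(Q)`. -/
theorem exists_isInducedBlockIn (hM : IsPModular p M) {P : Subgroup G} (hP : IsPGroup p P)
    (hPab : ∀ x ∈ P, ∀ y ∈ P, x * y = y * x)
    {c : Set (IrrCharacter (Subgroup.centralizer (P : Set G)))} (hc : IsPBlock M c)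
    (Q : Subgroup G) (hQP : Q ≤ P) :
    ∃ f : Set (IrrCharacter (Subgroup.centralizer (Q : Set G))),
      IsInducedBlockIn M (Subgroup.centralizer (Q : Set G))
        (Subgroup.centralizer (P : Set G)) c f := by
  classical
  haveI : Fintype ↥(Subgroup.centralizer (Q : Set G)) := Fintype.ofFinite _
  have hMp := isPrime_of_isPModular hM
  have hPH : P ≤ Subgroup.centralizer (Q : Set G) := by
    intro x hx
    rw [Subgroup.mem_centralizer_iff]
    intro q hq
    exact hPab q (hQP hq) x hx
  have hCH : Subgroup.centralizer (P : Set G) ≤ Subgroup.centralizer (Q : Set G) :=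
    Subgroup.centralizer_le hQP
  obtain ⟨a, ha1, hup⟩ := exists_upPair_eq (Subgroup.centralizer (Q : Set G)) hPH hCH c
  have hfst : a.1.map (Subgroup.centralizer (Q : Set G)).subtype = P := congrArg Sigma.fst hup
  have ha : Subgroup.centralizer
      ((a.1.map (Subgroup.centralizer (Q : Set G)).subtype : Subgroup G) : Set G)
      ≤ Subgroup.centralizer (Q : Set G) := by rw [hfst]; exact hCH
  haveI : Fintype ↥(Subgroup.centralizer (a.1 : Set ↥(Subgroup.centralizer (Q : Set G)))) :=
    Fintype.ofFinite _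
  have ha2 : IsPBlock M a.2 := by
    apply isPBlock_of_upBlock _ a.1 ha
    have h1 : IsPBlock M (upPair (Subgroup.centralizer (Q : Set G)) a).2 := by
      rw [hup]; exact hc
    exact h1
  obtain ⟨ξ₀, hξ₀⟩ := ha2
  have ha1p : IsPGroup p a.1 := by rw [ha1]; exact hP.comap_subtype
  have hab : a.1 ≤ Subgroup.centralizer (a.1 : Set ↥(Subgroup.centralizer (Q : Set G))) := by
    intro x hx
    rw [Subgroup.mem_centralizer_iff]
    intro y hy
    rw [SetLike.mem_coe] at hy
    rw [ha1, Subgroup.mem_subgroupOf] at hx hy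
    exact Subtype.ext (hPab y hy x hx)
  obtain ⟨χ₀, hχ₀, -⟩ := exists_isInducedBlock hM ha1p hab le_rfl
    (Subgroup.centralizer_le_normalizer _) ξ₀
  rw [← hξ₀] at hχ₀
  refine ⟨blockOf M χ₀.1, ?_⟩
  have hK := (isInducedBlockIn_up_iff _ a ha (blockOf M χ₀.1)).mpr hχ₀
  rw [hup] at hK
  exact hK

/-- **Abelian defect groups.**  For a maximal Brauer pair `(P, c)` with `P` abelian, `Q ≤ P`
and a block `f` of `C_G(Q)` induced by `c` inside `C_G(Q)`: `f` is nilpotent iff every element
of `C_G(Q)` in the stabilizer `T` of `c` in `N_G(P)` centralizes `P`. -/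
theorem nilpotent_iff_of_induced_in (hM : IsPModular p M) {B : Set (IrrCharacter G)}
    {P : Subgroup G} {c : Set (IrrCharacter (Subgroup.centralizer (P : Set G)))}
    (hmax : IsMaximalBrauerPair p M B P c) (hPab : ∀ x ∈ P, ∀ y ∈ P, x * y = y * x)
    (T : Subgroup G)
    (hT : ∀ g : G, g ∈ T ↔ (g ∈ Subgroup.normalizer (P : Set G) ∧
      StabilizesBlock (Subgroup.centralizer (P : Set G)) c g))
    (Q : Subgroup G) (hQP : Q ≤ P) (f : Set (IrrCharacter (Subgroup.centralizer (Q : Set G))))
    (hf : IsInducedBlockIn M (Subgroup.centralizer (Q : Set G))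
      (Subgroup.centralizer (P : Set G)) c f) :
    IsNilpotentBlock p M f ↔
      ∀ x : G, x ∈ Subgroup.centralizer (Q : Set G) → x ∈ T →
        x ∈ Subgroup.centralizer (P : Set G) := by
  classical
  haveI : Fintype ↥(Subgroup.centralizer (Q : Set G)) := Fintype.ofFinite _
  have hMp := isPrime_of_isPModular hM
  have hP : IsPGroup p P := hmax.1.1.1
  have hPH : P ≤ Subgroup.centralizer (Q : Set G) := by
    intro x hx
    rw [Subgroup.mem_centralizer_iff]
    intro q hq
    exact hPab q (hQP hq) x hx
  have hCH : Subgroup.centralizer (P : Set G) ≤ Subgroup.centralizer (Q : Set G) :=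
    Subgroup.centralizer_le hQP
  obtain ⟨a, ha1, hup⟩ := exists_upPair_eq (Subgroup.centralizer (Q : Set G)) hPH hCH c
  have hfst : a.1.map (Subgroup.centralizer (Q : Set G)).subtype = P := congrArg Sigma.fst hup
  have ha : Subgroup.centralizer
      ((a.1.map (Subgroup.centralizer (Q : Set G)).subtype : Subgroup G) : Set G)
      ≤ Subgroup.centralizer (Q : Set G) := by rw [hfst]; exact hCH
  have ha1p : IsPGroup p a.1 := by rw [ha1]; exact hP.comap_subtype
  have habH : ∀ x ∈ a.1, ∀ y ∈ a.1, x * y = y * x := by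
    intro x hx y hy
    rw [ha1, Subgroup.mem_subgroupOf] at hx hy
    exact Subtype.ext (hPab x hx y hy)
  have hK := isInducedBlockIn_up_iff (M := M) _ a ha f
  rw [hup] at hK
  have hind := hK.mp hf
  have hpair : IsBrauerPairOf p M f a.1 a.2 := isBrauerPairOf_of_isInducedBlock p hM ha1p hind
  have hmaxH : IsMaximalBrauerPair p M f a.1 a.2 := isMaximal_of_up _ p hM hmax a ha hup hpair
  rw [Cfsg.Agent.S4687.result p M hM f a.1 a.2 hmaxH habH]
  -- transport of the stabilizer condition
  have hstabG : ∀ y : G, StabilizesBlock (Subgroup.centralizer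
      ((a.1.map (Subgroup.centralizer (Q : Set G)).subtype : Subgroup G) : Set G))
      (upBlock (Subgroup.centralizer (Q : Set G)) a.1 a.2) y
      ↔ StabilizesBlock (Subgroup.centralizer (P : Set G)) c y := by
    intro y
    have h1 : StabilizesBlock (Subgroup.centralizer
        (((upPair (Subgroup.centralizer (Q : Set G)) a).1 : Subgroup G) : Set G))
        (upPair (Subgroup.centralizer (Q : Set G)) a).2 y
        ↔ StabilizesBlock (Subgroup.centralizer (P : Set G)) c y := by rw [hup]
    exact h1
  have hmemN : ∀ x : ↥(Subgroup.centralizer (Q : Set G)),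
      x ∈ Subgroup.normalizer ((a.1 : Subgroup _) : Set _)
        ↔ (x : G) ∈ Subgroup.normalizer (P : Set G) := by
    intro x
    rw [Subgroup.mem_normalizer_iff, Subgroup.mem_normalizer_iff]
    constructor
    · intro h y
      constructor
      · intro hy
        have h1 := (h ⟨y, hPH hy⟩).mp (by rw [ha1, Subgroup.mem_subgroupOf]; exact hy)
        rw [ha1, Subgroup.mem_subgroupOf] at h1
        exact h1
      · intro hy
        have hyH : y ∈ Subgroup.centralizer (Q : Set G) := by
          have h2 : y = (x : G)⁻¹ * ((x : G) * y * (x : G)⁻¹) * (x : G) := by group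
          rw [h2]
          exact mul_mem (mul_mem (inv_mem x.2) (hPH hy)) x.2
        have h1 := (h ⟨y, hyH⟩).mpr (by rw [ha1, Subgroup.mem_subgroupOf]; exact hy)
        rw [ha1, Subgroup.mem_subgroupOf] at h1
        exact h1
    · intro h y
      rw [ha1, Subgroup.mem_subgroupOf, Subgroup.mem_subgroupOf]
      exact h (y : G)
  have hmemC : ∀ x : ↥(Subgroup.centralizer (Q : Set G)),
      x ∈ Subgroup.centralizer ((a.1 : Subgroup _) : Set _)
        ↔ (x : G) ∈ Subgroup.centralizer (P : Set G) := by
    intro x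
    rw [Subgroup.mem_centralizer_iff, Subgroup.mem_centralizer_iff]
    constructor
    · intro h y hy
      have h1 := h ⟨y, hPH hy⟩ (by
        rw [SetLike.mem_coe, ha1, Subgroup.mem_subgroupOf]; exact hy)
      exact congrArg Subtype.val h1
    · intro h y hy
      rw [SetLike.mem_coe, ha1, Subgroup.mem_subgroupOf] at hy
      exact Subtype.ext (h (y : G) hy)
  constructor
  · intro h x hxQ hxT
    have hxN : (⟨x, hxQ⟩ : ↥(Subgroup.centralizer (Q : Set G)))
        ∈ Subgroup.normalizer ((a.1 : Subgroup _) : Set _) :=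
      (hmemN ⟨x, hxQ⟩).mpr ((hT x).mp hxT).1
    have hst := stabilizesBlock_of_up _ a.1 ha hxN ((hstabG x).mpr ((hT x).mp hxT).2)
    exact (hmemC ⟨x, hxQ⟩).mp (h ⟨x, hxQ⟩ hxN hst)
  · intro h x hxN hst
    have hxT : (x : G) ∈ T :=
      (hT _).mpr ⟨(hmemN x).mp hxN, (hstabG _).mp (stabilizesBlock_up _ a.1 ha hxN hst)⟩
    exact (hmemC x).mpr (h (x : G) x.2 hxT)

end Main

end Cfsg.Agent.H80
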