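import Mathlib
import Cfsg.Agent.H84.DihDefs
import Cfsg.Agent.H24.DihBASIC
import Cfsg.Agent.H71.DihFUS

/-!
# Team piece S4482-QINV (for helper84): the involutions of `C(J) = X P`

Every involution of `C(J)` other than `J` is `C(J)`-conjugate to `τ` or to `σ τ`, and these two
are not `C(J)`-conjugate.
-/

set_option autoImplicit false

namespace Cfsg.Agent.H80.Dih

open Cfsg.Agent.H84.Dih

universe u

variable {G : Type u} [Group G] [Finite G] {n : ℕ} {P : Sylow 2 G} {σ τ : G} {X : Subgroup G}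

omit [Finite G] in
/-- `σ^j τ σ^(-j) = σ^(2j) τ`. -/
theorem conj_pow_tau (h : Hyp n P σ τ) (j : ℕ) :
    σ ^ j * τ * (σ ^ j)⁻¹ = σ ^ (2 * j) * τ := by
  rw [mul_assoc, Cfsg.Agent.H24.Dih.tau_mul_pow_inv h j, ← mul_assoc, ← pow_add, two_mul]

omit [Finite G] in
/-- `σ^j (σ τ) σ^(-j) = σ^(2j+1) τ`. -/
theorem conj_pow_sigma_tau (h : Hyp n P σ τ) (j : ℕ) :
    σ ^ j * (σ * τ) * (σ ^ j)⁻¹ = σ ^ (2 * j + 1) * τ := by
  have e : σ ^ j * (σ * τ) * (σ ^ j)⁻¹ = σ * (σ ^ j * τ * (σ ^ j)⁻¹) := by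
    have hc : σ ^ j * σ = σ * σ ^ j := by rw [← pow_succ, ← pow_succ']
    calc σ ^ j * (σ * τ) * (σ ^ j)⁻¹ = σ ^ j * σ * τ * (σ ^ j)⁻¹ := by simp only [mul_assoc]
      _ = σ * σ ^ j * τ * (σ ^ j)⁻¹ := by rw [hc]
      _ = σ * (σ ^ j * τ * (σ ^ j)⁻¹) := by simp only [mul_assoc]
  rw [e, conj_pow_tau h j, ← mul_assoc, ← pow_succ']

omit [Finite G] in
/-- An element of `X` of square `1` is trivial. -/
theorem eq_one_of_sq_of_mem (hX : Core n P σ X) (z : G) (hz : z ∈ X) (hzz : z * z = 1) :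
    z = 1 := by
  have h1 : orderOf z ∣ 2 := orderOf_dvd_of_pow_eq_one (by rw [pow_two]; exact hzz)
  have h2 : orderOf z ∣ Nat.card X := by
    have := orderOf_dvd_natCard (⟨z, hz⟩ : X)
    rwa [Subgroup.orderOf_mk] at this
  rcases (Nat.dvd_prime Nat.prime_two).mp h1 with h3 | h3
  · exact orderOf_eq_one_iff.mp h3
  · exfalso
    rw [h3] at h2
    obtain ⟨c, hc⟩ := hX.odd
    omega

/-- An involution of `P` other than `J` is of the form `σ^i τ`. -/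
theorem invol_P (h : Hyp n P σ τ) (p : G) (hp : p ∈ (P : Subgroup G)) (hpp : p * p = 1)
    (hp1 : p ≠ 1) (hpJ : p ≠ σ ^ (2 ^ (n - 2))) : ∃ i : ℕ, p = σ ^ i * τ := by
  obtain ⟨i, hi, rfl | rfl⟩ := Cfsg.Agent.H24.Dih.P_elts h p hp
  · exfalso
    have h1 : σ ^ (2 * i) = 1 := by rw [two_mul, pow_add]; exact hpp
    have h2 : orderOf σ ∣ 2 * i := orderOf_dvd_of_pow_eq_one h1
    rw [h.hσo, ← Cfsg.Agent.H24.Dih.two_pow_eq h, mul_comm] at h2
    have h3 : 2 ^ (n - 2) ∣ i := Nat.dvd_of_mul_dvd_mul_left (by norm_num) h2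
    obtain ⟨c, rfl⟩ := h3
    rw [← Cfsg.Agent.H24.Dih.two_pow_eq h] at hi
    have hc : c < 2 := Nat.lt_of_mul_lt_mul_left hi
    interval_cases c
    · exact hp1 (by simp)
    · exact hpJ (by simp)
  · exact ⟨i, rfl⟩

theorem invol_class (h : Hyp n P σ τ) (hX : Core n P σ X) (u : G) (hu : orderOf u = 2)
    (huC : u ∈ Subgroup.centralizer ({σ ^ (2 ^ (n - 2))} : Set G))
    (huJ : u ≠ σ ^ (2 ^ (n - 2))) :
    (∃ g ∈ Subgroup.centralizer ({σ ^ (2 ^ (n - 2))} : Set G), u = g * τ * g⁻¹) ∨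
    (∃ g ∈ Subgroup.centralizer ({σ ^ (2 ^ (n - 2))} : Set G), u = g * (σ * τ) * g⁻¹) := by
  have hPle := Cfsg.Agent.H24.Dih.P_le h
  have hu2 : u * u = 1 := by
    have h1 := pow_orderOf_eq_one u
    rw [hu, pow_two] at h1
    exact h1
  have hu1 : u ≠ 1 := by
    intro h1
    rw [h1, orderOf_one] at hu
    omega
  obtain ⟨x, hx, p, hp, rfl⟩ := hX.mul u huC
  have hpH := hPle hp
  have hpx : p * x * p⁻¹ ∈ X := hX.norm p hpH x hx
  -- `p * p = 1`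
  have hpp : p * p = 1 := by
    apply Cfsg.Agent.H71.DihC.X_inf_P hX _ _ ((P : Subgroup G).mul_mem hp hp)
    have e : p * p = (x * (p * x * p⁻¹))⁻¹ := by
      have h1 : x * (p * x * p⁻¹) * (p * p) = 1 := by
        calc x * (p * x * p⁻¹) * (p * p) = x * p * (x * p) := by group
          _ = 1 := hu2
      exact eq_inv_of_mul_eq_one_right h1
    rw [e]
    exact X.inv_mem (X.mul_mem hx hpx)
  -- `p ≠ 1`
  have hp1 : p ≠ 1 := by
    rintro rfl
    rw [mul_one] at hu2 hu1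
    exact hu1 (eq_one_of_sq_of_mem hX x hx hu2)
  -- `p ≠ J`
  have hpJ : p ≠ σ ^ (2 ^ (n - 2)) := by
    rintro rfl
    have hcomm : σ ^ (2 ^ (n - 2)) * x = x * σ ^ (2 ^ (n - 2)) :=
      (Subgroup.mem_centralizer_iff.mp (hX.le hx)) _ (Set.mem_singleton _)
    have hxx : x * x = 1 := by
      calc x * x = x * x * (σ ^ (2 ^ (n - 2)) * σ ^ (2 ^ (n - 2))) := by
            rw [Cfsg.Agent.H24.Dih.J_sq h, mul_one]
        _ = x * (σ ^ (2 ^ (n - 2)) * x) * σ ^ (2 ^ (n - 2)) := by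
            rw [hcomm]; simp only [mul_assoc]
        _ = x * σ ^ (2 ^ (n - 2)) * (x * σ ^ (2 ^ (n - 2))) := by simp only [mul_assoc]
        _ = 1 := hu2
    have hx1 := eq_one_of_sq_of_mem hX x hx hxx
    rw [hx1, one_mul] at huJ
    exact huJ rfl
  obtain ⟨i, rfl⟩ := invol_P h p hp hpp hp1 hpJ
  obtain ⟨t, ht⟩ : ∃ t : G, t = σ ^ i * τ := ⟨_, rfl⟩
  rw [← ht] at hu2 hpp hp hpH hpx ⊢
  have htinv : t⁻¹ = t := inv_eq_of_mul_eq_one_left hpp
  -- `t` inverts `x`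
  have hinvx : t * x * t⁻¹ = x⁻¹ := by
    rw [htinv]
    have h1 : x * (t * x * t) = 1 := by
      calc x * (t * x * t) = x * t * (x * t) := by simp only [mul_assoc]
        _ = 1 := hu2
    exact eq_inv_of_mul_eq_one_right h1
  -- a square root `y` of `x` in `X`
  have hxodd : Odd (orderOf x) := by
    have h2 : orderOf x ∣ Nat.card X := by
      have := orderOf_dvd_natCard (⟨x, hx⟩ : X)
      rwa [Subgroup.orderOf_mk] at this
    exact Odd.of_dvd_nat hX.odd h2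
  obtain ⟨k, hk⟩ := hxodd
  obtain ⟨y, hy⟩ : ∃ y : G, y = x ^ (k + 1) := ⟨_, rfl⟩
  have hyX : y ∈ X := by rw [hy]; exact X.pow_mem hx _
  have hyy : y * y = x := by
    rw [hy, ← pow_add]
    have e : k + 1 + (k + 1) = orderOf x + 1 := by omega
    rw [e, pow_succ, pow_orderOf_eq_one, one_mul]
  have hinvy : t * y * t⁻¹ = y⁻¹ := by
    rw [hy, ← conj_pow, hinvx, inv_pow]
  have hty : t * y⁻¹ = y * t := by
    have h1 : t * y⁻¹ * t⁻¹ = y := by
      have h2 : (t * y * t⁻¹)⁻¹ = y := by rw [hinvy, inv_inv]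
      calc t * y⁻¹ * t⁻¹ = (t * y * t⁻¹)⁻¹ := by group
        _ = y := h2
    calc t * y⁻¹ = t * y⁻¹ * t⁻¹ * t := by simp only [mul_assoc, inv_mul_cancel, mul_one]
      _ = y * t := by rw [h1]
  have hconj : x * t = y * t * y⁻¹ := by
    rw [mul_assoc y t, hty, ← mul_assoc, hyy]
  have hyH : y ∈ Subgroup.centralizer ({σ ^ (2 ^ (n - 2))} : Set G) := hX.le hyX
  rcases Nat.even_or_odd' i with ⟨j, hj | hj⟩
  · left
    refine ⟨y * σ ^ j, Subgroup.mul_mem _ hyH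
      (hPle ((P : Subgroup G).pow_mem h.hσ j)), ?_⟩
    rw [hconj, ht, hj, ← conj_pow_tau h j, mul_inv_rev]
    simp only [mul_assoc]
  · right
    refine ⟨y * σ ^ j, Subgroup.mul_mem _ hyH
      (hPle ((P : Subgroup G).pow_mem h.hσ j)), ?_⟩
    rw [hconj, ht, hj, ← conj_pow_sigma_tau h j, mul_inv_rev]
    simp only [mul_assoc]

/-- No element of `P` conjugates `τ` to `σ τ`. -/
theorem P_conj_ne (h : Hyp n P σ τ) (p : G) (hp : p ∈ (P : Subgroup G)) :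
    p * τ * p⁻¹ ≠ σ * τ := by
  intro hc
  have key : ∀ i : ℕ, σ ^ (2 * i) * τ ≠ σ * τ := by
    intro i h2
    have h3 : σ ^ (2 * i) = σ ^ 1 := by
      rw [pow_one]
      exact mul_right_cancel h2
    have h4 := pow_eq_pow_iff_modEq.mp h3
    rw [h.hσo] at h4
    have h5 : 2 * i ≡ 1 [MOD 2] := h4.of_dvd (dvd_pow_self 2 (by have := h.hn; omega))
    unfold Nat.ModEq at h5
    omega
  obtain ⟨i, -, rfl | rfl⟩ := Cfsg.Agent.H24.Dih.P_elts h p hp
  · rw [conj_pow_tau h i] at hc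
    exact key i hc
  · have e : σ ^ i * τ * τ * (σ ^ i * τ)⁻¹ = σ ^ i * τ * (σ ^ i)⁻¹ := by group
    rw [e, conj_pow_tau h i] at hc
    exact key i hc

theorem invol_not_conj (h : Hyp n P σ τ) (hX : Core n P σ X) (g : G)
    (hg : g ∈ Subgroup.centralizer ({σ ^ (2 ^ (n - 2))} : Set G)) : g * τ * g⁻¹ ≠ σ * τ := by
  intro hcontra
  have hPle := Cfsg.Agent.H24.Dih.P_le h
  obtain ⟨x, hx, p, hp, rfl⟩ := hX.mul g hg
  obtain ⟨a, ha⟩ : ∃ a : G, a = p * τ * p⁻¹ := ⟨_, rfl⟩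
  have haP : a ∈ (P : Subgroup G) := by
    rw [ha]
    exact mul_mem (mul_mem hp h.hτ) (inv_mem hp)
  have hbP : σ * τ ∈ (P : Subgroup G) := mul_mem h.hσ h.hτ
  have hxa : x * a * x⁻¹ = σ * τ := by
    rw [← hcontra, ha]
    group
  have hmem : σ * τ * a⁻¹ ∈ X := by
    have e : σ * τ * a⁻¹ = x * (a * x⁻¹ * a⁻¹) := by
      rw [← hxa]
      group
    rw [e]
    exact X.mul_mem hx (hX.norm a (hPle haP) x⁻¹ (X.inv_mem hx))
  have h1 : σ * τ * a⁻¹ = 1 :=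
    Cfsg.Agent.H71.DihC.X_inf_P hX _ hmem (mul_mem hbP (inv_mem haP))
  have h2 : a = σ * τ := (mul_inv_eq_one.mp h1).symm
  rw [ha] at h2
  exact P_conj_ne h p hp h2

example (h : Hyp n P σ τ) (hX : Core n P σ X) (u : G) (hu : orderOf u = 2)
    (huC : u ∈ Subgroup.centralizer ({σ ^ (2 ^ (n - 2))} : Set G))
    (huJ : u ≠ σ ^ (2 ^ (n - 2))) :
    (∃ g ∈ Subgroup.centralizer ({σ ^ (2 ^ (n - 2))} : Set G), u = g * τ * g⁻¹) ∨
    (∃ g ∈ Subgroup.centralizer ({σ ^ (2 ^ (n - 2))} : Set G), u = g * (σ * τ) * g⁻¹) :=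
  invol_class h hX u hu huC huJ

example (h : Hyp n P σ τ) (hX : Core n P σ X) (g : G)
    (hg : g ∈ Subgroup.centralizer ({σ ^ (2 ^ (n - 2))} : Set G)) : g * τ * g⁻¹ ≠ σ * τ :=
  invol_not_conj h hX g hg

end Cfsg.Agent.H80.Dih
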