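import Mathlib
import Cfsg.Agent.H78.SvDefs

/-!
# The characteristic polynomial on a minimal invariant subspace is irreducible (S2425-CP2)
-/

set_option autoImplicit false

namespace Cfsg.Agent.H80.Sv

open Cfsg.Agent.H78.Sv
open scoped MatrixGroups

section inv
variable {F : Type*} [Field F] {V : Type*} [AddCommGroup V] [Module F V] [FiniteDimensional F V]

omit [FiniteDimensional F V] in
/-- An invariant subspace of an atom (for the restricted endomorphism) is `⊥` or `⊤`. -/
theorem atom_invt (T : Module.End F V) (A : ↥(Module.End.invtSubmodule T)) (hA : IsAtom A)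
    (W : Submodule F ↥A.1) (hW : ∀ w ∈ W, resT T A w ∈ W) : W = ⊥ ∨ W = ⊤ := by
  have hmem : W.map A.1.subtype ∈ Module.End.invtSubmodule T := by
    intro v hv
    obtain ⟨w, hw, rfl⟩ := hv
    exact ⟨resT T A w, hW w hw, rfl⟩
  have hle : (⟨W.map A.1.subtype, hmem⟩ : ↥(Module.End.invtSubmodule T)) ≤ A := by
    change W.map A.1.subtype ≤ A.1
    exact Submodule.map_subtype_le _ _
  rcases hA.le_iff.mp hle with h | h
  · left
    have h1 : W.map A.1.subtype = ⊥ := congrArg Subtype.val h
    apply Submodule.map_injective_of_injective (Submodule.injective_subtype A.1)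
    rw [h1, Submodule.map_bot]
  · right
    have h1 : W.map A.1.subtype = A.1 := congrArg Subtype.val h
    apply Submodule.map_injective_of_injective (Submodule.injective_subtype A.1)
    rw [h1, Submodule.map_subtype_top]

/-- A nonzero polynomial killing the restriction to an atom has degree at least its dimension. -/
theorem atom_finrank_le (T : Module.End F V) (A : ↥(Module.End.invtSubmodule T)) (hA : IsAtom A)
    (q : Polynomial F) (hq : q ≠ 0) (hq0 : Polynomial.aeval (resT T A) q = 0) :
    Module.finrank F ↥A.1 ≤ q.natDegree := by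
  classical
  have hA1 : A.1 ≠ ⊥ := by
    intro h
    exact hA.1 (Subtype.ext h)
  obtain ⟨v0, hv0, hv0ne⟩ := Submodule.exists_mem_ne_zero_of_ne_bot hA1
  set v : ↥A.1 := ⟨v0, hv0⟩ with hv
  have hvne : v ≠ 0 := by
    intro h
    exact hv0ne (congrArg Subtype.val h)
  set S := resT T A with hS
  set m := q.natDegree with hm
  have hsum : ∑ i ∈ Finset.range (m + 1), q.coeff i • (S ^ i) v = 0 := by
    have h1 := congrArg (fun f : Module.End F ↥A.1 => f v) hq0
    simp only [Polynomial.aeval_eq_sum_range, LinearMap.zero_apply] at h1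
    rw [← h1, LinearMap.sum_apply]
    rfl
  have hlc : q.coeff m ≠ 0 := by
    rw [hm]
    exact Polynomial.leadingCoeff_ne_zero.mpr hq
  set W : Submodule F ↥A.1 := Submodule.span F (Set.range (fun i : Fin m => (S ^ (i : ℕ)) v))
    with hWdef
  have hgen : ∀ i, i < m → (S ^ i) v ∈ W := by
    intro i hi
    exact Submodule.subset_span ⟨⟨i, hi⟩, rfl⟩
  have htop : (S ^ m) v ∈ W := by
    rw [Finset.sum_range_succ] at hsum
    have h1 : q.coeff m • (S ^ m) v = -∑ i ∈ Finset.range m, q.coeff i • (S ^ i) v :=
      eq_neg_of_add_eq_zero_right hsum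
    have h2 : (S ^ m) v = (q.coeff m)⁻¹ • (-∑ i ∈ Finset.range m, q.coeff i • (S ^ i) v) := by
      rw [← h1, smul_smul, inv_mul_cancel₀ hlc, one_smul]
    rw [h2]
    apply Submodule.smul_mem
    apply Submodule.neg_mem
    apply Submodule.sum_mem
    intro i hi
    exact Submodule.smul_mem _ _ (hgen i (Finset.mem_range.mp hi))
  have hinv : ∀ w ∈ W, S w ∈ W := by
    intro w hw
    have h1 : W.map S ≤ W := by
      rw [hWdef, Submodule.map_span, Submodule.span_le]
      rintro _ ⟨_, ⟨i, rfl⟩, rfl⟩
      have h2 : S ((S ^ (i : ℕ)) v) = (S ^ ((i : ℕ) + 1)) v := by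
        rw [pow_succ', Module.End.mul_apply]
      rw [h2]
      rcases Nat.lt_or_ge ((i : ℕ) + 1) m with h3 | h3
      · exact hgen _ h3
      · have h4 : (i : ℕ) + 1 = m := le_antisymm i.2 h3
        rw [h4]
        exact htop
    exact h1 ⟨w, hw, rfl⟩
  rcases Nat.eq_zero_or_pos m with hm0 | hm0
  · exfalso
    rw [hm0, Finset.sum_range_one, pow_zero, Module.End.one_apply] at hsum
    rw [hm0] at hlc
    exact hvne ((smul_eq_zero.mp hsum).resolve_left hlc)
  · rcases atom_invt T A hA W hinv with h | h
    · exfalso
      have h1 : v ∈ W := by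
        have := hgen 0 hm0
        simpa using this
      rw [h, Submodule.mem_bot] at h1
      exact hvne h1
    · have h1 : Module.finrank F ↥W ≤ Fintype.card (Fin m) :=
        finrank_range_le_card (R := F) (fun i : Fin m => (S ^ (i : ℕ)) v)
      rw [Fintype.card_fin] at h1
      have h2 : Module.finrank F ↥W = Module.finrank F ↥A.1 := by
        rw [h, finrank_top]
      omega

theorem cp_irreducible (T : Module.End F V) (A : ↥(Module.End.invtSubmodule T)) (hA : IsAtom A) :
    Irreducible (cp T A) := by
  classical
  have hA1 : A.1 ≠ ⊥ := by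
    intro h
    exact hA.1 (Subtype.ext h)
  have hdpos : 0 < Module.finrank F ↥A.1 := by
    rw [Module.finrank_pos_iff]
    exact (Submodule.nontrivial_iff_ne_bot).mpr hA1
  have hmonic : (cp T A).Monic := LinearMap.charpoly_monic _
  have hdeg : (cp T A).natDegree = Module.finrank F ↥A.1 := LinearMap.charpoly_natDegree _
  have hCH : Polynomial.aeval (resT T A) (cp T A) = 0 := LinearMap.aeval_self_charpoly _
  rw [irreducible_iff]
  constructor
  · intro hu
    have := Polynomial.natDegree_eq_zero_of_isUnit hu
    omega
  · intro g h hgh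
    have hne : cp T A ≠ 0 := hmonic.ne_zero
    have hg : g ≠ 0 := by
      rintro rfl
      rw [zero_mul] at hgh
      exact hne hgh
    have hh : h ≠ 0 := by
      rintro rfl
      rw [mul_zero] at hgh
      exact hne hgh
    have hdegs : g.natDegree + h.natDegree = Module.finrank F ↥A.1 := by
      rw [← hdeg, hgh, Polynomial.natDegree_mul hg hh]
    have hunit : ∀ r : Polynomial F, r ≠ 0 → r.natDegree = 0 → IsUnit r := by
      intro r hr hr0
      rw [Polynomial.isUnit_iff_degree_eq_zero, Polynomial.degree_eq_natDegree hr, hr0]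
      rfl
    have hcomm : Polynomial.aeval (resT T A) g * resT T A =
        resT T A * Polynomial.aeval (resT T A) g := by
      have h1 : Polynomial.aeval (resT T A) (g * Polynomial.X) =
          Polynomial.aeval (resT T A) (Polynomial.X * g) := by rw [mul_comm]
      simpa [map_mul] using h1
    have hKinv : ∀ w ∈ LinearMap.ker (Polynomial.aeval (resT T A) g),
        resT T A w ∈ LinearMap.ker (Polynomial.aeval (resT T A) g) := by
      intro w hw
      rw [LinearMap.mem_ker] at hw ⊢
      have h1 := congrArg (fun f : Module.End F ↥A.1 => f w) hcomm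
      simp only [Module.End.mul_apply] at h1
      rw [h1, hw, map_zero]
    rcases atom_invt T A hA _ hKinv with hK | hK
    · -- `g(S)` injective, so `h(S) = 0`
      left
      have hh0 : Polynomial.aeval (resT T A) h = 0 := by
        apply LinearMap.ext
        intro w
        have h1 : Polynomial.aeval (resT T A) h w ∈
            LinearMap.ker (Polynomial.aeval (resT T A) g) := by
          rw [LinearMap.mem_ker, ← Module.End.mul_apply, ← map_mul, ← hgh, hCH]
          rfl
        rw [hK, Submodule.mem_bot] at h1
        rw [h1]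
        rfl
      have := atom_finrank_le T A hA h hh hh0
      exact hunit g hg (by omega)
    · -- `g(S) = 0`
      right
      have hg0 : Polynomial.aeval (resT T A) g = 0 := LinearMap.ker_eq_top.mp hK
      have := atom_finrank_le T A hA g hg hg0
      exact hunit h hh (by omega)

example (T : Module.End F V) (A : ↥(Module.End.invtSubmodule T)) (hA : IsAtom A) :
    Irreducible (cp T A) := cp_irreducible T A hA

end inv

end Cfsg.Agent.H80.Sv
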