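import Mathlib
import Cfsg.Agent.H78.SvDefs

/-!
# Relative complements in the lattice of `x`-stable subspaces, `x` a `p'`-element (S2425-SS)
-/

set_option autoImplicit false

namespace Cfsg.Agent.H80.Sv

open Cfsg.Agent.H78.Sv
open scoped MatrixGroups

theorem relCompl_of_coprime {F : Type*} [Field F] [Finite F] (p : ℕ) [Fact p.Prime] [CharP F p]
    {n : ℕ} (x : GL (Fin n) F) (hx : (orderOf x).Coprime p) :
    RelCompl ↥(Module.End.invtSubmodule (Matrix.toLin' (x : Matrix (Fin n) (Fin n) F))) := by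
  classical
  have hp : p.Prime := Fact.out
  have hk0 : ((orderOf x : ℕ) : F) ≠ 0 := by
    intro h
    rw [CharP.cast_eq_zero_iff F p] at h
    have h1 := Nat.Coprime.eq_one_of_dvd hx.symm h
    exact hp.one_lt.ne' h1
  have hTk : (Matrix.toLin' (x : Matrix (Fin n) (Fin n) F)) ^ (orderOf x) = 1 := by
    have h1 : (x : Matrix (Fin n) (Fin n) F) ^ (orderOf x) = 1 := by
      rw [← Units.val_pow_eq_pow_val, pow_orderOf_eq_one, Units.val_one]
    have h3 : Matrix.toLin' (x : Matrix (Fin n) (Fin n) F) =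
        Matrix.toLinAlgEquiv' (x : Matrix (Fin n) (Fin n) F) := rfl
    rw [h3, ← map_pow, h1, map_one]
  have hsq : Squarefree (Polynomial.X ^ (orderOf x) - Polynomial.C (1 : F)) :=
    (Polynomial.separable_X_pow_sub_C (1 : F) hk0 one_ne_zero).squarefree
  have haeval : Polynomial.aeval (Matrix.toLin' (x : Matrix (Fin n) (Fin n) F))
      (Polynomial.X ^ (orderOf x) - Polynomial.C (1 : F)) = 0 := by
    simp [hTk]
  have hss : Module.End.IsSemisimple (Matrix.toLin' (x : Matrix (Fin n) (Fin n) F)) :=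
    Module.End.isSemisimple_of_squarefree_aeval_eq_zero hsq haeval
  intro W B hBW
  obtain ⟨q, hq⟩ := Module.End.isSemisimple_iff'.mp hss B
  have hsup : (B : Submodule F (Fin n → F)) ⊔ (q : Submodule F (Fin n → F)) = ⊤ :=
    congrArg Subtype.val hq.sup_eq_top
  have hinf : (B : Submodule F (Fin n → F)) ⊓ (q : Submodule F (Fin n → F)) = ⊥ :=
    congrArg Subtype.val hq.inf_eq_bot
  have hBW' : (B : Submodule F (Fin n → F)) ≤ (W : Submodule F (Fin n → F)) := hBW
  refine ⟨q ⊓ W, ?_, ?_⟩
  · apply Subtype.ext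
    change ((q : Submodule F (Fin n → F)) ⊓ (W : Submodule F (Fin n → F))) ⊔
      (B : Submodule F (Fin n → F)) = (W : Submodule F (Fin n → F))
    rw [sup_comm, ← sup_inf_assoc_of_le _ hBW', hsup, top_inf_eq]
  · apply Subtype.ext
    change ((q : Submodule F (Fin n → F)) ⊓ (W : Submodule F (Fin n → F))) ⊓
      (B : Submodule F (Fin n → F)) = ⊥
    rw [inf_right_comm, inf_comm (q : Submodule F (Fin n → F)), hinf, bot_inf_eq]

example {F : Type*} [Field F] [Finite F] (p : ℕ) [Fact p.Prime] [CharP F p]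
    {n : ℕ} (x : GL (Fin n) F) (hx : (orderOf x).Coprime p) :
    RelCompl ↥(Module.End.invtSubmodule (Matrix.toLin' (x : Matrix (Fin n) (Fin n) F))) :=
  relCompl_of_coprime p x hx

end Cfsg.Agent.H80.Sv
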