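import Mathlib
import Cfsg.Agent.H79.BrDefs

/-!
# S4504-COREALL: the result for `G = ` the normal closure of `P` (assembly)
-/

set_option autoImplicit false

namespace Cfsg.Agent.H80.Br

open Cfsg Cfsg.Agent.H79.Br

universe u

theorem coreAll (hLoc : StLoc.{u}) (h3 : StCore3.{u}) (h1 : StCore1.{u}) (hS : StSylLB.{u})
    (hN : StNoLin.{u}) : StCoreAll.{u} := by
  intro G _ _ p _ P hP hK hnn χ hχ hfaith hdeg
  have hp : p.Prime := Fact.out
  obtain ⟨x₁, x₂, L⟩ := hLoc p P hP hK hnn χ hχ hfaith hdeg
  have h5 := L.five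
  have hf2 : 2 ≤ charDegree χ := by omega
  have hZpos : 0 < Nat.card (Subgroup.center G) := Nat.card_pos
  have hmod : p % 4 = 1 ∨ p % 4 = 3 := by omega
  have hG : Nat.card G = (p + 1) * p * charDegree χ * Nat.card (Subgroup.center G) := by
    rcases hmod with h | h
    · exact h1 p P χ x₁ x₂ L h
    · exact h3 p P χ x₁ x₂ L h
  have hnorm := L.grp.norm
  obtain ⟨-, hSyl⟩ := hS p P hnn
  have hpos : 0 < p * charDegree χ * Nat.card (Subgroup.center G) := by positivity
  refine ⟨?_, L.irr, ?_⟩
  · rw [hnorm, hG] at hSyl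
    have h2 : (p + 1) * (p * charDegree χ * Nat.card (Subgroup.center G)) =
        Nat.card (Sylow p G) * (p * charDegree χ * Nat.card (Subgroup.center G)) := by
      rw [← hSyl]; ring
    exact (Nat.eq_of_mul_eq_mul_right hpos h2).symm
  · refine (hN p P hP hK ?_).1
    by_contra hcon
    push Not at hcon
    have hle : Subgroup.normalizer ((P : Subgroup G) : Set G) ≤
        Subgroup.centralizer ({x₁} : Set G) := by
      intro n hn
      rw [Subgroup.mem_centralizer_iff]
      intro h hh
      rw [Set.mem_singleton_iff] at hh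
      rw [hh]
      exact (hcon n hn x₁ L.grp.mem₁).symm
    have hcard := Subgroup.card_le_of_le hle
    rw [hnorm, L.grp.cent₁] at hcard
    have hpZ : 0 < p * Nat.card (Subgroup.center G) := by positivity
    have h4 : p * Nat.card (Subgroup.center G) * charDegree χ ≤
        p * Nat.card (Subgroup.center G) * 1 := by
      calc p * Nat.card (Subgroup.center G) * charDegree χ
          = p * charDegree χ * Nat.card (Subgroup.center G) := by ring
        _ ≤ p * Nat.card (Subgroup.center G) := hcard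
        _ = p * Nat.card (Subgroup.center G) * 1 := by ring
    have h6 := Nat.le_of_mul_le_mul_left h4 hpZ
    omega

example (hLoc : Cfsg.Agent.H79.Br.StLoc.{u}) (h3 : Cfsg.Agent.H79.Br.StCore3.{u})
    (h1 : Cfsg.Agent.H79.Br.StCore1.{u}) (hS : Cfsg.Agent.H79.Br.StSylLB.{u})
    (hN : Cfsg.Agent.H79.Br.StNoLin.{u}) : Cfsg.Agent.H79.Br.StCoreAll.{u} :=
  Cfsg.Agent.H80.Br.coreAll hLoc h3 h1 hS hN

end Cfsg.Agent.H80.Br
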