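import Mathlib
import Cfsg.Agent.H79.BrDefs
import Cfsg.Agent.H4.Chars

/-!
# S4504-NP: the number of Sylow `p`-subgroups; the normal closure of `P` is perfect and `χ`
restricts irreducibly to it
-/

set_option autoImplicit false

namespace Cfsg.Agent.H80.Br

open Cfsg Cfsg.Agent.H79.Br

universe u

theorem np (hR : StRed.{u}) (hC : StCoreAll.{u}) : StNP.{u} := by
  intro G _ _ p _ P hP hnn χ hχ hfaith hdeg
  obtain ⟨P₁, hP₁, hnn₁, hK₁, hcard⟩ := hR p P hP hnn
  have hχ₁ : IsCharacter (Subgroup.normalClosure ((P : Subgroup G) : Set G))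
      (fun g : Subgroup.normalClosure ((P : Subgroup G) : Set G) => χ g) :=
    Cfsg.Agent.H4.isCharacter_restrict _ hχ
  have hfaith₁ : ∀ g : Subgroup.normalClosure ((P : Subgroup G) : Set G),
      (fun g : Subgroup.normalClosure ((P : Subgroup G) : Set G) => χ g) g =
        (fun g : Subgroup.normalClosure ((P : Subgroup G) : Set G) => χ g) 1 → g = 1 := by
    intro g hg
    apply Subtype.ext
    exact hfaith (g : G) hg
  have hdeg₁ : 2 * charDegree
      (fun g : Subgroup.normalClosure ((P : Subgroup G) : Set G) => χ g) + 1 = p := hdeg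
  obtain ⟨h1, h2, h3⟩ := hC p P₁ hP₁ hK₁ hnn₁ _ hχ₁ hfaith₁ hdeg₁
  exact ⟨by rw [← hcard]; exact h1, h3, h2⟩

example (hR : Cfsg.Agent.H79.Br.StRed.{u}) (hC : Cfsg.Agent.H79.Br.StCoreAll.{u}) :
    Cfsg.Agent.H79.Br.StNP.{u} := Cfsg.Agent.H80.Br.np hR hC

end Cfsg.Agent.H80.Br
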