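import Mathlib
import Cfsg.Agent.H79.BrDefs

/-!
# S4504-PERMBOUND: the order of `G / Z(G)` when `G` has `p + 1` Sylow `p`-subgroups of order `p`
and the kernel of the action on them is central
-/

set_option autoImplicit false

namespace Cfsg.Agent.H80.Br

open Cfsg Cfsg.Agent.H79.Br

universe u

theorem permBound : StPermBound.{u} := by
  intro G _ _ p _ P hP hnp hker
  classical
  have hp : p.Prime := Fact.out
  set N := Subgroup.normalizer ((P : Subgroup G) : Set G) with hNdef
  have hPN : (P : Subgroup G) ≤ N := Subgroup.le_normalizer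
  have hnorm_iff : ∀ (g : G) (Q : Sylow p G),
      g ∈ Subgroup.normalizer ((Q : Subgroup G) : Set G) ↔ g • Q = Q :=
    fun g Q => Sylow.smul_eq_iff_mem_normalizer.symm
  have hG : Nat.card G = (p + 1) * Nat.card N := by
    rw [← hnp, Sylow.card_eq_index_normalizer P, mul_comm]
    exact (Subgroup.card_mul_index N).symm
  -- central elements fix every Sylow subgroup
  have hZfix : ∀ z ∈ Subgroup.center G, ∀ Q : Sylow p G, z • Q = Q := by
    intro z hz Q
    rw [← hnorm_iff, Subgroup.mem_normalizer_iff]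
    intro h
    have h1 : z * h * z⁻¹ = h := by
      rw [← Subgroup.mem_center_iff.1 hz h, mul_inv_cancel_right]
    rw [h1]
  -- subgroups of order `p`
  have hgen : ∀ H : Subgroup G, Nat.card H = p → ∀ x ∈ H, x ≠ 1 → H = Subgroup.zpowers x := by
    intro H hH x hx hx1
    symm
    apply Subgroup.eq_of_le_of_card_ge (by rw [Subgroup.zpowers_le]; exact hx)
    rw [Nat.card_zpowers, hH]
    have h0 : (⟨x, hx⟩ : ↥H) ^ Nat.card ↥H = 1 := pow_card_eq_one'
    rw [hH] at h0
    have h1 : orderOf x ∣ p := orderOf_dvd_of_pow_eq_one (congrArg Subtype.val h0)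
    rcases (Nat.dvd_prime hp).1 h1 with h2 | h2
    · exact absurd (orderOf_eq_one_iff.1 h2) hx1
    · exact h2.ge
  have hcardQ : ∀ Q : Sylow p G, Nat.card (Q : Subgroup G) = p := by
    intro Q
    rw [Sylow.card_eq_multiplicity Q, ← Sylow.card_eq_multiplicity P, hP]
  -- `P` acts without fixed points on the other Sylow subgroups
  have hfpf : ∀ x ∈ (P : Subgroup G), ∀ Q : Sylow p G, x • Q = Q → x ≠ 1 → Q = P := by
    intro x hx Q hxQ hx1
    have hxN : x ∈ Subgroup.normalizer ((Q : Subgroup G) : Set G) := (hnorm_iff x Q).2 hxQ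
    have hxQ' : x ∈ (Q : Subgroup G) := by
      have hpg : IsPGroup p (Subgroup.zpowers x) :=
        P.2.to_le (by rw [Subgroup.zpowers_le]; exact hx)
      have h0 := hpg.inf_normalizer_sylow Q
      have h1 : x ∈ Subgroup.zpowers x ⊓ Subgroup.normalizer ((Q : Subgroup G) : Set G) :=
        ⟨Subgroup.mem_zpowers x, hxN⟩
      have h2 : x ∈ Subgroup.zpowers x ⊓ (Q : Subgroup G) := by
        rw [← h0]; exact h1
      exact h2.2
    apply Sylow.ext
    rw [hgen _ (hcardQ Q) x hxQ' hx1, hgen _ hP x hx hx1]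
  have hcardT : Nat.card {R : Sylow p G // R ≠ P} = p := by
    have h1 : Nat.card {R : Sylow p G // R ≠ P} = ({P}ᶜ : Set (Sylow p G)).ncard := rfl
    rw [h1, Set.ncard_compl, Set.ncard_singleton, hnp]
    omega
  have hinvP : ∀ a ∈ N, ∀ Q : Sylow p G, a • Q = P → Q = P := by
    intro a ha Q h
    have h1 : Q = a⁻¹ • P := by rw [← h, inv_smul_smul]
    rw [h1]
    exact (hnorm_iff _ P).1 (N.inv_mem ha)
  have hreg : ∀ Q : Sylow p G, Q ≠ P → ∀ Q' : Sylow p G, Q' ≠ P →
      ∃ x ∈ (P : Subgroup G), x • Q = Q' := by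
    intro Q hQ Q' hQ'
    let φ : ↥(P : Subgroup G) → {R : Sylow p G // R ≠ P} := fun x =>
      ⟨(x : G) • Q, fun h => hQ (hinvP _ (hPN x.2) Q h)⟩
    have hφinj : Function.Injective φ := by
      intro x y hxy
      have h1 : (x : G) • Q = (y : G) • Q := congrArg Subtype.val hxy
      have h2 : ((y : G)⁻¹ * (x : G)) • Q = Q := by rw [mul_smul, h1, inv_smul_smul]
      by_contra hne
      apply hQ
      apply hfpf _ ((P : Subgroup G).mul_mem ((P : Subgroup G).inv_mem y.2) x.2) Q h2
      intro h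
      apply hne
      apply Subtype.ext
      exact (inv_mul_eq_one.1 h).symm
    have hφbij : Function.Bijective φ :=
      hφinj.bijective_of_nat_card_le (by rw [hcardT, hP])
    obtain ⟨x, hx⟩ := hφbij.2 ⟨Q', hQ'⟩
    exact ⟨x, x.2, congrArg Subtype.val hx⟩
  -- fix `Q ≠ P`
  obtain ⟨⟨Q, hQ⟩⟩ : Nonempty {R : Sylow p G // R ≠ P} := by
    have h1 : 0 < Nat.card {R : Sylow p G // R ≠ P} := by rw [hcardT]; exact hp.pos
    exact (Nat.card_pos_iff.1 h1).1
  set NQ := N ⊓ Subgroup.normalizer ((Q : Subgroup G) : Set G) with hNQdef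
  have hNcard : Nat.card N = p * Nat.card NQ := by
    have hbij : Function.Bijective (fun xm : ↥(P : Subgroup G) × ↥NQ =>
        (⟨(xm.1 : G) * (xm.2 : G), N.mul_mem (hPN xm.1.2) xm.2.2.1⟩ : ↥N)) := by
      constructor
      · rintro ⟨x, m⟩ ⟨x', m'⟩ h
        have h1 : (x : G) * (m : G) = (x' : G) * (m' : G) := congrArg Subtype.val h
        have h2 : (x' : G)⁻¹ * (x : G) = (m' : G) * (m : G)⁻¹ := by
          have : (x' : G)⁻¹ * (x : G) = (x' : G)⁻¹ * ((x : G) * (m : G)) * (m : G)⁻¹ := by group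
          rw [this, h1]; group
        have h3 : ((x' : G)⁻¹ * (x : G)) • Q = Q := by
          rw [h2]
          exact (hnorm_iff _ Q).1 (Subgroup.mul_mem _ m'.2.2 (Subgroup.inv_mem _ m.2.2))
        have h4 : (x' : G)⁻¹ * (x : G) = 1 := by
          by_contra hne
          exact hQ (hfpf _ ((P : Subgroup G).mul_mem ((P : Subgroup G).inv_mem x'.2) x.2)
            Q h3 hne)
        have hx : x = x' := by
          apply Subtype.ext
          exact (inv_mul_eq_one.1 h4).symm
        subst hx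
        have hm : m = m' := Subtype.ext (mul_left_cancel h1)
        rw [hm]
      · rintro ⟨a, ha⟩
        have haQ : a • Q ≠ P := fun h => hQ (hinvP a ha Q h)
        obtain ⟨x, hx, hxQ⟩ := hreg Q hQ (a • Q) haQ
        refine ⟨(⟨x, hx⟩, ⟨x⁻¹ * a, N.mul_mem (N.inv_mem (hPN hx)) ha, ?_⟩), ?_⟩
        · exact (hnorm_iff _ Q).2 (by rw [mul_smul, ← hxQ, inv_smul_smul])
        · apply Subtype.ext
          show x * (x⁻¹ * a) = a
          group
    have h1 := Nat.card_eq_of_bijective _ hbij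
    rw [Nat.card_prod, hP] at h1
    exact h1.symm
  -- the centre lies in `NQ`
  have hZNQ : Subgroup.center G ≤ NQ := by
    intro z hz
    exact ⟨(hnorm_iff z P).2 (hZfix z hz P), (hnorm_iff z Q).2 (hZfix z hz Q)⟩
  have hZ'card : Nat.card ((Subgroup.center G).subgroupOf NQ) = Nat.card (Subgroup.center G) :=
    Nat.card_congr (Subgroup.subgroupOfEquivOfLe hZNQ).toEquiv
  have hidx : ((Subgroup.center G).subgroupOf NQ).index * Nat.card (Subgroup.center G) =
      Nat.card NQ := by
    rw [← hZ'card]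
    exact Subgroup.index_mul_card _
  -- an element `x₀ ≠ 1` of `P`
  obtain ⟨x₀, hx₀, hx₀1⟩ : ∃ x ∈ (P : Subgroup G), x ≠ 1 := by
    by_contra hcon
    push Not at hcon
    have h1 : (P : Subgroup G) = ⊥ := (Subgroup.eq_bot_iff_forall _).2 hcon
    rw [h1, Subgroup.card_bot] at hP
    exact hp.one_lt.ne hP
  have hPeq : (P : Subgroup G) = Subgroup.zpowers x₀ := hgen _ hP x₀ hx₀ hx₀1
  -- the stabilizer of `x₀` in `NQ` is the centre
  have hstab : ∀ c ∈ NQ, c * x₀ * c⁻¹ = x₀ → c ∈ Subgroup.center G := by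
    intro c hc hcx
    apply hker
    intro R
    by_cases hR : R = P
    · rw [hR]; exact (hnorm_iff c P).1 hc.1
    · obtain ⟨x', hx', rfl⟩ := hreg Q hQ R hR
      have hcomm : c * x' = x' * c := by
        have hx'' : x' ∈ Subgroup.zpowers x₀ := by rw [← hPeq]; exact hx'
        obtain ⟨k, rfl⟩ := Subgroup.mem_zpowers_iff.1 hx''
        have h1 : Commute c x₀ := by
          have : c * x₀ = (c * x₀ * c⁻¹) * c := by group
          rw [Commute, SemiconjBy, this, hcx]
        exact (h1.zpow_right k).eq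
      rw [← mul_smul, hcomm, mul_smul, (hnorm_iff c Q).1 hc.2]
  -- the orbit map
  let g : ↥NQ ⧸ (Subgroup.center G).subgroupOf NQ → G :=
    Quotient.lift (fun c : ↥NQ => (c : G) * x₀ * (c : G)⁻¹) (by
      intro a b hab
      have h1 : a⁻¹ * b ∈ (Subgroup.center G).subgroupOf NQ := QuotientGroup.leftRel_apply.1 hab
      have h2 : (a : G)⁻¹ * (b : G) ∈ Subgroup.center G := h1
      have h3 := Subgroup.mem_center_iff.1 h2 x₀
      show (a : G) * x₀ * (a : G)⁻¹ = (b : G) * x₀ * (b : G)⁻¹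
      have h4 : (b : G) * x₀ * (b : G)⁻¹ =
          (a : G) * (((a : G)⁻¹ * (b : G)) * x₀) * ((a : G)⁻¹ * (b : G))⁻¹ * (a : G)⁻¹ := by
        group
      rw [h4, ← h3]; group)
  have hgmk : ∀ a : ↥NQ, g (QuotientGroup.mk a) = (a : G) * x₀ * (a : G)⁻¹ := fun a => rfl
  have hginj : Function.Injective g := by
    intro u v huv
    obtain ⟨a, rfl⟩ := QuotientGroup.mk_surjective u
    obtain ⟨b, rfl⟩ := QuotientGroup.mk_surjective v
    rw [hgmk, hgmk] at huv
    rw [QuotientGroup.eq]
    show (a : G)⁻¹ * (b : G) ∈ Subgroup.center G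
    apply hstab _ (NQ.mul_mem (NQ.inv_mem a.2) b.2)
    have h1 : (a : G)⁻¹ * (b : G) * x₀ * ((a : G)⁻¹ * (b : G))⁻¹ =
        (a : G)⁻¹ * ((b : G) * x₀ * (b : G)⁻¹) * (a : G) := by group
    rw [h1, ← huv]; group
  have hrange : Set.range g ⊆ ((P : Subgroup G) : Set G) \ {1} := by
    rintro _ ⟨u, rfl⟩
    obtain ⟨a, rfl⟩ := QuotientGroup.mk_surjective u
    rw [hgmk]
    refine ⟨(Subgroup.mem_normalizer_iff.1 a.2.1 x₀).1 hx₀, ?_⟩
    rw [Set.mem_singleton_iff, conj_eq_one_iff]
    exact hx₀1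
  have hrangecard : (Set.range g).ncard = ((Subgroup.center G).subgroupOf NQ).index := by
    rw [← Nat.card_coe_set_eq, Nat.card_range_of_injective hginj]
    rfl
  have hPcard : (((P : Subgroup G) : Set G) \ {1}).ncard = p - 1 := by
    rw [Set.ncard_sdiff_singleton_of_mem (Subgroup.one_mem _), ← Nat.card_coe_set_eq]
    congr 1
  have hle : ((Subgroup.center G).subgroupOf NQ).index ≤ p - 1 := by
    rw [← hrangecard, ← hPcard]
    exact Set.ncard_le_ncard hrange (Set.toFinite _)
  refine ⟨((Subgroup.center G).subgroupOf NQ).index, ?_, ?_, ?_⟩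
  · rw [hG, hNcard, ← hidx]
    ring
  · have := hp.two_le
    omega
  · intro hd x hx x' hx' hx1 hx'1
    have heq : Set.range g = ((P : Subgroup G) : Set G) \ {1} := by
      apply Set.eq_of_subset_of_ncard_le hrange _ (Set.toFinite _)
      rw [hrangecard, hPcard, hd]
    have hconj : ∀ y ∈ (P : Subgroup G), y ≠ 1 → IsConj x₀ y := by
      intro y hy hy1
      have hy' : y ∈ Set.range g := by
        rw [heq]; exact ⟨hy, hy1⟩
      obtain ⟨u, hu⟩ := hy'
      obtain ⟨a, rfl⟩ := QuotientGroup.mk_surjective u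
      rw [hgmk] at hu
      exact isConj_iff.2 ⟨(a : G), hu⟩
    exact (hconj x hx hx1).symm.trans (hconj x' hx' hx'1)

example : Cfsg.Agent.H79.Br.StPermBound.{u} := Cfsg.Agent.H80.Br.permBound.{u}

end Cfsg.Agent.H80.Br
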