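import Cfsg.Agent.H80.CycCent
import Cfsg.Agent.H80.AbelDefect
import Cfsg.Agent.H80.IndPair
import Cfsg.Agent.H20.PElement

set_option autoImplicit false
set_option linter.unusedSectionVars false
set_option linter.style.haveILetI false

/-!
# helper80: `k(B) ≤ |P|` for a block with cyclic defect group `P`

* `blockPart_autIrr_image`: block parts and automorphisms.
* `exists_regular_ne_zero`: a `p`-regular `g₀ ∈ C_G(P)` with `χ(u g₀) ≠ 0` for all `u ∈ P`,
  `χ ∈ B` (`P` an abelian defect group of `B`).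
* `exists_conj_gen_decomp_ne_zero`: non-vanishing of a generalized decomposition number at a
  conjugate of a generator.
* `card_le_of_cyclic_defect`: `k(B) ≤ |P|`.
-/

namespace Cfsg.Agent.H80

open Cfsg Cfsg.Agent.H20 Cfsg.Agent.H4
open scoped ComplexConjugate

universe u

section Aut

variable {K : Type u} [Group K] [Finite K]

/-- Block parts are compatible with automorphisms. -/
theorem blockPart_autIrr_image (α : MulAut K) (b : Set (IrrCharacter K)) (θ : K → ℂ) (s : K) :
    blockPart (autIrr α '' b) θ (α s) = blockPart b (fun y => θ (α y)) s := by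
  classical
  letI := Fintype.ofFinite K
  show ∑ᶠ ψ' ∈ autIrr α '' b, classInner θ (ψ' : K → ℂ) * (ψ' : K → ℂ) (α s)
    = ∑ᶠ ψ ∈ b, classInner (fun y => θ (α y)) (ψ : K → ℂ) * (ψ : K → ℂ) s
  rw [finsum_mem_image ((autIrr_injective α).injOn)]
  apply finsum_mem_congr rfl
  intro ψ _
  have h1 : (autIrr α ψ : K → ℂ) (α s) = (ψ : K → ℂ) s := by
    show (ψ : K → ℂ) (α.symm (α s)) = _
    rw [MulEquiv.symm_apply_apply]
  rw [h1]
  congr 1
  unfold classInner
  congr 1
  rw [← Equiv.sum_comp α.toEquiv (fun y => θ y * conj ((autIrr α ψ : K → ℂ) y))]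
  apply Finset.sum_congr rfl
  intro y _
  show θ (α y) * conj ((ψ : K → ℂ) (α.symm (α y))) = _
  rw [MulEquiv.symm_apply_apply]

end Aut

section Main

variable {G : Type u} [Group G] [Fintype G] {p : ℕ} [Fact p.Prime] {M : Ideal AlgInt}

/-- For an abelian defect group `P` of a block there is a `p`-regular element `g₀` centralizing
`P` such that no character of the block vanishes at `u g₀`, `u ∈ P`. -/
theorem exists_regular_ne_zero (hM : IsPModular p M) (χ₀ : IrrCharacter G)
    (P : Subgroup G) (hPD : IsDefectGroup p M (blockOf M χ₀.1) P)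
    (hPab : ∀ x ∈ P, ∀ y ∈ P, x * y = y * x) :
    ∃ g₀ : G, ¬ p ∣ orderOf g₀ ∧ g₀ ∈ Subgroup.centralizer (P : Set G) ∧
      ∀ u ∈ P, ∀ χ ∈ blockOf M χ₀.1, χ.1 (u * g₀) ≠ 0 := by
  have hMp := isPrime_of_isPModular hM
  obtain ⟨g₀, hg₀, S, rfl⟩ := hPD
  refine ⟨g₀, not_dvd_orderOf_of_isDefectClass hM χ₀ g₀ hg₀, ?_, ?_⟩
  · rw [Subgroup.mem_centralizer_iff]
    rintro _ ⟨x, -, rfl⟩
    exact (Subgroup.mem_centralizer_iff.mp x.2 g₀ rfl).symm
  · rintro _ ⟨x, hx, rfl⟩ χ hχ h0
    have hxc : ∀ w ∈ (S : Subgroup (Subgroup.centralizer ({g₀} : Set G))), x * w = w * x := by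
      intro w hw
      apply Subtype.ext
      exact hPab _ ⟨x, hx, rfl⟩ _ ⟨w, hw, rfl⟩
    apply not_memLocalIdeal_centralChar_mul hM χ₀ g₀ hg₀ S x hx hxc χ hχ
    unfold centralChar
    have h1 : χ.1 ((x : G) * g₀) = 0 := h0
    rw [h1, mul_zero, zero_div]
    exact memLocalIdeal_zero hMp

/-- **Non-vanishing.**  Let `(P, c)` be a maximal pair of `B` with `P` abelian such that all
characters of `c` agree with `φ` on `p`-regular elements, and `x ∈ P` with `C_G(x) = C_G(P)`.
For `χ ∈ B` some `N_G(P)`-conjugate `x'` of `x` has `∑_{ψ ∈ c} [χ(x' ·), ψ] ≠ 0`. -/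
theorem exists_conj_gen_decomp_ne_zero (hM : IsPModular p M) {B : Set (IrrCharacter G)}
    {P : Subgroup G} {c : Set (IrrCharacter (Subgroup.centralizer (P : Set G)))}
    (hmax : IsMaximalBrauerPair p M B P c) (hPab : ∀ x ∈ P, ∀ y ∈ P, x * y = y * x)
    (φ : Subgroup.centralizer (P : Set G) → ℂ)
    (hφ : ∀ ψ ∈ c, ∀ s : Subgroup.centralizer (P : Set G), ¬ p ∣ orderOf s →
      (ψ : Subgroup.centralizer (P : Set G) → ℂ) s = φ s)
    (x : G) (hxP : x ∈ P)
    (hCx : ∀ g : G, g * x = x * g → g ∈ Subgroup.centralizer (P : Set G))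
    (χ : IrrCharacter G) (hχ : χ ∈ B) :
    ∃ n ∈ Subgroup.normalizer (P : Set G),
      (∑ᶠ ψ ∈ c, @classInner (Subgroup.centralizer (P : Set G)) _ (Fintype.ofFinite _)
        (fun y : Subgroup.centralizer (P : Set G) => (χ : G → ℂ) ((n * x * n⁻¹) * (y : G)))
        (ψ : Subgroup.centralizer (P : Set G) → ℂ)) ≠ 0 := by
  classical
  letI : Fintype (Subgroup.centralizer (P : Set G)) := Fintype.ofFinite _
  letI := fintypeIrr G
  letI := fintypeIrr (Subgroup.centralizer (P : Set G))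
  have hMp := isPrime_of_isPModular hM
  have hP : IsPGroup p P := hmax.1.1.1
  have hB : IsPBlock M B := hmax.1.2.1
  have hPD := isDefectGroup_of_maximal p hM B P c hmax
  obtain ⟨χ₀, hB0⟩ := id hB
  subst hB0
  obtain ⟨g₀, hg₀reg, hg₀C, hne⟩ := exists_regular_ne_zero hM χ₀ P hPD hPab
  obtain ⟨s₀, hs₀⟩ : ∃ s₀ : Subgroup.centralizer (P : Set G), (s₀ : G) = g₀ := ⟨⟨g₀, hg₀C⟩, rfl⟩
  have hs₀reg : ¬ p ∣ orderOf s₀ := by
    rw [← Subgroup.orderOf_coe, hs₀]; exact hg₀reg
  have hx : ∃ k : ℕ, orderOf x = p ^ k := by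
    obtain ⟨k, hk⟩ := (IsPGroup.iff_orderOf.mp hP) ⟨x, hxP⟩
    exact ⟨k, by rw [← hk, Subgroup.orderOf_mk]⟩
  have hxC : ∀ y ∈ Subgroup.centralizer (P : Set G), x * y = y * x :=
    fun y hy => Subgroup.mem_centralizer_iff.mp hy x hxP
  have hCeq : Subgroup.centralizer (P : Set G) = Subgroup.centralizer ({x} : Set G) := by
    ext g
    constructor
    · intro hg
      rw [Subgroup.mem_centralizer_iff]
      intro w hw
      rw [Set.mem_singleton_iff] at hw
      rw [hw]
      exact hxC g hg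
    · intro hg
      exact hCx g ((Subgroup.mem_centralizer_iff.mp hg) x rfl).symm
  have h2 : Cfsg.Agent.H84.SecondMain p M G := fun x hx B hB χ hχ b hb hnot y hy =>
    Cfsg.Agent.S0923.result p M hM x hx B hB χ hχ b hb hnot y hy
  have h2both := Cfsg.Agent.H84.secondMain_both' hM h2 x hx _ hCeq _ hB
  have htr := Cfsg.Agent.H84.translate_eq_sum_induced hM x _ hxC _ h2both χ hχ s₀ hs₀reg
  -- a block inducing `B` with non-vanishing part
  obtain ⟨ψ₁, hψ₁, hpart⟩ : ∃ ψ₁ : IrrCharacter (Subgroup.centralizer (P : Set G)),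
      IsInducedBlock M (Subgroup.centralizer (P : Set G))
        (blockOf M (ψ₁ : Subgroup.centralizer (P : Set G) → ℂ)) (blockOf M χ₀.1) ∧
      blockPart (blockOf M (ψ₁ : Subgroup.centralizer (P : Set G) → ℂ))
        (fun y : Subgroup.centralizer (P : Set G) => (χ : G → ℂ) (x * (y : G))) s₀ ≠ 0 := by
    by_contra hcon
    push Not at hcon
    have hzero := Cfsg.Agent.H84.finsum_mem_eq_zero_of_blocks hMp
      {ψ : IrrCharacter (Subgroup.centralizer (P : Set G)) |
        IsInducedBlock M (Subgroup.centralizer (P : Set G))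
          (blockOf M (ψ : Subgroup.centralizer (P : Set G) → ℂ)) (blockOf M χ₀.1)}
      (fun ψ => classInner (fun y : Subgroup.centralizer (P : Set G) =>
        (χ : G → ℂ) (x * (y : G))) (ψ : Subgroup.centralizer (P : Set G) → ℂ) *
        (ψ : Subgroup.centralizer (P : Set G) → ℂ) s₀)
      (fun ψ ψ' hψ hψ' => by
        show IsInducedBlock M _ (blockOf M (ψ' : Subgroup.centralizer (P : Set G) → ℂ)) _
        rw [blockOf_eq_of_mem hMp hψ']
        exact hψ)
      (fun ψ₁ hψ₁ => hcon ψ₁ hψ₁)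
    rw [hzero, hs₀] at htr
    exact hne x hxP χ hχ htr
  have hmaxb : IsMaximalBrauerPair p M (blockOf M χ₀.1) P
      (blockOf M (ψ₁ : Subgroup.centralizer (P : Set G) → ℂ)) :=
    isMaximal_of_isInducedBlock p hM hPD hψ₁
  obtain ⟨n, hn⟩ := exists_conjPair_eq_of_maximal p hM hmax hmaxb
  have hnN : n ∈ Subgroup.normalizer (P : Set G) :=
    (map_conj_eq_iff_mem_normalizer P n).mp (congrArg Sigma.fst hn)
  rw [conjPair_of_mem_normalizer P hnN] at hn
  have hceq : autIrr (conjAut' (Subgroup.centralizer (P : Set G)) n) ''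
      (blockOf M (ψ₁ : Subgroup.centralizer (P : Set G) → ℂ)) = c :=
    eq_of_heq (Sigma.mk.inj_iff.mp hn).2
  have hnC := normalizer_le_normalizer_centralizer P hnN
  refine ⟨n, hnN, fun hzero => hpart ?_⟩
  have htrans := blockPart_autIrr_image (conjAut' (Subgroup.centralizer (P : Set G)) n)
    (blockOf M (ψ₁ : Subgroup.centralizer (P : Set G) → ℂ))
    (fun y : Subgroup.centralizer (P : Set G) => (χ : G → ℂ) ((n * x * n⁻¹) * (y : G))) s₀
  rw [hceq] at htrans
  have hfun : (fun y : Subgroup.centralizer (P : Set G) => (χ : G → ℂ) ((n * x * n⁻¹) *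
      ((conjAut' (Subgroup.centralizer (P : Set G)) n y : Subgroup.centralizer (P : Set G)) : G)))
      = fun y : Subgroup.centralizer (P : Set G) => (χ : G → ℂ) (x * (y : G)) := by
    funext y
    rw [conjAut'_eq _ hnC, conjAut_apply]
    have e : n * x * n⁻¹ * (n * (y : G) * n⁻¹) = n * (x * (y : G)) * n⁻¹ := by group
    rw [e]
    exact irr_isClassFunction χ _ n
  rw [hfun] at htrans
  rw [← htrans]
  -- the block part of `c` at the `p`-regular element `α s₀`
  have hreg' : ¬ p ∣ orderOf (conjAut' (Subgroup.centralizer (P : Set G)) n s₀) := by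
    rw [MulEquiv.orderOf_eq]; exact hs₀reg
  show ∑ᶠ ψ ∈ c, classInner (fun y : Subgroup.centralizer (P : Set G) =>
      (χ : G → ℂ) ((n * x * n⁻¹) * (y : G))) (ψ : Subgroup.centralizer (P : Set G) → ℂ) *
      (ψ : Subgroup.centralizer (P : Set G) → ℂ)
        (conjAut' (Subgroup.centralizer (P : Set G)) n s₀) = 0
  have h3 : ∑ᶠ ψ ∈ c, classInner (fun y : Subgroup.centralizer (P : Set G) =>
      (χ : G → ℂ) ((n * x * n⁻¹) * (y : G))) (ψ : Subgroup.centralizer (P : Set G) → ℂ) *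
      (ψ : Subgroup.centralizer (P : Set G) → ℂ)
        (conjAut' (Subgroup.centralizer (P : Set G)) n s₀)
      = (∑ᶠ ψ ∈ c, classInner (fun y : Subgroup.centralizer (P : Set G) =>
        (χ : G → ℂ) ((n * x * n⁻¹) * (y : G))) (ψ : Subgroup.centralizer (P : Set G) → ℂ)) *
        φ (conjAut' (Subgroup.centralizer (P : Set G)) n s₀) := by
    rw [finsum_mem_irr, finsum_mem_irr, Finset.sum_mul]
    apply Finset.sum_congr rfl
    intro ψ _
    by_cases hψ : ψ ∈ c
    · rw [if_pos hψ, if_pos hψ, hφ ψ hψ _ hreg']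
    · rw [if_neg hψ, if_neg hψ, zero_mul]
  rw [h3]
  have h4 : (∑ᶠ ψ ∈ c, classInner (fun y : Subgroup.centralizer (P : Set G) =>
        (χ : G → ℂ) ((n * x * n⁻¹) * (y : G))) (ψ : Subgroup.centralizer (P : Set G) → ℂ)) = 0 := by
    convert hzero
  rw [h4, zero_mul]

end Main

section Bound

variable {G : Type u} [Group G] [Fintype G] {p : ℕ} [Fact p.Prime] {M : Ideal AlgInt}

/-- A cyclic subgroup is commutative. -/
theorem comm_of_isCyclic (P : Subgroup G) (hcyc : IsCyclic P) :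
    ∀ x ∈ P, ∀ y ∈ P, x * y = y * x := by
  intro x hx y hy
  haveI := hcyc
  obtain ⟨g, hg⟩ := IsCyclic.exists_generator (α := P)
  obtain ⟨i, hi⟩ := Subgroup.mem_zpowers_iff.mp (hg ⟨x, hx⟩)
  obtain ⟨j, hj⟩ := Subgroup.mem_zpowers_iff.mp (hg ⟨y, hy⟩)
  have h : (⟨x, hx⟩ : P) * ⟨y, hy⟩ = ⟨y, hy⟩ * ⟨x, hx⟩ := by
    rw [← hi, ← hj, ← zpow_add, ← zpow_add, add_comm]
  exact congrArg Subtype.val h

/-- **A block with a nontrivial cyclic defect group `P` has at most `|P|` irreducible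
characters.** -/
theorem card_le_of_cyclic_defect (hM : IsPModular p M) {B : Set (IrrCharacter G)}
    {P : Subgroup G} {c : Set (IrrCharacter (Subgroup.centralizer (P : Set G)))}
    (hmax : IsMaximalBrauerPair p M B P c) (hcyc : IsCyclic P) (hP1 : P ≠ ⊥) :
    Nat.card B ≤ Nat.card P := by
  classical
  letI : Fintype (Subgroup.centralizer (P : Set G)) := Fintype.ofFinite _
  letI : Fintype P := Fintype.ofFinite _
  letI := fintypeIrr G
  letI := fintypeIrr (Subgroup.centralizer (P : Set G))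
  have hp : p.Prime := Fact.out
  have hMp := isPrime_of_isPModular hM
  have hP : IsPGroup p P := hmax.1.1.1
  have hB : IsPBlock M B := hmax.1.2.1
  have hPab := comm_of_isCyclic P hcyc
  have hPC : P ≤ Subgroup.centralizer (P : Set G) := by
    intro x hx
    rw [Subgroup.mem_centralizer_iff]
    intro y hy
    exact hPab y hy x hx
  have hc : IsInducedBlock M (Subgroup.centralizer (P : Set G)) c B :=
    Cfsg.Agent.H84.isInducedBlock_of_isBrauerPairOf hM B P hPC c hmax.1
  have hD := isDefectGroup_centreSub_of_maximal p hM hmax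
  obtain ⟨φ, lamOf, hlam, hφ, hinj⟩ := central_block_data hM (centreSub P)
    (isPGroup_centreSub hP) (centreSub_le_center P) c hc.1 hD
  have hkc : Nat.card c ≤ Nat.card P := by
    have h1 := card_le_of_central_block_data (centreSub P) (centreSub_le_center P) c lamOf hinj
    rw [card_centreSub] at h1
    have h2 : Nat.card ↥(P ⊓ Subgroup.centralizer (P : Set G)) = Nat.card P := by
      rw [inf_eq_left.mpr hPC]
    rw [← h2]
    exact h1
  -- the inclusion of `P` into the centre of `C_G(P)`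
  let ι : P →* centreSub P :=
    { toFun := fun u => ⟨⟨u, hPC u.2⟩, by
        rw [Subgroup.mem_subgroupOf]; exact ⟨u.2, hPC u.2⟩⟩
      map_one' := rfl
      map_mul' := fun _ _ => rfl }
  obtain ⟨lam', hlam'def⟩ : ∃ lam' : IrrCharacter (Subgroup.centralizer (P : Set G)) →
      (P →* ℂˣ), lam' = fun ψ => (lamOf ψ).comp ι := ⟨_, rfl⟩
  have hlam' : ∀ (ψ : IrrCharacter (Subgroup.centralizer (P : Set G))) (u : P)
      (y : Subgroup.centralizer (P : Set G)),
      (ψ : Subgroup.centralizer (P : Set G) → ℂ) (⟨u, hPC u.2⟩ * y)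
        = ((lam' ψ u : ℂˣ) : ℂ) * (ψ : Subgroup.centralizer (P : Set G) → ℂ) y := by
    intro ψ u y
    rw [hlam'def]
    exact hlam ψ (ι u) y
  -- the order of `P`
  obtain ⟨n, hn⟩ := IsPGroup.iff_card.mp hP
  have hn0 : n ≠ 0 := by
    intro h
    rw [h, pow_zero] at hn
    exact hP1 ((Subgroup.card_eq_one).mp hn)
  obtain ⟨m, rfl⟩ := Nat.exists_eq_succ_of_ne_zero hn0
  have hcomm : ∀ a b : P, a * b = b * a := fun a b => Subtype.ext (hPab a a.2 b b.2)
  let Φ : Subgroup P :=
    { carrier := {v | v ^ (p ^ m) = 1}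
      one_mem' := one_pow _
      mul_mem' := by
        intro a b ha hb
        have ha' : a ^ (p ^ m) = 1 := ha
        have hb' : b ^ (p ^ m) = 1 := hb
        show (a * b) ^ (p ^ m) = 1
        rw [(show Commute a b from hcomm a b).mul_pow, ha', hb', one_mul]
      inv_mem' := by
        intro a ha
        have ha' : a ^ (p ^ m) = 1 := ha
        show a⁻¹ ^ (p ^ m) = 1
        rw [inv_pow, ha', inv_one] }
  have hΦmem : ∀ v : P, v ∈ Φ ↔ v ^ (p ^ m) = 1 := fun v => Iff.rfl
  have hgen : ∀ v : P, v ∉ Φ → orderOf v = Nat.card P := by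
    intro v hv
    have h1 : orderOf v ∣ p ^ (m + 1) := by rw [← hn]; exact orderOf_dvd_natCard v
    obtain ⟨j, hj, hoj⟩ := (Nat.dvd_prime_pow hp).mp h1
    by_contra hne
    apply hv
    rw [hΦmem]
    have hjm : j ≤ m := by
      by_contra h
      have hj' : j = m + 1 := by omega
      apply hne
      rw [hoj, hj', hn]
    apply orderOf_dvd_iff_pow_eq_one.mp
    rw [hoj]
    exact pow_dvd_pow p hjm
  have hzp : ∀ v : P, v ∉ Φ → ∀ w : P, w ∈ Subgroup.zpowers v := by
    intro v hv w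
    have htop : Subgroup.zpowers v = ⊤ :=
      Subgroup.eq_top_of_card_eq _ (by rw [Nat.card_zpowers, hgen v hv])
    rw [htop]
    trivial
  have hgenC : ∀ v : P, v ∉ Φ → ∀ g : G, g * (v : G) = (v : G) * g →
      g ∈ Subgroup.centralizer (P : Set G) := by
    intro v hv g hg
    rw [Subgroup.mem_centralizer_iff]
    intro w hw
    obtain ⟨k, hk⟩ := Subgroup.mem_zpowers_iff.mp (hzp v hv ⟨w, hw⟩)
    have hw' : w = (v : G) ^ k := by
      have h1 := congrArg Subtype.val hk
      rw [Subgroup.coe_zpow] at h1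
      exact h1.symm
    rw [hw']
    exact ((show Commute g (v : G) from hg).zpow_right k).eq.symm
  haveI := hcyc
  obtain ⟨u₀, hu₀⟩ := IsCyclic.exists_generator (α := P)
  have hu₀ord : orderOf u₀ = Nat.card P := orderOf_eq_card_of_forall_mem_zpowers hu₀
  have hu₀Φ : u₀ ∉ Φ := by
    intro h
    rw [hΦmem] at h
    have h1 := orderOf_dvd_of_pow_eq_one h
    rw [hu₀ord, hn] at h1
    have h2 := Nat.le_of_dvd (pow_pos hp.pos m) h1
    rw [pow_succ] at h2
    have h3 := hp.one_lt
    have h4 := pow_pos hp.pos m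
    nlinarith
  -- the generalized decomposition numbers
  obtain ⟨D, hDdef⟩ : ∃ D : IrrCharacter G → P → ℂ,
      D = fun (χ : IrrCharacter G) (v : P) => ∑ᶠ ψ ∈ c,
        classInner (fun y : Subgroup.centralizer (P : Set G) => (χ : G → ℂ) ((v : G) * (y : G)))
          (ψ : Subgroup.centralizer (P : Set G) → ℂ) := ⟨_, rfl⟩
  have hD' : ∀ (χ : IrrCharacter G) (v : P), D χ v = ∑ᶠ ψ ∈ c,
      classInner (fun y : Subgroup.centralizer (P : Set G) => (χ : G → ℂ) ((v : G) * (y : G)))
        (ψ : Subgroup.centralizer (P : Set G) → ℂ) := fun χ v => by rw [hDdef]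
  have hnat : ∀ (χ : IrrCharacter G) (ψ : IrrCharacter (Subgroup.centralizer (P : Set G))),
      ∃ k : ℕ, classInner (fun y : Subgroup.centralizer (P : Set G) => (χ : G → ℂ) (y : G))
        (ψ : Subgroup.centralizer (P : Set G) → ℂ) = k := fun χ ψ =>
    classInner_isCharacter_nat (isCharacter_restrict _ (isCharacter_of_isIrrCharacter χ.2))
      (isCharacter_of_isIrrCharacter ψ.2)
  choose nn hnn using hnat
  have hDsum : ∀ (χ : IrrCharacter G) (v : P), D χ v =
      ∑ ψ : IrrCharacter (Subgroup.centralizer (P : Set G)),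
        (((if ψ ∈ c then (nn χ ψ : ℤ) else 0 : ℤ)) : ℂ) * ((lam' ψ v : ℂˣ) : ℂ) := by
    intro χ v
    rw [hD' χ v, finsum_mem_irr]
    apply Finset.sum_congr rfl
    intro ψ _
    by_cases hψ : ψ ∈ c
    · rw [if_pos hψ, if_pos hψ]
      have hl : conj ((lam' ψ v : ℂˣ) : ℂ) = (((lam' ψ v : ℂˣ) : ℂ))⁻¹ := by
        rw [conj_unit_hom, MonoidHom.inv_apply, Units.val_inv_eq_inv_val]
      have h1 := classInner_central_translate
        (fun y : Subgroup.centralizer (P : Set G) => (χ : G → ℂ) (y : G))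
        (ψ : Subgroup.centralizer (P : Set G) → ℂ) ⟨v, hPC v.2⟩ ((lam' ψ v : ℂˣ) : ℂ) hl
        (Units.ne_zero _) (fun y => hlam' ψ v y)
      have h2 : (fun y : Subgroup.centralizer (P : Set G) => (χ : G → ℂ) ((v : G) * (y : G)))
          = (fun y : Subgroup.centralizer (P : Set G) =>
            (fun y : Subgroup.centralizer (P : Set G) => (χ : G → ℂ) (y : G))
              (⟨v, hPC v.2⟩ * y)) := rfl
      rw [h2, h1, hnn χ ψ]
      push_cast
      ring
    · rw [if_neg hψ, if_neg hψ, Int.cast_zero, zero_mul]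
  -- the lower bound for each character
  have hF : ∀ χ ∈ B, ((Nat.card P : ℝ) - Nat.card Φ)
      ≤ ∑ v ∈ Finset.univ.filter (fun v => v ∉ Φ), Complex.normSq (D χ v) := by
    intro χ hχ
    apply sum_normSq_off_subgroup_ge hcomm Φ (fun ψ => if ψ ∈ c then (nn χ ψ : ℤ) else 0) lam'
      (D χ) (hDsum χ)
    obtain ⟨n', hn'N, hne⟩ := exists_conj_gen_decomp_ne_zero hM hmax hPab φ hφ (u₀ : G) u₀.2
      (hgenC u₀ hu₀Φ) χ hχ
    have hmem : n' * (u₀ : G) * n'⁻¹ ∈ P :=
      (Subgroup.mem_normalizer_iff.mp hn'N (u₀ : G)).mp u₀.2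
    refine ⟨⟨_, hmem⟩, ?_, ?_⟩
    · intro h
      rw [hΦmem] at h
      apply hu₀Φ
      rw [hΦmem]
      apply Subtype.ext
      have h1 := congrArg Subtype.val h
      rw [Subgroup.coe_pow, Subgroup.coe_one, conj_pow] at h1
      rw [Subgroup.coe_pow, Subgroup.coe_one]
      have h2 : (u₀ : G) ^ (p ^ m) = n'⁻¹ * (n' * (u₀ : G) ^ (p ^ m) * n'⁻¹) * n' := by group
      rw [h2, h1]
      group
    · rw [hD']
      exact hne
  -- orthogonality
  have horth : ∀ v : P, v ∉ Φ → ∑ᶠ χ ∈ B, D χ v * conj (D χ v) = (Nat.card c : ℂ) := by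
    intro v hv
    have hx : ∃ k : ℕ, orderOf (v : G) = p ^ k := by
      obtain ⟨k, hk⟩ := (IsPGroup.iff_orderOf.mp hP) v
      exact ⟨k, by rw [← hk, Subgroup.orderOf_coe]⟩
    have h1 := sum_gen_decomp_mul_conj hM B hB _ c hc (v : G) hx
      (fun y hy => Subgroup.mem_centralizer_iff.mp hy (v : G) v.2) (hgenC v hv) φ hφ
    rw [← h1]
    apply finsum_mem_congr rfl
    intro χ _
    rw [hD']
  -- counting
  obtain ⟨gens, hgens⟩ : ∃ gens : Finset P, gens = Finset.univ.filter (fun v => v ∉ Φ) :=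
    ⟨_, rfl⟩
  obtain ⟨Bf, hBf⟩ : ∃ Bf : Finset (IrrCharacter G), Bf = Finset.univ.filter (· ∈ B) :=
    ⟨_, rfl⟩
  have hBcard : Nat.card B = Bf.card := by
    rw [hBf]
    exact Nat.subtype_card _ (by simp)
  have hgpos : 0 < gens.card :=
    Finset.card_pos.mpr ⟨u₀, by rw [hgens]; exact Finset.mem_filter.mpr ⟨Finset.mem_univ _, hu₀Φ⟩⟩
  have hgcard : (gens.card : ℝ) = (Nat.card P : ℝ) - Nat.card Φ := by
    have h1 : (Finset.univ.filter (fun v : P => v ∈ Φ)).card + gens.card = Fintype.card P := by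
      rw [hgens, Finset.card_filter_add_card_filter_not, Finset.card_univ]
    have h2 : Nat.card Φ = (Finset.univ.filter (fun v : P => v ∈ Φ)).card :=
      Nat.subtype_card _ (by simp)
    rw [Nat.card_eq_fintype_card (α := P), h2, ← h1]
    push_cast
    ring
  have hT1 : (Bf.card : ℝ) * ((Nat.card P : ℝ) - Nat.card Φ)
      ≤ ∑ χ ∈ Bf, ∑ v ∈ gens, Complex.normSq (D χ v) := by
    have h1 := Finset.card_nsmul_le_sum Bf (fun χ => ∑ v ∈ gens, Complex.normSq (D χ v))
      ((Nat.card P : ℝ) - Nat.card Φ) (fun χ hχ => by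
        rw [hgens]
        exact hF χ (by rw [hBf] at hχ; exact (Finset.mem_filter.mp hχ).2))
    rwa [nsmul_eq_mul] at h1
  have hT2 : ∑ χ ∈ Bf, ∑ v ∈ gens, Complex.normSq (D χ v)
      = (gens.card : ℝ) * (Nat.card c : ℝ) := by
    rw [Finset.sum_comm]
    have h1 : ∀ v ∈ gens, ∑ χ ∈ Bf, Complex.normSq (D χ v) = (Nat.card c : ℝ) := by
      intro v hv
      have hv' : v ∉ Φ := by rw [hgens] at hv; exact (Finset.mem_filter.mp hv).2
      apply Complex.ofReal_injective
      rw [Complex.ofReal_sum, Complex.ofReal_natCast, ← horth v hv', finsum_mem_irr, hBf,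
        Finset.sum_filter]
      apply Finset.sum_congr rfl
      intro χ _
      by_cases hχ : χ ∈ B
      · rw [if_pos hχ, if_pos hχ, Complex.mul_conj]
      · rw [if_neg hχ, if_neg hχ]
    rw [Finset.sum_congr rfl h1, Finset.sum_const, nsmul_eq_mul]
  have h5 : (Bf.card : ℝ) * (gens.card : ℝ) ≤ (gens.card : ℝ) * (Nat.card c : ℝ) := by
    rw [← hT2, hgcard]
    exact hT1
  have h6 : (Bf.card : ℝ) ≤ (Nat.card c : ℝ) := by
    have hg : (0 : ℝ) < gens.card := by exact_mod_cast hgpos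
    nlinarith
  rw [hBcard]
  exact (by exact_mod_cast h6 : Bf.card ≤ Nat.card c).trans hkc

end Bound

end Cfsg.Agent.H80
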