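import Cfsg.Agent.H80.MaxChar
import Cfsg.Agent.H80.DualSum
import Cfsg.Agent.H79.CentralOver
import Cfsg.Agent.H84.SectionSum4
import Cfsg.Agent.S0923

set_option autoImplicit false
set_option linter.unusedSectionVars false
set_option linter.style.haveILetI false

/-!
# helper80: blocks with a central defect group, and generalized decomposition numbers

* `exists_centHom`: the central character of an irreducible character on a central subgroup.
* `central_block_data`: in a block with central defect group `Z` all characters agree on the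
  `p`-regular elements and are separated by their central characters on `Z`.
* `blockRank_pos`: a nonempty set of irreducible characters has positive `p`-regular rank.
* `sum_gen_decomp_mul_conj`: for a subsection `(x, c)` whose block `c` has all its characters
  equal on `p`-regular elements, the generalized decomposition numbers satisfy
  `∑_{χ ∈ B} |d^x_χ|² = k(c)`.
-/

namespace Cfsg.Agent.H80

open Cfsg Cfsg.Agent.H20 Cfsg.Agent.H4
open scoped ComplexConjugate

universe u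

section Central

variable {K : Type u} [Group K] [Finite K] {M : Ideal AlgInt} {p : ℕ}

/-- The central character of `ψ` on a central subgroup, as a homomorphism to `ℂˣ`. -/
theorem exists_centHom (Z : Subgroup K) (hZc : Z ≤ Subgroup.center K) (ψ : IrrCharacter K) :
    ∃ lam : Z →* ℂˣ, ∀ (z : Z) (y : K),
      (ψ : K → ℂ) ((z : K) * y) = ((lam z : ℂˣ) : ℂ) * (ψ : K → ℂ) y := by
  obtain ⟨lam, h1, hmul, hψ⟩ := Cfsg.Agent.H79.irr_central_fun ψ
  let f : Z →* ℂ :=
    { toFun := fun z => lam (z : K)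
      map_one' := h1
      map_mul' := fun a b => hmul a (hZc a.2) b (hZc b.2) }
  refine ⟨MonoidHom.toHomUnits f, fun z y => ?_⟩
  rw [MonoidHom.coe_toHomUnits]
  exact hψ z (hZc z.2) y

/-- **Blocks with a central defect group.**  All the characters of the block agree on the
`p`-regular elements, and they are separated by their central characters on `Z`. -/
theorem central_block_data (hM : IsPModular p M) (Z : Subgroup K) (hZp : IsPGroup p Z)
    (hZc : Z ≤ Subgroup.center K) (c : Set (IrrCharacter K)) (hc : IsPBlock M c)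
    (hD : IsDefectGroup p M c Z) :
    ∃ (φ : K → ℂ) (lamOf : IrrCharacter K → (Z →* ℂˣ)),
      (∀ ψ : IrrCharacter K, ∀ (z : Z) (y : K),
        (ψ : K → ℂ) ((z : K) * y) = ((lamOf ψ z : ℂˣ) : ℂ) * (ψ : K → ℂ) y) ∧
      (∀ ψ ∈ c, ∀ s : K, ¬ p ∣ orderOf s → (ψ : K → ℂ) s = φ s) ∧
      (∀ ψ ∈ c, ∀ ψ' ∈ c, lamOf ψ = lamOf ψ' → ψ = ψ') := by
  classical
  haveI : Fintype Z := Fintype.ofFinite Z
  have hMp := isPrime_of_isPModular hM
  obtain ⟨ψ₀, rfl⟩ := hc
  obtain ⟨⟨χ₁, hχ₁, hdeg⟩, -⟩ := Cfsg.Agent.H79.exists_height_zero_of_defectGroup hM ψ₀ Z hD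
  have hblk : blockOf M (χ₁ : K → ℂ) = blockOf M (ψ₀ : K → ℂ) := blockOf_eq_of_mem hMp hχ₁
  choose lamOf hlam using fun ψ : IrrCharacter K => exists_centHom Z hZc ψ
  obtain ⟨μ, hμ⟩ : ∃ μ : IrrCharacter K → IrrCharacter Z,
      μ = fun ψ => ⟨fun z => ((lamOf ψ z : ℂˣ) : ℂ), isIrrCharacter_of_hom (lamOf ψ)⟩ := ⟨_, rfl⟩
  have hover : ∀ ψ : IrrCharacter K, Cfsg.Agent.H79.OverOn Z (μ ψ : Z → ℂ) (ψ : K → ℂ) := by
    intro ψ z y
    rw [hμ]
    exact hlam ψ z y
  refine ⟨(χ₁ : K → ℂ), lamOf, hlam, ?_, ?_⟩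
  · intro ψ hψ s hs
    obtain ⟨ψ', -, -, huniq, -, -, hreg⟩ :=
      Cfsg.Agent.H79.exists_unique_over hM Z hZp hZc χ₁ hdeg (μ ψ)
    have h1 : ψ = ψ' := huniq ψ (by rw [hblk]; exact hψ) (hover ψ)
    rw [h1]
    exact hreg s hs
  · intro ψ hψ ψ' hψ' heq
    obtain ⟨ψ'', -, -, huniq, -, -, -⟩ :=
      Cfsg.Agent.H79.exists_unique_over hM Z hZp hZc χ₁ hdeg (μ ψ)
    have h1 : ψ = ψ'' := huniq ψ (by rw [hblk]; exact hψ) (hover ψ)
    have hμeq : μ ψ' = μ ψ := by
      rw [hμ]
      apply Subtype.ext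
      funext z
      show ((lamOf ψ' z : ℂˣ) : ℂ) = ((lamOf ψ z : ℂˣ) : ℂ)
      rw [heq]
    have h2 : ψ' = ψ'' := huniq ψ' (by rw [hblk]; exact hψ') (by rw [← hμeq]; exact hover ψ')
    rw [h1, h2]

/-- The number of characters of a block with central defect group `Z` is at most `|Z|`. -/
theorem card_le_of_central_block_data (Z : Subgroup K) (hZc : Z ≤ Subgroup.center K)
    (c : Set (IrrCharacter K)) (lamOf : IrrCharacter K → (Z →* ℂˣ))
    (hinj : ∀ ψ ∈ c, ∀ ψ' ∈ c, lamOf ψ = lamOf ψ' → ψ = ψ') : Nat.card c ≤ Nat.card Z := by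
  have hcomm : ∀ a b : Z, a * b = b * a := by
    intro a b
    apply Subtype.ext
    exact ((Subgroup.mem_center_iff.mp (hZc a.2)) b).symm
  obtain ⟨hfin, hcard⟩ := card_hom_of_comm Z hcomm
  rw [← hcard]
  apply Nat.card_le_card_of_injective (fun ψ : c => lamOf ψ.1)
  intro ψ ψ' h
  exact Subtype.ext (hinj ψ.1 ψ.2 ψ'.1 ψ'.2 h)

/-- Inner products with a translate by a central element. -/
theorem classInner_central_translate [Fintype K] (θ : K → ℂ) (ψ : K → ℂ) (z : K) (l : ℂ) (hl : conj l = l⁻¹) (hl0 : l ≠ 0)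
    (hψ : ∀ y : K, ψ (z * y) = l * ψ y) :
    classInner (fun y => θ (z * y)) ψ = l * classInner θ ψ := by
  unfold classInner
  rw [mul_left_comm]
  congr 1
  rw [Finset.mul_sum, ← Equiv.sum_comp (Equiv.mulLeft z) (fun y => l * (θ y * conj (ψ y)))]
  apply Finset.sum_congr rfl
  intro y _
  rw [Equiv.coe_mulLeft, hψ y, map_mul, hl]
  field_simp

end Central

section Rank

variable {K : Type u} [Group K] [Finite K]

/-- A nonempty set of irreducible characters has positive `p`-regular rank. -/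
theorem blockRank_pos {p : ℕ} (hp : p.Prime) (B : Set (IrrCharacter K)) (χ : IrrCharacter K)
    (hχ : χ ∈ B) : 0 < blockRank p B := by
  classical
  unfold blockRank
  have hmem : pRegularPart p (χ : K → ℂ) ∈ Submodule.span ℂ
      ((fun χ : IrrCharacter K => pRegularPart p (χ : K → ℂ)) '' B) :=
    Submodule.subset_span ⟨χ, hχ, rfl⟩
  have hne : pRegularPart p (χ : K → ℂ) ≠ 0 := by
    intro h
    have h1 := congrFun h 1
    unfold pRegularPart at h1
    have h2 : IsPRegular p (1 : K) := by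
      unfold IsPRegular
      rw [orderOf_one]
      exact hp.one_lt.ne' ∘ Nat.dvd_one.mp
    rw [if_pos h2] at h1
    exact irr_one_ne_zero χ h1
  rw [Module.finrank_pos_iff_exists_ne_zero]
  exact ⟨⟨_, hmem⟩, fun h => hne (congrArg Subtype.val h)⟩

end Rank

section Orth

variable {G : Type u} [Group G] [Finite G] {M : Ideal AlgInt} {p : ℕ}

/-- **Norm of a column of generalized decomposition numbers.**  Let `(x, c)` be a subsection of
the block `B` (`c` a block of `C = C_G(x)` inducing `B`) such that all the characters of `c`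
agree with `φ` on the `p`-regular elements.  Then the numbers
`d_χ = ∑_{ψ ∈ c} [χ(x ·), ψ]` satisfy `∑_{χ ∈ B} d_χ conj d_χ = k(c)`. -/
theorem sum_gen_decomp_mul_conj (hM : IsPModular p M) (B : Set (IrrCharacter G))
    (hB : IsPBlock M B) (C : Subgroup G) (c : Set (IrrCharacter C))
    (hc : IsInducedBlock M C c B) (x : G) (hx : ∃ k : ℕ, orderOf x = p ^ k)
    (hxC : ∀ y ∈ C, x * y = y * x) (hCx : ∀ g : G, g * x = x * g → g ∈ C)
    (φ : C → ℂ) (hφ : ∀ ψ ∈ c, ∀ s : C, ¬ p ∣ orderOf s → (ψ : C → ℂ) s = φ s) :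
    ∑ᶠ χ ∈ B, (∑ᶠ ψ ∈ c, @classInner C _ (Fintype.ofFinite C)
        (fun y : C => (χ : G → ℂ) (x * (y : G))) (ψ : C → ℂ)) *
      conj (∑ᶠ ψ ∈ c, @classInner C _ (Fintype.ofFinite C)
        (fun y : C => (χ : G → ℂ) (x * (y : G))) (ψ : C → ℂ)) = (Nat.card c : ℂ) := by
  classical
  letI := Fintype.ofFinite G
  letI : Fintype C := Fintype.ofFinite C
  letI := fintypeIrr G
  letI := fintypeIrr C
  haveI : Fact p.Prime := ⟨hM.1⟩
  have hMp := isPrime_of_isPModular hM
  have h2 : Cfsg.Agent.H84.SecondMain p M G := fun x hx B hB χ hχ b hb hnot y hy =>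
    Cfsg.Agent.S0923.result p M hM x hx B hB χ hχ b hb hnot y hy
  have hCeq : C = Subgroup.centralizer ({x} : Set G) := by
    ext g
    rw [Subgroup.mem_centralizer_iff]
    constructor
    · intro hg w hw
      rw [Set.mem_singleton_iff] at hw
      rw [hw]
      exact hxC g hg
    · intro hg
      exact hCx g (hg x rfl).symm
  obtain ⟨ψ₀, hc0⟩ := hc.1
  have hψ₀ : ψ₀ ∈ c := by rw [hc0]; exact mem_blockOf_self hMp ψ₀
  have h0 : ∀ χ : IrrCharacter G, χ ∉ B → ∀ y : C, ¬ p ∣ orderOf y →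
      blockPart (blockOf M (ψ₀ : C → ℂ)) (fun c : C => (χ : G → ℂ) (x * (c : G))) y = 0 := by
    intro χ hχ y hy
    exact ((Cfsg.Agent.H84.secondMain_both' hM h2 x hx C hCeq B hB) χ _ ⟨ψ₀, rfl⟩).2 hχ
      (hc0 ▸ hc) y hy
  have key := Cfsg.Agent.H84.sum_sum_blockPart_eq hM x hx C hxC hCx B ψ₀ h0
  rw [← hc0] at key
  obtain ⟨D, hD⟩ : ∃ D : IrrCharacter G → ℂ, D = fun χ : IrrCharacter G => ∑ᶠ ψ ∈ c,
      classInner (fun y : C => (χ : G → ℂ) (x * (y : G))) (ψ : C → ℂ) := ⟨_, rfl⟩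
  have hD' : ∀ χ : IrrCharacter G, D χ = ∑ᶠ ψ ∈ c,
      classInner (fun y : C => (χ : G → ℂ) (x * (y : G))) (ψ : C → ℂ) := fun χ => by rw [hD]
  obtain ⟨R, hR⟩ : ∃ R : ℂ, R = ∑ s : C, if p ∣ orderOf s then 0 else φ s * conj (φ s) :=
    ⟨_, rfl⟩
  -- the block part on `p`-regular elements
  have hA : ∀ (χ : IrrCharacter G) (s : C), ¬ p ∣ orderOf s →
      blockPart c (fun y : C => (χ : G → ℂ) (x * (y : G))) s = D χ * φ s := by
    intro χ s hs
    show ∑ᶠ ψ ∈ c, classInner (fun y : C => (χ : G → ℂ) (x * (y : G))) (ψ : C → ℂ) *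
      (ψ : C → ℂ) s = D χ * φ s
    rw [hD' χ, finsum_mem_irr, finsum_mem_irr, Finset.sum_mul]
    apply Finset.sum_congr rfl
    intro ψ _
    by_cases hψ : ψ ∈ c
    · rw [if_pos hψ, if_pos hψ, hφ ψ hψ s hs]
    · rw [if_neg hψ, if_neg hψ, zero_mul]
  have hBc : ∀ (χ : IrrCharacter G) (s : C),
      blockPart c (fun y : C => (χ : G → ℂ) (x⁻¹ * (y : G))) s⁻¹
        = conj (blockPart c (fun y : C => (χ : G → ℂ) (x * (y : G))) s) := by
    intro χ s
    apply Cfsg.Agent.H84.blockPart_inv_conj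
    intro y
    have h1 : x * ((y⁻¹ : C) : G) = (x⁻¹ * (y : G))⁻¹ := by
      rw [mul_inv_rev, inv_inv, Subgroup.coe_inv]
      exact hxC _ (inv_mem y.2)
    rw [h1, irr_inv, Complex.conj_conj]
  have hCs : ∀ χ : IrrCharacter G, ∑ᶠ s : C,
      pRegularPart p (blockPart c (fun y : C => (χ : G → ℂ) (x * (y : G)))) s *
        blockPart c (fun y : C => (χ : G → ℂ) (x⁻¹ * (y : G))) s⁻¹
      = (D χ * conj (D χ)) * R := by
    intro χ
    rw [finsum_eq_sum_of_fintype, hR, Finset.mul_sum]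
    apply Finset.sum_congr rfl
    intro s _
    by_cases hs : p ∣ orderOf s
    · rw [Cfsg.Agent.H81.pRegularPart_of_dvd p _ hs, if_pos hs, zero_mul, mul_zero]
    · rw [Cfsg.Agent.H81.pRegularPart_of_not_dvd p _ hs, if_neg hs, hBc χ s, hA χ s hs, map_mul]
      ring
  rw [finsum_mem_congr rfl (fun χ _ => hCs χ)] at key
  have key2 : (∑ᶠ χ ∈ B, D χ * conj (D χ)) * R = (Nat.card C : ℂ) * (blockRank p c : ℂ) := by
    rw [← key, finsum_mem_irr, finsum_mem_irr, Finset.sum_mul]
    apply Finset.sum_congr rfl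
    intro χ _
    by_cases hχ : χ ∈ B
    · rw [if_pos hχ, if_pos hχ]
    · rw [if_neg hχ, if_neg hχ, zero_mul]
  -- the rank of `c`
  have hrank : (blockRank p c : ℂ) = (Nat.card c : ℂ) * ((Nat.card C : ℂ)⁻¹ * R) := by
    have h1 := Cfsg.Agent.H81.blockRank_eq_sum hM ψ₀
    rw [← hc0] at h1
    rw [h1]
    have h3 : ∀ ψ : IrrCharacter C, (if ψ ∈ c then
        classInner (pRegularPart p (ψ : C → ℂ)) (ψ : C → ℂ) else 0)
        = if ψ ∈ c then (Nat.card C : ℂ)⁻¹ * R else 0 := by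
      intro ψ
      by_cases hψ : ψ ∈ c
      · rw [if_pos hψ, if_pos hψ]
        unfold classInner
        congr 1
        rw [hR]
        apply Finset.sum_congr rfl
        intro s _
        by_cases hs : p ∣ orderOf s
        · rw [Cfsg.Agent.H81.pRegularPart_of_dvd p _ hs, if_pos hs, zero_mul]
        · rw [Cfsg.Agent.H81.pRegularPart_of_not_dvd p _ hs, if_neg hs, hφ ψ hψ s hs]
      · rw [if_neg hψ, if_neg hψ]
    rw [Finset.sum_congr rfl (fun ψ _ => h3 ψ), ← Finset.sum_filter, Finset.sum_const,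
      nsmul_eq_mul]
    congr 2
    exact (Nat.subtype_card (Finset.univ.filter (· ∈ c)) (by simp)).symm
  have hC0 : (Nat.card C : ℂ) ≠ 0 := by
    exact_mod_cast (Nat.card_pos (α := C)).ne'
  have hl0 : (blockRank p c : ℂ) ≠ 0 := by
    exact_mod_cast (blockRank_pos hM.1 c ψ₀ hψ₀).ne'
  have hR0 : R ≠ 0 := by
    intro h
    rw [h, mul_zero, mul_zero] at hrank
    exact hl0 hrank
  rw [hrank] at key2
  have key3 : (∑ᶠ χ ∈ B, D χ * conj (D χ)) * R = (Nat.card c : ℂ) * R := by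
    rw [key2]
    field_simp
  have key4 := mul_right_cancel₀ hR0 key3
  rw [← key4]
  apply finsum_mem_congr rfl
  intro χ _
  rw [hD' χ]

end Orth

end Cfsg.Agent.H80
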