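import Cfsg.Agent.H80.CycBound
import Cfsg.Agent.H84.SectionCount

set_option autoImplicit false
set_option linter.unusedSectionVars false
set_option linter.style.haveILetI false

/-!
# helper80: counting the subsections of a block with cyclic defect group and trivial inertial
quotient

* `exists_pElement_reps`: representatives of the classes of `p`-elements.
* `finsum_blockRank_one`: the contribution of the trivial section is `l(B)`.
* `card_le_finsum_mem`: a sum of positive integers over a set is at least the size of a subset.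
-/

namespace Cfsg.Agent.H80

open Cfsg Cfsg.Agent.H20 Cfsg.Agent.H4
open scoped ComplexConjugate

universe u

section Reps

variable {G : Type u} [Group G] [Fintype G]

theorem orderOf_conj_eq' (c g : G) : orderOf (c * g * c⁻¹) = orderOf g :=
  orderOf_injective (MulAut.conj c).toMonoidHom (MulAut.conj c).injective g

theorem orderOf_eq_of_isConj {g x : G} (h : IsConj g x) : orderOf x = orderOf g := by
  obtain ⟨c, hc⟩ := isConj_iff.mp h
  rw [← hc, orderOf_conj_eq']

/-- Representatives of the conjugacy classes of `p`-elements. -/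
theorem exists_pElement_reps (p : ℕ) :
    ∃ X : Finset G, (∀ x ∈ X, ∃ k : ℕ, orderOf x = p ^ k) ∧
      (∀ g : G, (∃ k : ℕ, orderOf g = p ^ k) → ∃! x, x ∈ X ∧ IsConj g x) := by
  classical
  obtain ⟨r, hr⟩ : ∃ r : G → G, r = fun g => Quotient.out (ConjClasses.mk g) := ⟨_, rfl⟩
  have hmk : ∀ g : G, ConjClasses.mk (r g) = ConjClasses.mk g := by
    intro g
    rw [hr]
    exact Quotient.out_eq _
  have hconj : ∀ g : G, IsConj g (r g) := fun g =>
    ConjClasses.mk_eq_mk_iff_isConj.mp (hmk g).symm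
  have hrr : ∀ g g' : G, IsConj g g' → r g = r g' := by
    intro g g' h
    rw [hr]
    show Quotient.out (ConjClasses.mk g) = Quotient.out (ConjClasses.mk g')
    rw [ConjClasses.mk_eq_mk_iff_isConj.mpr h]
  refine ⟨Finset.univ.filter (fun x => (∃ k : ℕ, orderOf x = p ^ k) ∧ r x = x), ?_, ?_⟩
  · intro x hx
    exact (Finset.mem_filter.mp hx).2.1
  · intro g hg
    refine ⟨r g, ⟨Finset.mem_filter.mpr ⟨Finset.mem_univ _, ?_, ?_⟩, hconj g⟩, ?_⟩
    · obtain ⟨k, hk⟩ := hg
      exact ⟨k, by rw [orderOf_eq_of_isConj (hconj g), hk]⟩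
    · exact (hrr g (r g) (hconj g)).symm
    · rintro x' ⟨hx', hgx'⟩
      rw [hrr g x' hgx']
      exact (Finset.mem_filter.mp hx').2.2.symm

end Reps

section Count

/-- A sum of positive integers over a set is at least the size of a finite subset. -/
theorem card_le_finsum_mem {β : Type*} [Finite β] (s : Set β) (f : β → ℕ) (t : Finset β)
    (hts : ∀ b ∈ t, b ∈ s) (hf : ∀ b ∈ t, 1 ≤ f b) : t.card ≤ ∑ᶠ b ∈ s, f b := by
  classical
  rw [finsum_mem_eq_finite_toFinset_sum f (Set.toFinite s)]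
  have h1 : t ⊆ (Set.toFinite s).toFinset := by
    intro b hb
    rw [Set.Finite.mem_toFinset]
    exact hts b hb
  calc t.card = ∑ b ∈ t, 1 := by simp
    _ ≤ ∑ b ∈ t, f b := Finset.sum_le_sum hf
    _ ≤ ∑ b ∈ (Set.toFinite s).toFinset, f b :=
      Finset.sum_le_sum_of_subset_of_nonneg h1 (fun _ _ _ => Nat.zero_le _)

variable {G : Type u} [Group G] [Finite G] {M : Ideal AlgInt} {p : ℕ}

theorem finsum_blockRank_congr (B : Set (IrrCharacter G)) (C C' : Subgroup G) (h : C = C') :
    ∑ᶠ b ∈ {b : Set (IrrCharacter C) | IsInducedBlock M C b B}, blockRank p b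
      = ∑ᶠ b ∈ {b : Set (IrrCharacter C') | IsInducedBlock M C' b B}, blockRank p b := by
  subst h
  rfl

/-- The contribution of the trivial section to Brauer's count is `l(B)`. -/
theorem finsum_blockRank_one (hM : IsPModular p M) (B : Set (IrrCharacter G))
    (hB : IsPBlock M B) :
    ∑ᶠ b ∈ {b : Set (IrrCharacter (Subgroup.centralizer ({1} : Set G))) |
        IsInducedBlock M (Subgroup.centralizer ({1} : Set G)) b B}, blockRank p b
      = blockRank p B := by
  classical
  letI := Fintype.ofFinite G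
  letI : Fintype (Subgroup.centralizer ({1} : Set G)) := Fintype.ofFinite _
  letI := fintypeIrr G
  haveI : Fact p.Prime := ⟨hM.1⟩
  have hp : p.Prime := hM.1
  have h2 : Cfsg.Agent.H84.SecondMain p M G := fun x hx B hB χ hχ b hb hnot y hy =>
    Cfsg.Agent.S0923.result p M hM x hx B hB χ hχ b hb hnot y hy
  have hx1 : ∃ k : ℕ, orderOf (1 : G) = p ^ k := ⟨0, by rw [orderOf_one, pow_zero]⟩
  have hall : ∀ g : G, g ∈ Subgroup.centralizer ({1} : Set G) := by
    intro g
    rw [Subgroup.mem_centralizer_iff]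
    intro w hw
    rw [Set.mem_singleton_iff] at hw
    rw [hw, one_mul, mul_one]
  have h1 := Cfsg.Agent.H84.sum_blockRank_induced hM (1 : G) hx1
    (Subgroup.centralizer ({1} : Set G)) (fun c _ => by rw [one_mul, mul_one])
    (fun g _ => hall g) B (Cfsg.Agent.H84.secondMain_both hM h2 1 hx1 B hB)
  apply Nat.cast_injective (R := ℂ)
  rw [h1]
  obtain ⟨χ₀, rfl⟩ := hB
  rw [Cfsg.Agent.H81.blockRank_eq_sum hM χ₀]
  let e : Subgroup.centralizer ({1} : Set G) ≃ G := Equiv.subtypeUnivEquiv hall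
  have hcard : Nat.card (Subgroup.centralizer ({1} : Set G)) = Nat.card G := Nat.card_congr e
  have hsum : ∑ᶠ s : Subgroup.centralizer ({1} : Set G),
      pRegularPart p (fun s : Subgroup.centralizer ({1} : Set G) =>
        ∑ᶠ χ ∈ blockOf M (χ₀ : G → ℂ), (χ : G → ℂ) (1 * (s : G)) *
          conj ((χ : G → ℂ) (1 * (s : G)))) s
      = ∑ g : G, if p ∣ orderOf g then 0 else ∑ χ : IrrCharacter G,
          if χ ∈ blockOf M (χ₀ : G → ℂ) then (χ : G → ℂ) g * conj ((χ : G → ℂ) g) else 0 := by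
    rw [finsum_eq_sum_of_fintype]
    rw [← Equiv.sum_comp e (fun g => if p ∣ orderOf g then (0 : ℂ) else ∑ χ : IrrCharacter G,
      if χ ∈ blockOf M (χ₀ : G → ℂ) then (χ : G → ℂ) g * conj ((χ : G → ℂ) g) else 0)]
    apply Finset.sum_congr rfl
    intro s _
    have hes : e s = (s : G) := rfl
    rw [hes]
    by_cases hs : p ∣ orderOf s
    · rw [Cfsg.Agent.H81.pRegularPart_of_dvd p _ hs, if_pos (by rwa [Subgroup.orderOf_coe])]
    · rw [Cfsg.Agent.H81.pRegularPart_of_not_dvd p _ hs,
        if_neg (by rwa [Subgroup.orderOf_coe]), finsum_mem_irr, one_mul]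
  have hR : ∀ χ : IrrCharacter G, (if χ ∈ blockOf M (χ₀ : G → ℂ) then
        classInner (pRegularPart p (χ : G → ℂ)) (χ : G → ℂ) else 0)
      = (Nat.card G : ℂ)⁻¹ * ∑ g : G, if p ∣ orderOf g then 0 else
          (if χ ∈ blockOf M (χ₀ : G → ℂ) then (χ : G → ℂ) g * conj ((χ : G → ℂ) g) else 0) := by
    intro χ
    by_cases hχ : χ ∈ blockOf M (χ₀ : G → ℂ)
    · rw [if_pos hχ]
      unfold classInner
      congr 1
      apply Finset.sum_congr rfl
      intro g _
      by_cases hg : p ∣ orderOf g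
      · rw [Cfsg.Agent.H81.pRegularPart_of_dvd p _ hg, if_pos hg, zero_mul]
      · rw [Cfsg.Agent.H81.pRegularPart_of_not_dvd p _ hg, if_neg hg, if_pos hχ]
    · rw [if_neg hχ]
      symm
      rw [mul_eq_zero]
      right
      apply Finset.sum_eq_zero
      intro g _
      rw [if_neg hχ, ite_self]
  rw [hsum, hcard, Finset.sum_congr rfl (fun χ _ => hR χ), ← Finset.mul_sum, Finset.sum_comm]
  congr 1
  apply Finset.sum_congr rfl
  intro g _
  by_cases hg : p ∣ orderOf g
  · simp [hg]
  · simp [hg]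

end Count

section Sub

variable {G : Type u} [Group G] [Fintype G] {p : ℕ} [Fact p.Prime] {M : Ideal AlgInt}

/-- The subpairs of `(P, c)` on the cyclic subgroups generated by the elements of `P`. -/
theorem exists_cyclic_subpairs (hM : IsPModular p M) {B : Set (IrrCharacter G)}
    {P : Subgroup G} {c : Set (IrrCharacter (Subgroup.centralizer (P : Set G)))}
    (hmax : IsMaximalBrauerPair p M B P c) :
    ∃ F : G → BrauerPairIdx G, ∀ u ∈ P, (F u).1 = Subgroup.zpowers u ∧ IsPBlock M (F u).2 ∧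
      Relation.ReflTransGen (NormalSubpairRel p M) (F u) ⟨P, c⟩ := by
  classical
  have h : ∀ u : G, ∃ a : BrauerPairIdx G, u ∈ P → (a.1 = Subgroup.zpowers u ∧
      IsPBlock M a.2 ∧ Relation.ReflTransGen (NormalSubpairRel p M) a ⟨P, c⟩) := by
    intro u
    by_cases hu : u ∈ P
    · obtain ⟨f, hf, hle⟩ := exists_subpairLE hM P c hmax.1.1 _ (Subgroup.zpowers u)
        ((Subgroup.zpowers_le).mpr hu) rfl
      exact ⟨⟨Subgroup.zpowers u, f⟩, fun _ => ⟨rfl, hf, hle⟩⟩
    · exact ⟨⟨P, c⟩, fun h => absurd h hu⟩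
  choose F hF using h
  exact ⟨F, hF⟩

/-- **Distinct elements of `P` give non-conjugate subsections** when the inertial quotient of
the maximal pair `(P, c)` is trivial (`P` abelian). -/
theorem eq_of_conjPair_eq (hM : IsPModular p M) {B : Set (IrrCharacter G)}
    {P : Subgroup G} {c : Set (IrrCharacter (Subgroup.centralizer (P : Set G)))}
    (hmax : IsMaximalBrauerPair p M B P c) (hPab : ∀ x ∈ P, ∀ y ∈ P, x * y = y * x)
    (hstab : ∀ g ∈ Subgroup.normalizer (P : Set G),
      StabilizesBlock (Subgroup.centralizer (P : Set G)) c g →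
      g ∈ Subgroup.centralizer (P : Set G))
    (a a' : BrauerPairIdx G) (u u' : G) (hu : u ∈ P) (hu' : u' ∈ P)
    (ha'1 : a'.1 = Subgroup.zpowers u') (ha'2 : IsPBlock M a'.2)
    (hle : Relation.ReflTransGen (NormalSubpairRel p M) a ⟨P, c⟩)
    (hle' : Relation.ReflTransGen (NormalSubpairRel p M) a' ⟨P, c⟩)
    (g : G) (hg : conjPair g a = a') (hgu : g * u * g⁻¹ = u') : u = u' := by
  have hMp := isPrime_of_isPModular hM
  obtain ⟨Q, f⟩ := a'
  simp only at ha'1 ha'2
  subst ha'1
  have h1 := subpairLE_conj p g hle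
  rw [hg] at h1
  have hmax' := isMaximal_conjPair p hmax g
  have hQP : Subgroup.zpowers u' ≤ P := (Subgroup.zpowers_le).mpr hu'
  have hPC : P ≤ Subgroup.centralizer ((Subgroup.zpowers u' : Subgroup G) : Set G) := by
    intro x hx
    rw [Subgroup.mem_centralizer_iff]
    intro q hq
    exact hPab q (hQP hq) x hx
  have hPC' : (conjPair g ⟨P, c⟩).1
      ≤ Subgroup.centralizer ((Subgroup.zpowers u' : Subgroup G) : Set G) := by
    have hle1 : Subgroup.zpowers u' ≤ (conjPair g ⟨P, c⟩).1 := subpairLE_le h1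
    intro y hy
    rw [Subgroup.mem_centralizer_iff]
    intro q hq
    have hq' : q ∈ P.map (MulAut.conj g).toMonoidHom := hle1 hq
    have hy' : y ∈ P.map (MulAut.conj g).toMonoidHom := hy
    obtain ⟨y₀, hy₀, rfl⟩ := hy'
    obtain ⟨q₀, hq₀, rfl⟩ := hq'
    simp only [MulEquiv.coe_toMonoidHom, MulAut.conj_apply]
    have h2 := hPab q₀ hq₀ y₀ hy₀
    calc g * q₀ * g⁻¹ * (g * y₀ * g⁻¹) = g * (q₀ * y₀) * g⁻¹ := by group
      _ = g * (y₀ * q₀) * g⁻¹ := by rw [h2]
      _ = g * y₀ * g⁻¹ * (g * q₀ * g⁻¹) := by group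
  obtain ⟨z, hz, hzc⟩ :=
    exists_centralizer_conj_of_maximal p hM hmax _ hmax' ha'2 hle' h1 hPC hPC'
  rw [conjPair_mul] at hzc
  obtain ⟨hN, hS⟩ := stab_of_conjPair_eq hMp hmax.1.1.2 hzc
  have hzg := hstab _ hN hS
  have h5 : (z * g) * u * (z * g)⁻¹ = u := by
    have h := Subgroup.mem_centralizer_iff.mp hzg u hu
    rw [← h]
    group
  have h6 : z * u' * z⁻¹ = u' := by
    have h := Subgroup.mem_centralizer_iff.mp hz u' (Subgroup.mem_zpowers u')
    rw [← h]
    group
  calc u = (z * g) * u * (z * g)⁻¹ := h5.symm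
    _ = z * (g * u * g⁻¹) * z⁻¹ := by group
    _ = z * u' * z⁻¹ := by rw [hgu]
    _ = u' := h6

open scoped Classical in
/-- **The contribution of a section.**  For a maximal pair `(P, c)` of `B` with `P` abelian and
trivial inertial quotient, the sum of the ranks of the blocks of `C_G(x)` inducing `B` is at
least the number of elements of `P` conjugate to `x`. -/
theorem card_conj_le_finsum_blockRank (hM : IsPModular p M) {B : Set (IrrCharacter G)}
    {P : Subgroup G} {c : Set (IrrCharacter (Subgroup.centralizer (P : Set G)))}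
    (hmax : IsMaximalBrauerPair p M B P c) (hPab : ∀ x ∈ P, ∀ y ∈ P, x * y = y * x)
    (hstab : ∀ g ∈ Subgroup.normalizer (P : Set G),
      StabilizesBlock (Subgroup.centralizer (P : Set G)) c g →
      g ∈ Subgroup.centralizer (P : Set G)) (x : G) :
    (Finset.univ.filter (fun u : G => u ∈ P ∧ IsConj u x)).card ≤
      ∑ᶠ b ∈ {b : Set (IrrCharacter (Subgroup.centralizer ({x} : Set G))) |
        IsInducedBlock M (Subgroup.centralizer ({x} : Set G)) b B}, blockRank p b := by
  classical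
  have hp : p.Prime := Fact.out
  have hMp := isPrime_of_isPModular hM
  rw [← finsum_blockRank_congr B _ _ (Cfsg.Agent.H84.centralizer_zpowers_eq x)]
  obtain ⟨F, hF⟩ := exists_cyclic_subpairs hM hmax
  have hh : ∀ u : G, ∃ h : G, IsConj u x → h * u * h⁻¹ = x := by
    intro u
    by_cases hc : IsConj u x
    · obtain ⟨h, hh⟩ := isConj_iff.mp hc
      exact ⟨h, fun _ => hh⟩
    · exact ⟨1, fun h => absurd h hc⟩
  choose h hh using hh
  have hQ : Subgroup.zpowers x
      ≤ Subgroup.centralizer ((Subgroup.zpowers x : Subgroup G) : Set G) := by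
    intro y hy
    rw [Subgroup.mem_centralizer_iff]
    intro w hw
    obtain ⟨i, rfl⟩ := Subgroup.mem_zpowers_iff.mp hy
    obtain ⟨j, rfl⟩ := Subgroup.mem_zpowers_iff.mp hw
    rw [← zpow_add, ← zpow_add, add_comm]
  have hβ : ∀ u : G, ∃ b : Set (IrrCharacter
      (Subgroup.centralizer ((Subgroup.zpowers x : Subgroup G) : Set G))),
      (u ∈ P ∧ IsConj u x) → conjPair (h u) (F u) = ⟨Subgroup.zpowers x, b⟩ := by
    intro u
    by_cases hu : u ∈ P ∧ IsConj u x
    · have h1 : (conjPair (h u) (F u)).1 = Subgroup.zpowers x := by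
        show (F u).1.map (MulAut.conj (h u)).toMonoidHom = Subgroup.zpowers x
        rw [(hF u hu.1).1, MonoidHom.map_zpowers]
        congr 1
        exact hh u hu.2
      obtain ⟨b, hb⟩ := exists_snd_of_fst_eq _ h1
      exact ⟨b, fun _ => hb⟩
    · exact ⟨∅, fun h => absurd h hu⟩
  choose β hβ using hβ
  have hind : ∀ u : G, (u ∈ P ∧ IsConj u x) →
      IsBrauerPairOf p M B (Subgroup.zpowers x) (β u) := by
    intro u hu
    have h1 : IsBrauerPairOf p M B (F u).1 (F u).2 :=
      isBrauerPairOf_of_ge p hM (a := F u) (b := ⟨P, c⟩) hmax.1 (hF u hu.1).2.2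
    have h3 : IsBrauerPairOf p M B (conjPair (h u) (F u)).1 (conjPair (h u) (F u)).2 :=
      isBrauerPairOf_conj p (h u) h1
    rw [hβ u hu] at h3
    exact h3
  have hinj : Set.InjOn β ((Finset.univ.filter (fun u : G => u ∈ P ∧ IsConj u x) : Finset G)
      : Set G) := by
    intro u hu u' hu' heq
    have hu1 : u ∈ P ∧ IsConj u x := (Finset.mem_filter.mp hu).2
    have hu1' : u' ∈ P ∧ IsConj u' x := (Finset.mem_filter.mp hu').2
    have h1 : conjPair (h u) (F u) = conjPair (h u') (F u') := by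
      rw [hβ u hu1, hβ u' hu1', heq]
    have h2 : conjPair ((h u')⁻¹ * h u) (F u) = F u' := by
      rw [← conjPair_mul, h1, conjPair_mul, inv_mul_cancel, conjPair_one]
    refine eq_of_conjPair_eq hM hmax hPab hstab (F u) (F u') u u' hu1.1 hu1'.1
      (hF u' hu1'.1).1 (hF u' hu1'.1).2.1 (hF u hu1.1).2.2 (hF u' hu1'.1).2.2 _ h2 ?_
    have e1 := hh u hu1.2
    have e2 := hh u' hu1'.2
    calc (h u')⁻¹ * h u * u * ((h u')⁻¹ * h u)⁻¹
        = (h u')⁻¹ * (h u * u * (h u)⁻¹) * h u' := by group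
      _ = (h u')⁻¹ * (h u' * u' * (h u')⁻¹) * h u' := by rw [e1, e2]
      _ = u' := by group
  rw [← Finset.card_image_of_injOn hinj]
  apply card_le_finsum_mem
  · intro b hb
    obtain ⟨u, hu, rfl⟩ := Finset.mem_image.mp hb
    exact Cfsg.Agent.H84.isInducedBlock_of_isBrauerPairOf hM B _ hQ _
      (hind u (Finset.mem_filter.mp hu).2)
  · intro b hb
    obtain ⟨u, hu, rfl⟩ := Finset.mem_image.mp hb
    obtain ⟨ψ₀, hψ₀⟩ := (hind u (Finset.mem_filter.mp hu).2).1.2
    exact blockRank_pos hp (β u) ψ₀ (by rw [hψ₀]; exact mem_blockOf_self hMp ψ₀)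

/-- **Cyclic defect group and trivial inertial quotient.**  A block `B` with a nontrivial cyclic
defect group `P` and a maximal pair `(P, c)` whose stabilizer in `N_G(P)` is `C_G(P)` has
`p`-regular rank one. -/
theorem blockRank_eq_one_of_cyclic (hM : IsPModular p M) {B : Set (IrrCharacter G)}
    {P : Subgroup G} {c : Set (IrrCharacter (Subgroup.centralizer (P : Set G)))}
    (hmax : IsMaximalBrauerPair p M B P c) (hcyc : IsCyclic P) (hP1 : P ≠ ⊥)
    (hstab : ∀ g ∈ Subgroup.normalizer (P : Set G),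
      StabilizesBlock (Subgroup.centralizer (P : Set G)) c g →
      g ∈ Subgroup.centralizer (P : Set G)) :
    blockRank p B = 1 := by
  classical
  have hp : p.Prime := Fact.out
  have hMp := isPrime_of_isPModular hM
  have hP : IsPGroup p P := hmax.1.1.1
  have hB : IsPBlock M B := hmax.1.2.1
  have hPab := comm_of_isCyclic P hcyc
  have hk := card_le_of_cyclic_defect hM hmax hcyc hP1
  obtain ⟨X, hX, hXrep⟩ := exists_pElement_reps (G := G) p
  have h2 : Cfsg.Agent.H84.SecondMain p M G := fun x hx B hB χ hχ b hb hnot y hy =>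
    Cfsg.Agent.S0923.result p M hM x hx B hB χ hχ b hb hnot y hy
  have hcount := Cfsg.Agent.H84.card_block_eq_sum_blockRank hM h2 B hB X hX hXrep
  have h1X : (1 : G) ∈ X := by
    obtain ⟨x, ⟨hx, hc⟩, -⟩ := hXrep 1 ⟨0, by rw [orderOf_one, pow_zero]⟩
    have hx1 : x = 1 := by
      obtain ⟨g, hg⟩ := isConj_iff.mp hc
      rw [← hg]
      group
    rwa [hx1] at hx
  rw [← Finset.add_sum_erase X _ h1X, finsum_blockRank_one hM B hB] at hcount
  have hrest : Nat.card P - 1 ≤ ∑ x ∈ X.erase 1,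
      ∑ᶠ b ∈ {b : Set (IrrCharacter (Subgroup.centralizer ({x} : Set G))) |
        IsInducedBlock M (Subgroup.centralizer ({x} : Set G)) b B}, blockRank p b := by
    obtain ⟨P₁, hP₁⟩ : ∃ P₁ : Finset G,
        P₁ = (Finset.univ.filter (fun u : G => u ∈ P)).erase 1 := ⟨_, rfl⟩
    have hPc : Nat.card P = (Finset.univ.filter (fun u : G => u ∈ P)).card :=
      Nat.subtype_card (Finset.univ.filter (fun u : G => u ∈ P)) (fun x => by simp)
    have hP₁card : P₁.card = Nat.card P - 1 := by
      rw [hP₁, Finset.card_erase_of_mem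
        (Finset.mem_filter.mpr ⟨Finset.mem_univ _, one_mem P⟩), hPc]
    have hρ : ∀ u : G, ∃ x : G, u ∈ P₁ → (x ∈ X.erase 1 ∧ IsConj u x) := by
      intro u
      by_cases hu : u ∈ P₁
      · have huP : u ∈ P := by
          rw [hP₁] at hu
          exact (Finset.mem_filter.mp (Finset.mem_of_mem_erase hu)).2
        have hu1 : u ≠ 1 := by
          rw [hP₁] at hu
          exact Finset.ne_of_mem_erase hu
        obtain ⟨k, hk⟩ := (IsPGroup.iff_orderOf.mp hP) ⟨u, huP⟩
        obtain ⟨x, ⟨hx, hc⟩, -⟩ := hXrep u ⟨k, by rw [← hk, Subgroup.orderOf_mk]⟩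
        refine ⟨x, fun _ => ⟨Finset.mem_erase.mpr ⟨?_, hx⟩, hc⟩⟩
        intro hx1
        apply hu1
        rw [hx1] at hc
        obtain ⟨g, hg⟩ := isConj_iff.mp hc
        have e : u = g⁻¹ * (g * u * g⁻¹) * g := by group
        rw [e, hg]
        group
      · exact ⟨1, fun h => absurd h hu⟩
    choose ρ hρ using hρ
    have hfib := Finset.card_eq_sum_card_fiberwise (s := P₁) (t := X.erase 1) (f := ρ)
      (fun u hu => (hρ u hu).1)
    rw [← hP₁card, hfib]
    apply Finset.sum_le_sum
    intro x hx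
    refine le_trans (Finset.card_le_card ?_)
      (card_conj_le_finsum_blockRank hM hmax hPab hstab x)
    intro u hu
    obtain ⟨hu1, hu2⟩ := Finset.mem_filter.mp hu
    refine Finset.mem_filter.mpr ⟨Finset.mem_univ _, ?_, ?_⟩
    · rw [hP₁] at hu1
      exact (Finset.mem_filter.mp (Finset.mem_of_mem_erase hu1)).2
    · have h3 := (hρ u hu1).2
      rw [hu2] at h3
      exact h3
  obtain ⟨χ₀, hχ₀⟩ := id hB
  have hl := blockRank_pos hp B χ₀ (by rw [hχ₀]; exact mem_blockOf_self hMp χ₀)
  have hPpos : 0 < Nat.card P := Nat.card_pos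
  omega

end Sub

end Cfsg.Agent.H80
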