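import Cfsg.Agent.H80.CycCount
import Cfsg.Agent.H80.AbelFree
import Cfsg.Agent.H80.AbelDefect
import Cfsg.Agent.H80.CentricNil
import Cfsg.Agent.H80.FullCent

set_option autoImplicit false
set_option linter.unusedSectionVars false
set_option linter.style.haveILetI false

/-!
# helper80: local blocks of a block with cyclic defect group

* `normalizer_le_normalizer_of_isCyclic`: subgroups of a cyclic subgroup are normalized by its
  normalizer.
* `induced_in_data`: for a maximal pair `(P, c)` with `P` abelian and `Q ≤ P`, the block `f` of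
  `C_G(Q)` induced by `c` inside `C_G(Q)` is the pair on `Q` below `(P, c)`, and `(P, c)` read in
  `C_G(Q)` is a maximal pair of `f`.
-/

namespace Cfsg.Agent.H80

open Cfsg Cfsg.Agent.H20 Cfsg.Agent.H4

universe u

/-- Subgroups of a cyclic subgroup are normalized by its normalizer. -/
theorem normalizer_le_normalizer_of_isCyclic {G : Type*} [Group G] {P Q : Subgroup G}
    (hcyc : IsCyclic P) (hQP : Q ≤ P) :
    Subgroup.normalizer (P : Set G) ≤ Subgroup.normalizer (Q : Set G) := by
  haveI := hcyc
  obtain ⟨u, hu⟩ := IsCyclic.exists_generator (α := P)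
  have key : ∀ y ∈ Subgroup.normalizer (P : Set G), ∀ q ∈ Q, y * q * y⁻¹ ∈ Q := by
    intro y hy q hq
    have huP : y * (u : G) * y⁻¹ ∈ P := (Subgroup.mem_normalizer_iff.mp hy _).mp u.2
    obtain ⟨k, hk⟩ := Subgroup.mem_zpowers_iff.mp (hu ⟨_, huP⟩)
    have hk' : (u : G) ^ k = y * (u : G) * y⁻¹ := by
      have := congrArg Subtype.val hk
      simpa using this
    obtain ⟨i, hi⟩ := Subgroup.mem_zpowers_iff.mp (hu ⟨q, hQP hq⟩)
    have hi' : (u : G) ^ i = q := by
      have := congrArg Subtype.val hi
      simpa using this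
    have h1 : y * q * y⁻¹ = q ^ k := by
      rw [← hi', ← zpow_mul, mul_comm i k, zpow_mul, hk', conj_zpow]
    rw [h1]
    exact zpow_mem hq k
  intro y hy
  rw [Subgroup.mem_normalizer_iff]
  intro q
  constructor
  · exact key y hy q
  · intro h
    have h2 := key y⁻¹ (inv_mem hy) _ h
    have e : y⁻¹ * (y * q * y⁻¹) * y⁻¹⁻¹ = q := by group
    rw [e] at h2
    exact h2

variable {G : Type u} [Group G] [Fintype G] {M : Ideal AlgInt}

section Main

variable (p : ℕ) [Fact p.Prime]

/-- For a maximal pair `(P, c)` with `P` abelian and `Q ≤ P`, the block `f` of `C_G(Q)` induced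
by `c` inside `C_G(Q)` is the pair on `Q` below `(P, c)`, and `(P, c)` read in `C_G(Q)` is a
maximal pair of `f`. -/
theorem induced_in_data (hM : IsPModular p M) {B : Set (IrrCharacter G)}
    {P : Subgroup G} {c : Set (IrrCharacter (Subgroup.centralizer (P : Set G)))}
    (hmax : IsMaximalBrauerPair p M B P c) (hPab : ∀ x ∈ P, ∀ y ∈ P, x * y = y * x)
    (Q : Subgroup G) (hQP : Q ≤ P) (f : Set (IrrCharacter (Subgroup.centralizer (Q : Set G))))
    (hf : IsInducedBlockIn M (Subgroup.centralizer (Q : Set G))
      (Subgroup.centralizer (P : Set G)) c f) :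
    SubpairLE p M Q f P c ∧ ∃ a : BrauerPairIdx ↥(Subgroup.centralizer (Q : Set G)),
      a.1 = P.subgroupOf (Subgroup.centralizer (Q : Set G)) ∧
        IsMaximalBrauerPair p M f a.1 a.2 := by
  classical
  haveI : Fintype ↥(Subgroup.centralizer (Q : Set G)) := Fintype.ofFinite _
  have hMp := isPrime_of_isPModular hM
  have hP : IsPGroup p P := hmax.1.1.1
  have hPH : P ≤ Subgroup.centralizer (Q : Set G) := by
    intro x hx
    rw [Subgroup.mem_centralizer_iff]
    intro q hq
    exact hPab q (hQP hq) x hx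
  have hCH : Subgroup.centralizer (P : Set G) ≤ Subgroup.centralizer (Q : Set G) :=
    Subgroup.centralizer_le hQP
  obtain ⟨a, ha1, hup⟩ := exists_upPair_eq (Subgroup.centralizer (Q : Set G)) hPH hCH c
  have hfst : a.1.map (Subgroup.centralizer (Q : Set G)).subtype = P := congrArg Sigma.fst hup
  have ha : Subgroup.centralizer
      ((a.1.map (Subgroup.centralizer (Q : Set G)).subtype : Subgroup G) : Set G)
      ≤ Subgroup.centralizer (Q : Set G) := by rw [hfst]; exact hCH
  have ha1p : IsPGroup p a.1 := by rw [ha1]; exact hP.comap_subtype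
  have hK := isInducedBlockIn_up_iff (M := M) _ a ha f
  rw [hup] at hK
  have hind := hK.mp hf
  have hpair : IsBrauerPairOf p M f a.1 a.2 := isBrauerPairOf_of_isInducedBlock p hM ha1p hind
  have hmaxH : IsMaximalBrauerPair p M f a.1 a.2 := isMaximal_of_up _ p hM hmax a ha hup hpair
  refine ⟨?_, a, ha1, hmaxH⟩
  -- the pair on `Q` below `(P, c)`
  obtain ⟨f', hf', hle'⟩ := exists_subpairLE hM P c hmax.1.1 _ Q hQP rfl
  have hnorm : IsNormalSubpair p M Q f' P c :=
    normalSubpair_of_le_of_le p hM hmax.1.1 hQP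
      (hPH.trans (Subgroup.centralizer_le_normalizer _)) hle' Relation.ReflTransGen.refl
  have hβ : ∀ x : Subgroup.centralizer (Q : Set G),
      subgroupBlockCoeff (Subgroup.centralizer (Q : Set G)) f' (x : G) = blockCoeff f' x := by
    intro x
    unfold subgroupBlockCoeff
    rw [dif_pos x.2]
  have hpairOf' : IsBrauerPairOf p M f' a.1 a.2 := by
    apply isBrauerPairOf_of_up (Subgroup.centralizer (Q : Set G)) p hf'
      (subgroupBlockCoeff (Subgroup.centralizer (Q : Set G)) f') hβ a ha
    · rw [hup]; exact hmax.1.1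
    · rw [hup]; exact hnorm.2.2.2.2.2
  have hff' : f = f' := block_unique_of_isBrauerPairOf p hM hpair hpairOf'
  rw [hff']
  exact hle'

end Main

end Cfsg.Agent.H80
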