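import Mathlib
import Cfsg.Agent.H95.FHDefs

/-!
# S1142-CHEB: zeros of the Chebyshev-type sequence `useq`
-/

set_option autoImplicit false

namespace Cfsg.Agent.H80.FH

open Cfsg.Agent.H95.FH

/-- Closed form in the trigonometric range. -/
theorem useq_trig (x φ : ℝ) (k : ℕ) :
    useq (2 * x * Real.cos φ) (x ^ 2) k * (x * Real.sin φ) = x ^ k * Real.sin (k * φ) := by
  induction k using Nat.strong_induction_on with
  | _ k ih =>
    match k, ih with
    | 0, _ => simp [useq]
    | 1, _ => simp [useq]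
    | (k + 2), ih =>
      have h1 := ih (k + 1) (by omega)
      have h0 := ih k (by omega)
      have e1 : ((k + 2 : ℕ) : ℝ) * φ = ((k + 1 : ℕ) : ℝ) * φ + φ := by push_cast; ring
      have e0 : ((k : ℕ) : ℝ) * φ = ((k + 1 : ℕ) : ℝ) * φ - φ := by push_cast; ring
      rw [e0, Real.sin_sub] at h0
      rw [e1, Real.sin_add]
      simp only [useq]
      linear_combination (2 * x * Real.cos φ) * h1 - x ^ 2 * h0

/-- Positivity in the range `T ≥ 2x`. -/
theorem useq_pos (x T : ℝ) (hx : 0 < x) (hT : 2 * x ≤ T) (k : ℕ) :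
    0 ≤ useq T (x ^ 2) k ∧ x ^ k ≤ useq T (x ^ 2) (k + 1) - x * useq T (x ^ 2) k := by
  induction k with
  | zero => simp [useq]
  | succ k ih =>
    obtain ⟨h0, h1⟩ := ih
    have hxk : 0 < x ^ k := pow_pos hx k
    have hu : 0 ≤ useq T (x ^ 2) (k + 1) := by nlinarith
    refine ⟨hu, ?_⟩
    have e : useq T (x ^ 2) (k + 1 + 1) = T * useq T (x ^ 2) (k + 1) - x ^ 2 * useq T (x ^ 2) k := by
      simp only [useq]
    rw [e, pow_succ]
    nlinarith [mul_nonneg (sub_nonneg.mpr hT) hu, mul_le_mul_of_nonneg_left h1 hx.le]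

/-- Sign change `T ↦ -T`. -/
theorem useq_neg (T s : ℝ) (k : ℕ) : useq (-T) s k = (-1) ^ (k + 1) * useq T s k := by
  induction k using Nat.strong_induction_on with
  | _ k ih =>
    match k, ih with
    | 0, _ => simp [useq]
    | 1, _ => simp [useq]
    | (k + 2), ih =>
      have h1 := ih (k + 1) (by omega)
      have h0 := ih k (by omega)
      simp only [useq]
      rw [h1, h0]
      ring

theorem cheb : Cfsg.Agent.H95.FH.ChebStmt := by
  constructor
  · intro x T h hx hh hu
    obtain ⟨h', rfl⟩ : ∃ h', h = h' + 1 := ⟨h - 1, by omega⟩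
    rcases le_or_gt (2 * x) T with hT | hT
    · -- `T ≥ 2x`
      exfalso
      obtain ⟨h0, h1⟩ := useq_pos x T hx hT h'
      have hxk : 0 < x ^ h' := pow_pos hx h'
      nlinarith
    rcases le_or_gt T (-(2 * x)) with hT' | hT'
    · -- `T ≤ -2x`
      exfalso
      obtain ⟨h0, h1⟩ := useq_pos x (-T) hx (by linarith) h'
      have hxk : 0 < x ^ h' := pow_pos hx h'
      have hneg := useq_neg (-T) (x ^ 2) (h' + 1)
      rw [neg_neg, hu] at hneg
      have hpos : 0 < useq (-T) (x ^ 2) (h' + 1) := by nlinarith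
      have hne : ((-1 : ℝ)) ^ (h' + 1 + 1) ≠ 0 := pow_ne_zero _ (by norm_num)
      rcases mul_eq_zero.mp hneg.symm with h2 | h2
      · exact hne h2
      · exact hpos.ne' h2
    · -- trigonometric range
      have hr1 : -1 < T / (2 * x) := by
        rw [lt_div_iff₀ (by linarith)]
        linarith
      have hr2 : T / (2 * x) < 1 := by
        rw [div_lt_iff₀ (by linarith)]
        linarith
      set φ := Real.arccos (T / (2 * x)) with hφ
      have hφ0 : 0 < φ := Real.arccos_pos.mpr hr2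
      have hφπ : φ < Real.pi := Real.arccos_lt_pi.mpr hr1
      have hcos : Real.cos φ = T / (2 * x) := Real.cos_arccos hr1.le hr2.le
      have hTφ : T = 2 * x * Real.cos φ := by
        rw [hcos]
        field_simp
      have hsin : 0 < Real.sin φ := Real.sin_pos_of_pos_of_lt_pi hφ0 hφπ
      have hA := useq_trig x φ (h' + 1)
      rw [← hTφ, hu, zero_mul] at hA
      have hs0 : Real.sin (((h' + 1 : ℕ) : ℝ) * φ) = 0 := by
        rcases mul_eq_zero.mp hA.symm with h2 | h2
        · exact absurd h2 (pow_ne_zero _ hx.ne')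
        · exact h2
      obtain ⟨n, hn⟩ := Real.sin_eq_zero_iff.mp hs0
      have hpi := Real.pi_pos
      have hh'pos : (0 : ℝ) < ((h' + 1 : ℕ) : ℝ) := by positivity
      have hn0 : 0 < n := by
        have h3 : (0 : ℝ) < (n : ℝ) * Real.pi := by rw [hn]; positivity
        have h4 : (0 : ℝ) < (n : ℝ) := (pos_iff_pos_of_mul_pos h3).mpr hpi
        exact_mod_cast h4
      have hnh : n < ((h' + 1 : ℕ) : ℤ) := by
        have h3 : (n : ℝ) * Real.pi < ((h' + 1 : ℕ) : ℝ) * Real.pi := by
          rw [hn]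
          exact mul_lt_mul_of_pos_left hφπ hh'pos
        have h4 : (n : ℝ) < ((h' + 1 : ℕ) : ℝ) := lt_of_mul_lt_mul_right h3 hpi.le
        exact_mod_cast h4
      refine ⟨n.toNat, by omega, by omega, ?_⟩
      have hcast : ((n.toNat : ℕ) : ℝ) = (n : ℝ) := by
        have : ((n.toNat : ℕ) : ℤ) = n := Int.toNat_of_nonneg hn0.le
        exact_mod_cast this
      have hφeq : φ = Real.pi * (n.toNat : ℝ) / ((h' + 1 : ℕ) : ℝ) := by
        rw [hcast, eq_div_iff hh'pos.ne']
        linarith
      rw [hTφ]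
      congr 2
  · intro x T h hx hh hu
    obtain ⟨h', rfl⟩ : ∃ h', h = h' + 1 := ⟨h - 1, by omega⟩
    rw [Nat.add_sub_cancel] at hu
    rcases le_or_gt (2 * x) T with hT | hT
    · -- `T ≥ 2x`
      exfalso
      obtain ⟨h0, h1⟩ := useq_pos x T hx hT h'
      have hxk : 0 < x ^ h' := pow_pos hx h'
      have hupos : 0 < useq T (x ^ 2) (h' + 1) := by nlinarith
      nlinarith [mul_pos hx hxk, mul_pos hx hupos, mul_nonneg (sub_nonneg.mpr hT) hupos.le,
        mul_le_mul_of_nonneg_left h1 hx.le]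
    rcases le_or_gt T (-(2 * x)) with hT' | hT'
    · -- `T ≤ -2x`
      exfalso
      obtain ⟨h0, h1⟩ := useq_pos x (-T) hx (by linarith) h'
      have hxk : 0 < x ^ h' := pow_pos hx h'
      have hupos : 0 < useq (-T) (x ^ 2) (h' + 1) := by nlinarith
      have hneg1 := useq_neg (-T) (x ^ 2) (h' + 1)
      have hneg0 := useq_neg (-T) (x ^ 2) h'
      rw [neg_neg] at hneg1 hneg0
      rw [hneg1, hneg0] at hu
      have hsq : ((-1 : ℝ) ^ (h' + 1)) * ((-1 : ℝ) ^ (h' + 1)) = 1 := by
        rw [← pow_add, ← two_mul, pow_mul]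
        norm_num
      have e : (-1 : ℝ) ^ (h' + 1 + 1) = -((-1 : ℝ) ^ (h' + 1)) := by
        rw [pow_succ]; ring
      rw [e] at hu
      -- multiply by `(-1)^(h'+1)`
      have hu' : (T + x) * useq (-T) (x ^ 2) (h' + 1) = -(x ^ 2 * useq (-T) (x ^ 2) h') := by
        have h2 : -((-1 : ℝ) ^ (h' + 1)) * ((T + x) * (-((-1 : ℝ) ^ (h' + 1)) *
            useq (-T) (x ^ 2) (h' + 1))) =
            -((-1 : ℝ) ^ (h' + 1)) * (x ^ 2 * ((-1 : ℝ) ^ (h' + 1) * useq (-T) (x ^ 2) h')) := by
          rw [hu]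
        have l : -((-1 : ℝ) ^ (h' + 1)) * ((T + x) * (-((-1 : ℝ) ^ (h' + 1)) *
            useq (-T) (x ^ 2) (h' + 1))) =
            ((-1 : ℝ) ^ (h' + 1) * (-1 : ℝ) ^ (h' + 1)) * ((T + x) * useq (-T) (x ^ 2) (h' + 1)) := by
          ring
        have r : -((-1 : ℝ) ^ (h' + 1)) * (x ^ 2 * ((-1 : ℝ) ^ (h' + 1) * useq (-T) (x ^ 2) h')) =
            -(((-1 : ℝ) ^ (h' + 1) * (-1 : ℝ) ^ (h' + 1)) * (x ^ 2 * useq (-T) (x ^ 2) h')) := by
          ring
        rw [l, r, hsq, one_mul, one_mul] at h2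
        exact h2
      nlinarith [mul_pos hx hxk, mul_pos hx hupos, mul_le_mul_of_nonneg_left h1 hx.le,
        mul_nonneg (sub_nonneg.mpr (show 2 * x ≤ -T by linarith)) hupos.le]
    · -- trigonometric range
      have hr1 : -1 < T / (2 * x) := by
        rw [lt_div_iff₀ (by linarith)]
        linarith
      have hr2 : T / (2 * x) < 1 := by
        rw [div_lt_iff₀ (by linarith)]
        linarith
      set φ := Real.arccos (T / (2 * x)) with hφ
      have hφ0 : 0 < φ := Real.arccos_pos.mpr hr2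
      have hφπ : φ < Real.pi := Real.arccos_lt_pi.mpr hr1
      have hcos : Real.cos φ = T / (2 * x) := Real.cos_arccos hr1.le hr2.le
      have hTφ : T = 2 * x * Real.cos φ := by
        rw [hcos]
        field_simp
      have hsin : 0 < Real.sin φ := Real.sin_pos_of_pos_of_lt_pi hφ0 hφπ
      have hA1 := useq_trig x φ (h' + 1)
      have hA0 := useq_trig x φ h'
      rw [← hTφ] at hA1 hA0
      -- `(2 cos φ + 1) sin ((h'+1) φ) = sin (h' φ)`
      have hxs : x * Real.sin φ ≠ 0 := (mul_pos hx hsin).ne'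
      have key : (2 * Real.cos φ + 1) * Real.sin (((h' + 1 : ℕ) : ℝ) * φ) =
          Real.sin ((h' : ℝ) * φ) := by
        have h2 : x ^ (h' + 2) * ((2 * Real.cos φ + 1) * Real.sin (((h' + 1 : ℕ) : ℝ) * φ)) =
            x ^ (h' + 2) * Real.sin ((h' : ℝ) * φ) := by
          have h3 : (T + x) * useq T (x ^ 2) (h' + 1) * (x * Real.sin φ) =
              x ^ 2 * useq T (x ^ 2) h' * (x * Real.sin φ) := by
            rw [hu]
          have l : (T + x) * useq T (x ^ 2) (h' + 1) * (x * Real.sin φ) =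
              (T + x) * (useq T (x ^ 2) (h' + 1) * (x * Real.sin φ)) := by ring
          have r : x ^ 2 * useq T (x ^ 2) h' * (x * Real.sin φ) =
              x ^ 2 * (useq T (x ^ 2) h' * (x * Real.sin φ)) := by ring
          rw [l, r, hA1, hA0, hTφ] at h3
          rw [pow_succ, pow_succ] at h3 ⊢
          linear_combination h3
        exact mul_left_cancel₀ (pow_ne_zero _ hx.ne') h2
      -- `sin ((h'+2) φ) + sin ((h'+1) φ) = 0`
      set ψ : ℝ := (2 * ((h' + 1 : ℕ) : ℝ) + 1) * φ / 2 with hψ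
      have e2 : ((h' + 1 : ℕ) : ℝ) * φ = ψ - φ / 2 := by rw [hψ]; ring
      have e0 : (h' : ℝ) * φ = ψ - φ / 2 - φ := by rw [hψ]; push_cast; ring
      have hsum : 2 * Real.sin ψ * Real.cos (φ / 2) = 0 := by
        rw [e2, e0] at key
        have hφ2 : φ = φ / 2 + φ / 2 := by ring
        have c1 : Real.cos φ = 2 * Real.cos (φ / 2) ^ 2 - 1 := by
          conv_lhs => rw [hφ2]
          rw [Real.cos_add]
          have := Real.sin_sq_add_cos_sq (φ / 2)
          nlinarith
        have s1 : Real.sin φ = 2 * Real.sin (φ / 2) * Real.cos (φ / 2) := by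
          conv_lhs => rw [hφ2]
          rw [Real.sin_add]
          ring
        rw [Real.sin_sub (ψ - φ / 2) φ, Real.sin_sub, Real.cos_sub, c1, s1] at key
        have hsc := Real.sin_sq_add_cos_sq (φ / 2)
        linear_combination key - 2 * Real.cos (φ / 2) * Real.sin ψ * hsc
      have hcpos : 0 < Real.cos (φ / 2) :=
        Real.cos_pos_of_mem_Ioo ⟨by linarith [Real.pi_pos], by linarith⟩
      have hs0 : Real.sin ψ = 0 := by
        rcases mul_eq_zero.mp hsum with h2 | h2
        · rcases mul_eq_zero.mp h2 with h3 | h3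
          · norm_num at h3
          · exact h3
        · exact absurd h2 hcpos.ne'
      obtain ⟨n, hn⟩ := Real.sin_eq_zero_iff.mp hs0
      have hpi := Real.pi_pos
      have hcoef : (0 : ℝ) < 2 * ((h' + 1 : ℕ) : ℝ) + 1 := by positivity
      have hψ0 : 0 < ψ := by rw [hψ]; positivity
      have hψlt : ψ < (2 * ((h' + 1 : ℕ) : ℝ) + 1) * Real.pi / 2 := by
        rw [hψ]
        have := mul_lt_mul_of_pos_left hφπ hcoef
        linarith
      have hn0 : 0 < n := by
        have h3 : (0 : ℝ) < (n : ℝ) * Real.pi := by rw [hn]; exact hψ0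
        have h4 : (0 : ℝ) < (n : ℝ) := (pos_iff_pos_of_mul_pos h3).mpr hpi
        exact_mod_cast h4
      have hnh : n ≤ ((h' + 1 : ℕ) : ℤ) := by
        have h3 : (n : ℝ) * Real.pi < (2 * ((h' + 1 : ℕ) : ℝ) + 1) / 2 * Real.pi := by
          rw [hn]
          linarith
        have h4 : (n : ℝ) < (2 * ((h' + 1 : ℕ) : ℝ) + 1) / 2 := lt_of_mul_lt_mul_right h3 hpi.le
        have h5 : (2 * n : ℝ) < 2 * ((h' + 1 : ℕ) : ℝ) + 1 := by linarith
        have h6 : 2 * n < 2 * ((h' + 1 : ℕ) : ℤ) + 1 := by exact_mod_cast h5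
        omega
      refine ⟨n.toNat, by omega, by omega, ?_⟩
      have hcast : ((n.toNat : ℕ) : ℝ) = (n : ℝ) := by
        have : ((n.toNat : ℕ) : ℤ) = n := Int.toNat_of_nonneg hn0.le
        exact_mod_cast this
      have hφeq : φ = 2 * Real.pi * (n.toNat : ℝ) / (2 * ((h' + 1 : ℕ) : ℝ) + 1) := by
        rw [hcast, eq_div_iff hcoef.ne']
        rw [hψ] at hn
        linarith
      rw [hTφ]
      congr 2

example : Cfsg.Agent.H95.FH.ChebStmt := cheb

end Cfsg.Agent.H80.FH
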