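import Mathlib
import Cfsg.Agent.H95.FHDefs

/-!
# S1142-NT1: a rational quadratic relation for `cos (2πk/m)` forces `φ(m) ≤ 4`
-/

set_option autoImplicit false

namespace Cfsg.Agent.H80.FH

open Polynomial

theorem nt1 : Cfsg.Agent.H95.FH.NT1Stmt := by
  intro m k hm hkm A B D hABD hrel
  -- the root of unity
  set ζ : ℂ := Complex.exp (2 * Real.pi * Complex.I * ((k : ℂ) / (m : ℂ))) with hζ
  have hprim : IsPrimitiveRoot ζ m := Complex.isPrimitiveRoot_exp_of_coprime k m hm.ne' hkm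
  have hz : ζ ≠ 0 := Complex.exp_ne_zero _
  have hzw : ζ * ζ⁻¹ = 1 := mul_inv_cancel₀ hz
  have hcos : ((Real.cos (2 * Real.pi * k / m) : ℝ) : ℂ) = (ζ + ζ⁻¹) / 2 := by
    rw [Complex.ofReal_cos, Complex.cos, hζ, ← Complex.exp_neg]
    congr 2
    · congr 1
      push_cast
      ring
    · congr 1
      push_cast
      ring
  have hrelC : (A : ℂ) * ((ζ + ζ⁻¹) / 2) ^ 2 + (B : ℂ) * ((ζ + ζ⁻¹) / 2) + (D : ℂ) = 0 := by
    have h := congrArg (fun t : ℝ => (t : ℂ)) hrel
    simp only [Complex.ofReal_add, Complex.ofReal_mul, Complex.ofReal_pow, Complex.ofReal_zero,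
      Complex.ofReal_ratCast] at h
    rw [hcos] at h
    exact h
  -- the polynomial
  set P : ℚ[X] := C (A / 4) * (X ^ 2 + 1) ^ 2 + C (B / 2) * X * (X ^ 2 + 1) + C D * X ^ 2 with hP
  have hroot : aeval ζ P = 0 := by
    simp only [hP, map_add, map_mul, map_pow, aeval_C, aeval_X, map_one, eq_ratCast]
    push_cast
    linear_combination ζ ^ 2 * hrelC -
      ((A : ℂ) / 4 * (2 * ζ ^ 2 + 1 + ζ * ζ⁻¹) + (B : ℂ) / 2 * ζ) * hzw
  have hP0 : P ≠ 0 := by
    intro h0
    have e0 : P.eval 0 = 0 := by rw [h0, eval_zero]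
    have e1 : P.eval 1 = 0 := by rw [h0, eval_zero]
    have e2 : P.eval (-1) = 0 := by rw [h0, eval_zero]
    simp only [hP, eval_add, eval_mul, eval_pow, eval_C, eval_X, eval_one] at e0 e1 e2
    have hA : A = 0 := by linarith
    have hB : B = 0 := by linarith
    have hD : D = 0 := by linarith
    rcases hABD with h | h | h
    · exact h hA
    · exact h hB
    · exact h hD
  have hdeg : P.natDegree ≤ 4 := by
    rw [hP]
    compute_degree
  have hmin : minpoly ℚ ζ ∣ P := minpoly.dvd ℚ ζ hroot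
  have hcyc : cyclotomic m ℚ = minpoly ℚ ζ := cyclotomic_eq_minpoly_rat hprim hm
  calc Nat.totient m = (cyclotomic m ℚ).natDegree := (natDegree_cyclotomic m ℚ).symm
    _ = (minpoly ℚ ζ).natDegree := by rw [hcyc]
    _ ≤ P.natDegree := natDegree_le_of_dvd hmin hP0
    _ ≤ 4 := hdeg

example : Cfsg.Agent.H95.FH.NT1Stmt := nt1

end Cfsg.Agent.H80.FH
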