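import Mathlib
import Cfsg.Agent.H95.FHDefs

/-!
# S1142-NTODD: the odd case of the number-theoretic endgame of Feit–Higman
-/

set_option autoImplicit false

namespace Cfsg.Agent.H80.FH

open Cfsg.Agent.H95.FH

theorem cos_two_pi_div_five :
    Real.cos (2 * Real.pi * ((1 : ℕ) : ℝ) / ((5 : ℕ) : ℝ)) = (Real.sqrt 5 - 1) / 4 := by
  have e : 2 * Real.pi * ((1 : ℕ) : ℝ) / ((5 : ℕ) : ℝ) = 2 * (Real.pi / 5) := by
    push_cast
    ring
  have h5 : Real.sqrt 5 ^ 2 = 5 := Real.sq_sqrt (by norm_num)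
  rw [e, Real.cos_two_mul, Real.cos_pi_div_five]
  linear_combination (1 / 8 : ℝ) * h5

theorem ntodd (h1 : NT1Stmt) (h2 : NT2Stmt) : NTOddStmt := by
  intro p n N hn hp hodd hyp
  have hn3 : 3 ≤ n := by
    rcases hodd with ⟨t, rfl⟩
    omega
  obtain ⟨m, hm, hN⟩ := hyp 1 le_rfl (by omega)
  have hpR : (2 : ℝ) ≤ (p : ℝ) := by exact_mod_cast hp
  have hnR : (3 : ℝ) ≤ (n : ℝ) := by exact_mod_cast hn3
  have hmR : (0 : ℝ) < (m : ℝ) := by exact_mod_cast hm
  have hNR : (0 : ℝ) ≤ (N : ℝ) := Nat.cast_nonneg N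
  set C : ℝ := Real.cos (2 * Real.pi * ((1 : ℕ) : ℝ) / (n : ℝ)) with hC
  -- `1 - C ^ 2 > 0`
  have hθ0 : 0 < 2 * Real.pi * ((1 : ℕ) : ℝ) / (n : ℝ) := by
    have := Real.pi_pos
    positivity
  have hθπ : 2 * Real.pi * ((1 : ℕ) : ℝ) / (n : ℝ) < Real.pi := by
    rw [div_lt_iff₀ (by linarith)]
    push_cast
    nlinarith [Real.pi_pos]
  have hsin : 0 < Real.sin (2 * Real.pi * ((1 : ℕ) : ℝ) / (n : ℝ)) :=
    Real.sin_pos_of_pos_of_lt_pi hθ0 hθπ
  have hsc := Real.sin_sq_add_cos_sq (2 * Real.pi * ((1 : ℕ) : ℝ) / (n : ℝ))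
  rw [← hC] at hsc
  have h1C : 0 < 1 - C ^ 2 := by
    have : 0 < Real.sin (2 * Real.pi * ((1 : ℕ) : ℝ) / (n : ℝ)) ^ 2 := pow_pos hsin 2
    linarith
  have hC1 : 1 + C ≠ 0 := by
    intro h
    have : 1 - C ^ 2 = (1 + C) * (1 - C) := by ring
    rw [this, h, zero_mul] at h1C
    exact lt_irrefl _ h1C
  -- unfold the hypothesis
  have hsqrt : Real.sqrt ((p : ℝ) * (p : ℝ)) = (p : ℝ) := Real.sqrt_mul_self (by linarith)
  have hden : 4 * (p : ℝ) * (p : ℝ) * (1 - C ^ 2) ≠ 0 := by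
    have : 0 < 4 * (p : ℝ) * (p : ℝ) * (1 - C ^ 2) := by positivity
    exact this.ne'
  have hN' : (N : ℝ) * (4 * (p : ℝ) * (p : ℝ) * (1 - C ^ 2)) =
      (m : ℝ) * ((n : ℝ) * ((p : ℝ) + p + 2 * p * C) * ((p : ℝ) * p + 1 - 2 * p * C)) := by
    rw [hN]
    simp only [closed]
    rw [hsqrt, ← hC]
    field_simp
  have hbr : 2 * (p : ℝ) * (N : ℝ) * (1 - C) - (m : ℝ) * (n : ℝ) * ((p : ℝ) ^ 2 + 1 - 2 * p * C) = 0 := by
    have h3 : (2 * (p : ℝ) * (1 + C)) *
        (2 * (p : ℝ) * (N : ℝ) * (1 - C) - (m : ℝ) * (n : ℝ) * ((p : ℝ) ^ 2 + 1 - 2 * p * C)) = 0 := by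
      linear_combination hN'
    rcases mul_eq_zero.mp h3 with h4 | h4
    · exfalso
      rcases mul_eq_zero.mp h4 with h5 | h5
      · linarith
      · exact hC1 h5
    · exact h4
  -- the rational relation
  set B : ℚ := 2 * p * m * n - 2 * p * N with hB
  set D : ℚ := 2 * p * N - m * n * ((p : ℚ) ^ 2 + 1) with hD
  have hrel : ((0 : ℚ) : ℝ) * C ^ 2 + (B : ℝ) * C + (D : ℝ) = 0 := by
    rw [hB, hD]
    push_cast
    linear_combination hbr
  have hBD : B ≠ 0 ∨ D ≠ 0 := by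
    by_contra hcon
    rw [not_or, not_not, not_not] at hcon
    obtain ⟨hB0, hD0⟩ := hcon
    have hpQ : (2 : ℚ) ≤ (p : ℚ) := by exact_mod_cast hp
    have hnQ : (3 : ℚ) ≤ (n : ℚ) := by exact_mod_cast hn3
    have hmQ : (0 : ℚ) < (m : ℚ) := by exact_mod_cast hm
    have hNQ : (0 : ℚ) ≤ (N : ℚ) := Nat.cast_nonneg N
    rw [hB] at hB0
    rw [hD] at hD0
    have e1 : (m : ℚ) * n = N := by
      have : 2 * (p : ℚ) * ((m : ℚ) * n - N) = 0 := by linear_combination hB0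
      rcases mul_eq_zero.mp this with h | h
      · linarith
      · linarith
    have e2 : (N : ℚ) * ((p : ℚ) - 1) ^ 2 = 0 := by
      rw [e1] at hD0
      linear_combination (-1 : ℚ) * hD0
    have e3 : (N : ℚ) = 0 := by
      rcases mul_eq_zero.mp e2 with h | h
      · exact h
      · have : ((p : ℚ) - 1) = 0 := pow_eq_zero_iff (two_ne_zero) |>.mp h
        linarith
    have e4 : (0 : ℚ) < (m : ℚ) * n := by positivity
    rw [e1, e3] at e4
    exact lt_irrefl _ e4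
  have htot : Nat.totient n ≤ 4 :=
    h1 n 1 (by omega) (Nat.coprime_one_left n) 0 B D (Or.inr hBD) hrel
  have hcases := h2 n (by omega) htot
  have hn35 : n = 3 ∨ n = 5 := by
    rcases hodd with ⟨t, rfl⟩
    rcases hcases with h | h | h | h | h | h | h | h | h <;> omega
  rcases hn35 with h3 | h5
  · exact h3
  · exfalso
    subst h5
    rw [hC, cos_two_pi_div_five] at hrel
    have hirr : Irrational (Real.sqrt 5) := by
      have := Nat.prime_five.irrational_sqrt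
      simpa using this
    by_cases hB0 : B = 0
    · have hD0 : D ≠ 0 := by
        rcases hBD with h | h
        · exact absurd hB0 h
        · exact h
      rw [hB0] at hrel
      simp only [Rat.cast_zero, zero_mul, zero_add] at hrel
      exact hD0 (by exact_mod_cast hrel)
    · apply hirr
      refine ⟨1 - 4 * D / B, ?_⟩
      have hBR : (B : ℝ) ≠ 0 := by exact_mod_cast hB0
      push_cast
      field_simp
      linear_combination (-4 : ℝ) * hrel

example (h1 : NT1Stmt) (h2 : NT2Stmt) : NTOddStmt := ntodd h1 h2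

end Cfsg.Agent.H80.FH
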