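import Mathlib

set_option autoImplicit false
set_option linter.unusedSectionVars false
set_option linter.style.haveILetI false
set_option linter.unusedVariables false

/-!
# helper80: the Knörr–Robinson involution on normal chains of `p`-subgroups

A normal chain is a finite set of nontrivial `p`-subgroups, totally ordered by inclusion, all
normal in the largest one (the empty chain is allowed).  For a nontrivial `p`-element `u`
stabilizing a chain `s` we construct a subgroup `krR s u` such that toggling it in `s` is an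
involution on the normal chains stabilized by `u`, changes the length by one and preserves
`N_G(s) ∩ C_G(u)`.

* `kr_sum_eq_zero`, `kr_sum`: the resulting cancellation.
-/

namespace Cfsg.Agent.H80

universe u

open Classical

noncomputable section

variable {G : Type u} [Group G]

/-- The stabilizer of a finite set of subgroups: the intersection of their normalizers. -/
def chainNorm (s : Finset (Subgroup G)) : Subgroup G :=
  ⨅ Q ∈ s, Subgroup.normalizer ((Q : Subgroup G) : Set G)

theorem mem_chainNorm {s : Finset (Subgroup G)} {g : G} :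
    g ∈ chainNorm s ↔ ∀ Q ∈ s, g ∈ Subgroup.normalizer ((Q : Subgroup G) : Set G) := by
  unfold chainNorm
  simp only [Subgroup.mem_iInf]

theorem chainNorm_empty : chainNorm (∅ : Finset (Subgroup G)) = ⊤ := by
  ext g
  simp [mem_chainNorm]

theorem chainNorm_insert (R : Subgroup G) (s : Finset (Subgroup G)) :
    chainNorm (insert R s) = Subgroup.normalizer ((R : Subgroup G) : Set G) ⊓ chainNorm s := by
  ext g
  simp [mem_chainNorm, Subgroup.mem_inf]

/-- Normal chains of nontrivial `p`-subgroups (the empty chain included). -/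
def IsNChain (p : ℕ) (s : Finset (Subgroup G)) : Prop :=
  (∀ Q ∈ s, ∀ R ∈ s, Q ≤ R ∨ R ≤ Q) ∧ (∀ Q ∈ s, Q ≠ ⊥ ∧ IsPGroup p Q) ∧
    (s.Nonempty → ∃ T ∈ s, ∀ Q ∈ s,
      Q ≤ T ∧ T ≤ Subgroup.normalizer ((Q : Subgroup G) : Set G))

/-- The join of the members. -/
def chainTop (s : Finset (Subgroup G)) : Subgroup G := s.sup id

/-- The join of the members not containing `u`. -/
def chainLow (s : Finset (Subgroup G)) (u : G) : Subgroup G :=
  (s.filter (fun Q => u ∉ Q)).sup id

/-- The conjugates of `u` under a subgroup. -/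
def conjSet (K : Subgroup G) (u : G) : Set G := {x | ∃ k ∈ K, x = k * u * k⁻¹}

/-- The subgroup toggled by the involution. -/
def krR (s : Finset (Subgroup G)) (u : G) : Subgroup G :=
  chainLow s u ⊔ Subgroup.closure (conjSet (chainTop s ⊔ Subgroup.zpowers u) u)

/-- The involution: toggle `krR s u`. -/
def krFlip (s : Finset (Subgroup G)) (u : G) : Finset (Subgroup G) :=
  if krR s u ∈ s then s.erase (krR s u) else insert (krR s u) s

theorem krFlip_def (s : Finset (Subgroup G)) (u : G) :
    krFlip s u = if krR s u ∈ s then s.erase (krR s u) else insert (krR s u) s := rfl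

theorem mem_krR_self (s : Finset (Subgroup G)) (u : G) : u ∈ krR s u := by
  apply Subgroup.mem_sup_right
  apply Subgroup.subset_closure
  exact ⟨1, one_mem _, by simp⟩

theorem chainLow_le_chainTop (s : Finset (Subgroup G)) (u : G) : chainLow s u ≤ chainTop s :=
  Finset.sup_mono (Finset.filter_subset _ _)

theorem krR_le (s : Finset (Subgroup G)) (u : G) :
    krR s u ≤ chainTop s ⊔ Subgroup.zpowers u := by
  apply sup_le
  · exact (chainLow_le_chainTop s u).trans le_sup_left
  · rw [Subgroup.closure_le]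
    rintro _ ⟨k, hk, rfl⟩
    have hu : u ∈ chainTop s ⊔ Subgroup.zpowers u :=
      Subgroup.mem_sup_right (Subgroup.mem_zpowers u)
    exact mul_mem (mul_mem hk hu) (inv_mem hk)

theorem le_krR_of_not_mem {s : Finset (Subgroup G)} {u : G} {Q : Subgroup G} (hQ : Q ∈ s)
    (hu : u ∉ Q) : Q ≤ krR s u :=
  (Finset.le_sup (f := id) (Finset.mem_filter.mpr ⟨hQ, hu⟩)).trans le_sup_left

theorem chainTop_eq {s : Finset (Subgroup G)} {T : Subgroup G} (hT : T ∈ s)
    (h : ∀ Q ∈ s, Q ≤ T) : chainTop s = T :=
  le_antisymm (Finset.sup_le (fun Q hQ => h Q hQ)) (Finset.le_sup (f := id) hT)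

theorem conj_mem_krR {s : Finset (Subgroup G)} {u g : G}
    (h1 : ∀ Q ∈ s, u ∉ Q → ∀ x ∈ Q, g * x * g⁻¹ ∈ Q)
    (h2 : ∀ k ∈ chainTop s ⊔ Subgroup.zpowers u, g * (k * u * k⁻¹) * g⁻¹ ∈ krR s u) :
    ∀ x ∈ krR s u, g * x * g⁻¹ ∈ krR s u := by
  have key : krR s u ≤ (krR s u).comap (MulAut.conj g).toMonoidHom := by
    apply sup_le
    · apply Finset.sup_le
      intro Q hQ x hx
      rw [Finset.mem_filter] at hQ
      rw [Subgroup.mem_comap]
      show g * x * g⁻¹ ∈ krR s u
      exact le_krR_of_not_mem hQ.1 hQ.2 (h1 Q hQ.1 hQ.2 x hx)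
    · rw [Subgroup.closure_le]
      rintro _ ⟨k, hk, rfl⟩
      show g * (k * u * k⁻¹) * g⁻¹ ∈ krR s u
      exact h2 k hk
  intro x hx
  exact key hx

theorem mem_normalizer_krR {s : Finset (Subgroup G)} {u g : G} (hg : g ∈ chainNorm s)
    (hgu : g * u = u * g) : g ∈ Subgroup.normalizer ((krR s u : Subgroup G) : Set G) := by
  have aux : ∀ g : G, g ∈ chainNorm s → g * u = u * g →
      ∀ x ∈ krR s u, g * x * g⁻¹ ∈ krR s u := by
    intro g hg hgu
    have hN := mem_chainNorm.mp hg
    apply conj_mem_krR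
    · intro Q hQ _ x hx
      exact (Subgroup.mem_normalizer_iff.mp (hN Q hQ) x).mp hx
    · intro k hk
      have hKU : chainTop s ⊔ Subgroup.zpowers u ≤
          (chainTop s ⊔ Subgroup.zpowers u).comap (MulAut.conj g).toMonoidHom := by
        apply sup_le
        · apply Finset.sup_le
          intro Q hQ x hx
          rw [Subgroup.mem_comap]
          show g * x * g⁻¹ ∈ _
          exact Subgroup.mem_sup_left ((Finset.le_sup (f := id) hQ)
            ((Subgroup.mem_normalizer_iff.mp (hN Q hQ) x).mp hx))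
        · rw [Subgroup.zpowers_le, Subgroup.mem_comap]
          show g * u * g⁻¹ ∈ _
          rw [hgu, mul_inv_cancel_right]
          exact Subgroup.mem_sup_right (Subgroup.mem_zpowers u)
      have hk' : g * k * g⁻¹ ∈ chainTop s ⊔ Subgroup.zpowers u := hKU hk
      have e : g * (k * u * k⁻¹) * g⁻¹ = (g * k * g⁻¹) * u * (g * k * g⁻¹)⁻¹ := by
        have h3 : g * u * g⁻¹ = u := by rw [hgu, mul_inv_cancel_right]
        calc g * (k * u * k⁻¹) * g⁻¹
            = (g * k * g⁻¹) * (g * u * g⁻¹) * (g * k * g⁻¹)⁻¹ := by group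
          _ = _ := by rw [h3]
      rw [e]
      exact Subgroup.mem_sup_right (Subgroup.subset_closure ⟨_, hk', rfl⟩)
  rw [Subgroup.mem_normalizer_iff]
  intro x
  constructor
  · exact aux g hg hgu x
  · intro hx
    have hgu' : g⁻¹ * u = u * g⁻¹ := by
      calc g⁻¹ * u = g⁻¹ * (u * g) * g⁻¹ := by group
        _ = g⁻¹ * (g * u) * g⁻¹ := by rw [hgu]
        _ = u * g⁻¹ := by group
    have h4 := aux g⁻¹ (inv_mem hg) hgu' _ hx
    have e : g⁻¹ * (g * x * g⁻¹) * g⁻¹⁻¹ = x := by group
    rwa [e] at h4

theorem krR_le_of_mem {p : ℕ} {s : Finset (Subgroup G)} (hs : IsNChain p s) {u : G}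
    {Q : Subgroup G} (hQ : Q ∈ s) (hu : u ∈ Q) : krR s u ≤ Q := by
  obtain ⟨T, hT, hTtop⟩ := hs.2.2 ⟨Q, hQ⟩
  have hKU : chainTop s ⊔ Subgroup.zpowers u = T := by
    rw [chainTop_eq hT (fun Q' hQ' => (hTtop Q' hQ').1)]
    apply sup_eq_left.mpr
    rw [Subgroup.zpowers_le]
    exact (hTtop Q hQ).1 hu
  apply sup_le
  · apply Finset.sup_le
    intro Q' hQ'
    rw [Finset.mem_filter] at hQ'
    rcases hs.1 Q' hQ'.1 Q hQ with h | h
    · exact h
    · exact absurd (h hu) hQ'.2
  · rw [Subgroup.closure_le]
    rintro _ ⟨k, hk, rfl⟩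
    rw [hKU] at hk
    exact (Subgroup.mem_normalizer_iff.mp ((hTtop Q hQ).2 hk) u).mp hu

/-- A proper subgroup of a finite `p`-group lies in a proper normal subgroup. -/
theorem exists_normal_proper_of_lt [Finite G] {p : ℕ} [Fact p.Prime] {T S : Subgroup G}
    (hT : IsPGroup p T) (hST : S ≤ T) (hne : S ≠ T) :
    ∃ M' : Subgroup G, S ≤ M' ∧ M' ≤ T ∧ M' ≠ T ∧
      T ≤ Subgroup.normalizer ((M' : Subgroup G) : Set G) := by
  haveI : Group.IsNilpotent T := hT.isNilpotent
  have hnc : NormalizerCondition T := Group.normalizerCondition_of_isNilpotent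
  have hS' : S.subgroupOf T ≠ ⊤ := by
    intro h
    rw [Subgroup.subgroupOf_eq_top] at h
    exact hne (le_antisymm hST h)
  rcases eq_top_or_exists_le_coatom (S.subgroupOf T) with h | ⟨M'', hM'', hle⟩
  · exact absurd h hS'
  · haveI hn : M''.Normal := Subgroup.NormalizerCondition.normal_of_coatom M'' hnc hM''
    refine ⟨M''.map T.subtype, ?_, ?_, ?_, ?_⟩
    · intro x hx
      exact ⟨⟨x, hST hx⟩, hle (Subgroup.mem_subgroupOf.mpr hx), rfl⟩
    · rintro _ ⟨y, -, rfl⟩
      exact y.2
    · intro h
      apply hM''.1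
      rw [eq_top_iff]
      intro y _
      have h1 : (y : G) ∈ M''.map T.subtype := by rw [h]; exact y.2
      obtain ⟨z, hz, hzy⟩ := h1
      have h2 : z = y := Subtype.ext hzy
      rwa [← h2]
    · intro t ht
      rw [Subgroup.mem_normalizer_iff]
      intro x
      constructor
      · rintro ⟨y, hy, rfl⟩
        exact ⟨⟨t, ht⟩ * y * ⟨t, ht⟩⁻¹, hn.conj_mem y hy ⟨t, ht⟩, rfl⟩
      · rintro ⟨y, hy, hyx⟩
        refine ⟨⟨t, ht⟩⁻¹ * y * ⟨t, ht⟩, ?_, ?_⟩
        · have h3 := hn.conj_mem y hy ⟨t, ht⟩⁻¹
          simpa using h3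
        · have h4 : (y : G) = t * x * t⁻¹ := hyx
          show t⁻¹ * (y : G) * t = x
          rw [h4]
          group

theorem krR_krFlip [Finite G] {p : ℕ} [Fact p.Prime] {s : Finset (Subgroup G)}
    (hs : IsNChain p s) (u : G) : krR (krFlip s u) u = krR s u := by
  obtain ⟨R, hR⟩ : ∃ R, R = krR s u := ⟨_, rfl⟩
  have huR : u ∈ R := hR ▸ mem_krR_self s u
  have hRle : R ≤ chainTop s ⊔ Subgroup.zpowers u := hR ▸ krR_le s u
  have hlow : chainLow (krFlip s u) u = chainLow s u := by
    rw [krFlip_def, ← hR]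
    unfold chainLow
    split_ifs with h
    · rw [Finset.filter_erase, Finset.erase_eq_of_notMem]
      intro h'
      exact (Finset.mem_filter.mp h').2 huR
    · rw [Finset.filter_insert, if_neg (not_not.mpr huR)]
  have hKU : chainTop (krFlip s u) ⊔ Subgroup.zpowers u
      = chainTop s ⊔ Subgroup.zpowers u := by
    rw [krFlip_def, ← hR]
    split_ifs with h
    · -- erase
      have hsplit : chainTop s = R ⊔ chainTop (s.erase R) := by
        conv_lhs => rw [← Finset.insert_erase h]
        unfold chainTop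
        rw [Finset.sup_insert]
        rfl
      have hle : chainTop (s.erase R) ≤ chainTop s :=
        Finset.sup_mono (Finset.erase_subset _ _)
      apply le_antisymm (sup_le_sup_right hle _)
      rw [hsplit]
      apply sup_le (sup_le ?_ le_sup_left) le_sup_right
      obtain ⟨T, hT, hTtop⟩ := hs.2.2 ⟨R, h⟩
      by_cases hRT : R = T
      · by_contra hcon
        have hTs : chainTop s = T := chainTop_eq hT (fun Q hQ => (hTtop Q hQ).1)
        have huT : u ∈ T := hRT ▸ huR
        have hS'T : chainTop (s.erase R) ⊔ Subgroup.zpowers u ≤ T := by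
          apply sup_le
          · rw [← hTs]; exact hle
          · rw [Subgroup.zpowers_le]; exact huT
        have hne : chainTop (s.erase R) ⊔ Subgroup.zpowers u ≠ T := by
          intro heq
          apply hcon
          rw [heq, hRT]
        obtain ⟨M', hSM, hMT, hMne, hTN⟩ :=
          exists_normal_proper_of_lt (hs.2.1 T hT).2 hS'T hne
        apply hMne
        apply le_antisymm hMT
        rw [← hRT, hR]
        apply sup_le
        · apply Finset.sup_le
          intro Q hQ
          rw [Finset.mem_filter] at hQ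
          have hQne : Q ≠ R := fun e => hQ.2 (e ▸ huR)
          have h1 : Q ≤ chainTop (s.erase R) :=
            Finset.le_sup (f := id) (Finset.mem_erase.mpr ⟨hQne, hQ.1⟩)
          exact h1.trans (le_sup_left.trans hSM)
        · rw [Subgroup.closure_le]
          rintro _ ⟨k, hk, rfl⟩
          have hkT : k ∈ T := by
            rw [hTs] at hk
            rwa [sup_eq_left.mpr ((Subgroup.zpowers_le).mpr huT)] at hk
          have huM : u ∈ M' := hSM (Subgroup.mem_sup_right (Subgroup.mem_zpowers u))
          exact (Subgroup.mem_normalizer_iff.mp (hTN hkT) u).mp huM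
      · have h1 : T ≤ chainTop (s.erase R) :=
          Finset.le_sup (f := id) (Finset.mem_erase.mpr ⟨fun e => hRT e.symm, hT⟩)
        exact ((hTtop R h).1.trans h1).trans le_sup_left
    · -- insert
      unfold chainTop
      rw [Finset.sup_insert]
      apply le_antisymm
      · exact sup_le (sup_le hRle le_sup_left) le_sup_right
      · exact sup_le_sup_right le_sup_right _
  unfold krR
  rw [hlow, hKU]

theorem isNChain_krFlip [Finite G] {p : ℕ} [Fact p.Prime] {s : Finset (Subgroup G)}
    (hs : IsNChain p s) {u : G} (hu : u ∈ chainNorm s) (hu1 : u ≠ 1)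
    (hup : IsPGroup p (Subgroup.zpowers u)) : IsNChain p (krFlip s u) := by
  obtain ⟨R, hR⟩ : ∃ R, R = krR s u := ⟨_, rfl⟩
  have huR : u ∈ R := hR ▸ mem_krR_self s u
  rw [krFlip_def, ← hR]
  split_ifs with h
  · -- erase
    refine ⟨fun Q hQ Q' hQ' => hs.1 Q (Finset.mem_of_mem_erase hQ) Q'
      (Finset.mem_of_mem_erase hQ'), fun Q hQ => hs.2.1 Q (Finset.mem_of_mem_erase hQ), ?_⟩
    intro hne
    obtain ⟨T, hT, hTtop⟩ := hs.2.2 ⟨R, h⟩
    by_cases hRT : R = T
    · obtain ⟨T', hT', hmax⟩ :=
        Finset.exists_max_image (s.erase R) (fun Q : Subgroup G => Nat.card Q) hne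
      refine ⟨T', hT', fun Q hQ => ?_⟩
      have hQs := Finset.mem_of_mem_erase hQ
      have hT's := Finset.mem_of_mem_erase hT'
      have hQT' : Q ≤ T' := by
        rcases hs.1 Q hQs T' hT's with h1 | h1
        · exact h1
        · exact (Subgroup.eq_of_le_of_card_ge h1 (hmax Q hQ)).ge
      exact ⟨hQT', ((hTtop T' hT's).1).trans (hTtop Q hQs).2⟩
    · exact ⟨T, Finset.mem_erase.mpr ⟨fun e => hRT e.symm, hT⟩,
        fun Q hQ => hTtop Q (Finset.mem_of_mem_erase hQ)⟩
  · -- insert
    have hKUp : IsPGroup p ((chainTop s ⊔ Subgroup.zpowers u : Subgroup G)) := by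
      rcases s.eq_empty_or_nonempty with he | hne
      · rw [he]
        have h0 : chainTop (∅ : Finset (Subgroup G)) = ⊥ := Finset.sup_empty
        rw [h0, bot_sup_eq]
        exact hup
      · obtain ⟨T, hT, hTtop⟩ := hs.2.2 hne
        rw [chainTop_eq hT (fun Q hQ => (hTtop Q hQ).1)]
        apply IsPGroup.to_sup_of_normal_left' (hs.2.1 T hT).2 hup
        rw [Subgroup.zpowers_le]
        exact mem_chainNorm.mp hu T hT
    have hRp : IsPGroup p R := hKUp.to_le (hR ▸ krR_le s u)
    have hR1 : R ≠ ⊥ := by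
      intro h0
      rw [h0, Subgroup.mem_bot] at huR
      exact hu1 huR
    have hcmp : ∀ Q ∈ s, Q ≤ R ∨ R ≤ Q := by
      intro Q hQ
      by_cases huQ : u ∈ Q
      · right; rw [hR]; exact krR_le_of_mem hs hQ huQ
      · left; rw [hR]; exact le_krR_of_not_mem hQ huQ
    refine ⟨?_, ?_, ?_⟩
    · intro Q hQ Q' hQ'
      rcases Finset.mem_insert.mp hQ with hQR | hQs
      · rcases Finset.mem_insert.mp hQ' with hQR' | hQs'
        · rw [hQR, hQR']; exact Or.inl le_rfl
        · rw [hQR]; exact (hcmp Q' hQs').symm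
      · rcases Finset.mem_insert.mp hQ' with hQR' | hQs'
        · rw [hQR']; exact hcmp Q hQs
        · exact hs.1 Q hQs Q' hQs'
    · intro Q hQ
      rcases Finset.mem_insert.mp hQ with hQR | hQs
      · rw [hQR]; exact ⟨hR1, hRp⟩
      · exact hs.2.1 Q hQs
    · intro _
      rcases s.eq_empty_or_nonempty with he | hne
      · refine ⟨R, Finset.mem_insert_self _ _, fun Q hQ => ?_⟩
        rw [he] at hQ
        rcases Finset.mem_insert.mp hQ with hQR | hQs
        · rw [hQR]; exact ⟨le_rfl, Subgroup.le_normalizer⟩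
        · exact absurd hQs (Finset.notMem_empty _)
      · obtain ⟨T, hT, hTtop⟩ := hs.2.2 hne
        have hTs : chainTop s = T := chainTop_eq hT (fun Q hQ => (hTtop Q hQ).1)
        by_cases huT : u ∈ T
        · refine ⟨T, Finset.mem_insert_of_mem hT, fun Q hQ => ?_⟩
          rcases Finset.mem_insert.mp hQ with hQR | hQs
          · refine ⟨by rw [hQR, hR]; exact krR_le_of_mem hs hT huT, ?_⟩
            have hKU : chainTop s ⊔ Subgroup.zpowers u = T := by
              rw [hTs]; exact sup_eq_left.mpr ((Subgroup.zpowers_le).mpr huT)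
            have aux : ∀ g ∈ T, ∀ x ∈ krR s u, g * x * g⁻¹ ∈ krR s u := by
              intro g hg
              apply conj_mem_krR
              · intro Q' hQ' _ x hx
                exact (Subgroup.mem_normalizer_iff.mp ((hTtop Q' hQ').2 hg) x).mp hx
              · intro k hk
                rw [hKU] at hk
                have e : g * (k * u * k⁻¹) * g⁻¹ = (g * k) * u * (g * k)⁻¹ := by group
                rw [e]
                apply Subgroup.mem_sup_right
                apply Subgroup.subset_closure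
                exact ⟨g * k, by rw [hKU]; exact mul_mem hg hk, rfl⟩
            intro g hg
            rw [hQR, hR, Subgroup.mem_normalizer_iff]
            intro x
            constructor
            · exact aux g hg x
            · intro hx
              have h4 := aux g⁻¹ (inv_mem hg) _ hx
              have e : g⁻¹ * (g * x * g⁻¹) * g⁻¹⁻¹ = x := by group
              rwa [e] at h4
          · exact hTtop Q hQs
        · refine ⟨R, Finset.mem_insert_self _ _, fun Q hQ => ?_⟩
          rcases Finset.mem_insert.mp hQ with hQR | hQs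
          · rw [hQR]; exact ⟨le_rfl, Subgroup.le_normalizer⟩
          · have huQ : u ∉ Q := fun h' => huT ((hTtop Q hQs).1 h')
            refine ⟨by rw [hR]; exact le_krR_of_not_mem hQs huQ, ?_⟩
            have h1 : R ≤ chainTop s ⊔ Subgroup.zpowers u := hR ▸ krR_le s u
            refine h1.trans (sup_le ?_ ?_)
            · rw [hTs]; exact (hTtop Q hQs).2
            · rw [Subgroup.zpowers_le]; exact mem_chainNorm.mp hu Q hQs

theorem chainNorm_krFlip_inf [Finite G] {p : ℕ} [Fact p.Prime] {s : Finset (Subgroup G)}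
    (hs : IsNChain p s) (u : G) :
    chainNorm (krFlip s u) ⊓ Subgroup.centralizer ({u} : Set G)
      = chainNorm s ⊓ Subgroup.centralizer ({u} : Set G) := by
  have key : ∀ s' : Finset (Subgroup G),
      chainNorm (insert (krR s' u) s') ⊓ Subgroup.centralizer ({u} : Set G)
        = chainNorm s' ⊓ Subgroup.centralizer ({u} : Set G) := by
    intro s'
    rw [chainNorm_insert]
    apply le_antisymm
    · exact inf_le_inf_right _ inf_le_right
    · intro g hg
      obtain ⟨hg1, hg2⟩ := Subgroup.mem_inf.mp hg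
      have hgu : g * u = u * g := (Subgroup.mem_centralizer_iff.mp hg2 u rfl).symm
      exact Subgroup.mem_inf.mpr
        ⟨Subgroup.mem_inf.mpr ⟨mem_normalizer_krR hg1 hgu, hg1⟩, hg2⟩
  by_cases h : krR s u ∈ s
  · have h1 : krFlip s u = s.erase (krR s u) := if_pos h
    have h2 := krR_krFlip hs u
    rw [h1] at h2
    have h3 := key (s.erase (krR s u))
    rw [h2, Finset.insert_erase h] at h3
    rw [h1, h3]
  · have h1 : krFlip s u = insert (krR s u) s := if_neg h
    rw [h1, key s]

theorem krFlip_krFlip [Finite G] {p : ℕ} [Fact p.Prime] {s : Finset (Subgroup G)}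
    (hs : IsNChain p s) (u : G) : krFlip (krFlip s u) u = s := by
  have h2 := krR_krFlip hs u
  rw [krFlip_def (krFlip s u) u, h2]
  by_cases h : krR s u ∈ s
  · have h1 : krFlip s u = s.erase (krR s u) := if_pos h
    rw [h1, if_neg (Finset.notMem_erase _ _), Finset.insert_erase h]
  · have h1 : krFlip s u = insert (krR s u) s := if_neg h
    rw [h1, if_pos (Finset.mem_insert_self _ _), Finset.erase_insert h]

theorem neg_one_pow_card_krFlip (s : Finset (Subgroup G)) (u : G) :
    (-1 : ℤ) ^ (krFlip s u).card = - (-1 : ℤ) ^ s.card := by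
  by_cases h : krR s u ∈ s
  · have h1 : krFlip s u = s.erase (krR s u) := if_pos h
    rw [h1]
    have h2 := Finset.card_erase_add_one h
    rw [← h2, pow_succ]
    ring
  · have h1 : krFlip s u = insert (krR s u) s := if_neg h
    rw [h1, Finset.card_insert_of_notMem h, pow_succ]
    ring

/-- **Knörr–Robinson cancellation.**  For a nontrivial `p`-element `u`, the alternating sum over
the normal chains `s` (the empty one included) stabilized by `u` of any function of
`N_G(s) ∩ C_G(u)` vanishes. -/
theorem kr_sum_eq_zero [Finite G] {p : ℕ} [Fact p.Prime] (u : G) (hu1 : u ≠ 1)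
    (hup : IsPGroup p (Subgroup.zpowers u)) (F : Subgroup G → ℤ)
    (S : Finset (Finset (Subgroup G)))
    (hS : ∀ s, s ∈ S ↔ IsNChain p s ∧ u ∈ chainNorm s) :
    ∑ s ∈ S, (-1 : ℤ) ^ s.card * F (chainNorm s ⊓ Subgroup.centralizer ({u} : Set G)) = 0 := by
  have hmem : ∀ s ∈ S, krFlip s u ∈ S := by
    intro s hs
    obtain ⟨h1, h2⟩ := (hS s).mp hs
    refine (hS _).mpr ⟨isNChain_krFlip h1 h2 hu1 hup, ?_⟩
    have h3 : u ∈ chainNorm s ⊓ Subgroup.centralizer ({u} : Set G) :=
      Subgroup.mem_inf.mpr ⟨h2, Subgroup.mem_centralizer_iff.mpr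
        (fun h hh => by rw [Set.mem_singleton_iff.mp hh])⟩
    rw [← chainNorm_krFlip_inf h1 u] at h3
    exact (Subgroup.mem_inf.mp h3).1
  apply Finset.sum_involution (fun s _ => krFlip s u)
  · intro s hs
    obtain ⟨h1, h2⟩ := (hS s).mp hs
    rw [chainNorm_krFlip_inf h1 u, neg_one_pow_card_krFlip]
    ring
  · intro s hs _ heq
    have h5 := neg_one_pow_card_krFlip s u
    rw [heq] at h5
    have h0 : (-1 : ℤ) ^ s.card ≠ 0 := pow_ne_zero _ (by norm_num)
    exact h0 (by linarith)
  · exact hmem
  · intro s hs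
    exact krFlip_krFlip ((hS s).mp hs).1 u

/-- The same cancellation with the empty chain split off. -/
theorem kr_sum [Finite G] {p : ℕ} [Fact p.Prime] (u : G) (hu1 : u ≠ 1)
    (hup : IsPGroup p (Subgroup.zpowers u)) (F : Subgroup G → ℤ)
    (S : Finset (Finset (Subgroup G)))
    (hS : ∀ s, s ∈ S ↔ s.Nonempty ∧ IsNChain p s ∧ u ∈ chainNorm s) :
    F (Subgroup.centralizer ({u} : Set G)) =
      ∑ s ∈ S, (-1 : ℤ) ^ (s.card - 1) *
        F (chainNorm s ⊓ Subgroup.centralizer ({u} : Set G)) := by
  have hempty : (∅ : Finset (Subgroup G)) ∉ S := fun h =>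
    Finset.not_nonempty_empty ((hS _).mp h).1
  have h0 := kr_sum_eq_zero u hu1 hup F (insert ∅ S) (by
    intro s
    rw [Finset.mem_insert, hS]
    constructor
    · rintro (he | ⟨-, h1, h2⟩)
      · rw [he]
        refine ⟨⟨by simp, by simp, by simp⟩, ?_⟩
        rw [chainNorm_empty]; trivial
      · exact ⟨h1, h2⟩
    · rintro ⟨h1, h2⟩
      rcases s.eq_empty_or_nonempty with he | hne
      · exact Or.inl he
      · exact Or.inr ⟨hne, h1, h2⟩)
  rw [Finset.sum_insert hempty, Finset.card_empty, pow_zero, one_mul, chainNorm_empty,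
    top_inf_eq] at h0
  have h1 : ∀ s ∈ S, (-1 : ℤ) ^ (s.card - 1) *
      F (chainNorm s ⊓ Subgroup.centralizer ({u} : Set G))
      = - ((-1 : ℤ) ^ s.card * F (chainNorm s ⊓ Subgroup.centralizer ({u} : Set G))) := by
    intro s hs
    have hc : 0 < s.card := Finset.card_pos.mpr ((hS s).mp hs).1
    obtain ⟨n, hn⟩ : ∃ n, s.card = n + 1 := ⟨s.card - 1, by omega⟩
    rw [hn, Nat.add_sub_cancel, pow_succ]
    ring
  rw [Finset.sum_congr rfl h1, Finset.sum_neg_distrib]
  linarith

end

end Cfsg.Agent.H80
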