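import Cfsg.Agent.H84.SectionCount
import Cfsg.Agent.H81.Rank
import Cfsg.Agent.S0923
import Cfsg.Agent.H80.Block

set_option autoImplicit false
set_option linter.unusedSectionVars false
set_option linter.style.haveILetI false
set_option linter.unusedVariables false

/-!
# helper80: `k - l` of a union of blocks as a sum over nontrivial `p`-elements

* `blockRank_eq_sum_of_closed`: the rank of a union of blocks as a trace.
* `sum_eq_sum_all_sections`: a sum over the group as a sum over all `p`-elements `u` of sums over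
  the `p`-regular elements of `C(u)`.
* `section_sum_union`: the second main theorem, summed over a set of blocks.
* `card_sub_blockRank_union`: `|X| (k(A) - l(A))` for a union `A` of blocks.
-/

namespace Cfsg.Agent.H80

open Cfsg Cfsg.Agent.H4 Cfsg.Agent.H20
open scoped ComplexConjugate

universe u

section KRLocal

variable {X : Type u} [Group X]

/-- The rank of a union of blocks is the trace of the `p`-regular projection on its span. -/
theorem blockRank_eq_sum_of_closed [Fintype X] {p : ℕ} {M : Ideal AlgInt} (hM : IsPModular p M)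
    (A : Set (IrrCharacter X)) (hA : ∀ χ ∈ A, blockOf M (χ : X → ℂ) ⊆ A) :
    (blockRank p A : ℂ) =
      ∑ᶠ χ ∈ A, classInner (pRegularPart p (χ : X → ℂ)) (χ : X → ℂ) := by
  classical
  letI := Cfsg.Agent.H4.fintypeIrr X
  have hMp := isPrime_of_isPModular hM
  rw [finsum_mem_irr]
  let v : A → (X → ℂ) := fun χ => ((χ : IrrCharacter X) : X → ℂ)
  have hli : LinearIndependent ℂ v :=
    (Cfsg.Agent.H4.irr_linearIndependent (G := X)).comp Subtype.val Subtype.val_injective
  let V : Submodule ℂ (X → ℂ) := Cfsg.Agent.H81.blockSpan A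
  let b : Module.Basis A ℂ V := Module.Basis.span hli
  have hbv : ∀ i : A, ((b i : V) : X → ℂ) = v i := fun i =>
    congrArg Subtype.val (Module.Basis.span_apply hli i)
  have hRV0 : ∀ χ : IrrCharacter X, χ ∈ A → pRegularPart p (χ : X → ℂ) ∈ V := by
    intro χ hχ
    have h1 := Cfsg.Agent.H81.pRegularPart_mem_blockSpan hM χ χ (mem_blockOf_self hMp χ)
    have h2 : Cfsg.Agent.H81.blockSpan (blockOf M (χ : X → ℂ))
        ≤ Cfsg.Agent.H81.blockSpan A := by
      apply Submodule.span_mono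
      rintro _ ⟨ψ, rfl⟩
      exact ⟨⟨ψ.1, hA χ hχ ψ.2⟩, rfl⟩
    exact h2 h1
  have hRV : ∀ f ∈ V, Cfsg.Agent.H81.pRegL X p f ∈ V := by
    intro f hf
    have h1 : V ≤ V.comap (Cfsg.Agent.H81.pRegL X p) := by
      apply Submodule.span_le.mpr
      rintro _ ⟨χ, rfl⟩
      exact hRV0 χ.1 χ.2
    exact h1 hf
  let R' : V →ₗ[ℂ] V := (Cfsg.Agent.H81.pRegL X p).restrict hRV
  let W : Submodule ℂ (X → ℂ) := Cfsg.Agent.H81.regSpan p A
  have hWV : W ≤ V := by
    apply Submodule.span_le.mpr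
    rintro _ ⟨χ, hχ, rfl⟩
    exact hRV0 χ hχ
  have hfixW : ∀ w ∈ W, Cfsg.Agent.H81.pRegL X p w = w := by
    intro w hw
    have h1 : W ≤ LinearMap.eqLocus (Cfsg.Agent.H81.pRegL X p) LinearMap.id := by
      apply Submodule.span_le.mpr
      rintro _ ⟨χ, hχ, rfl⟩
      exact Cfsg.Agent.H81.pRegularPart_idem p _
    exact h1 hw
  have hmapW : ∀ f ∈ V, Cfsg.Agent.H81.pRegL X p f ∈ W := by
    intro f hf
    have h1 : V ≤ W.comap (Cfsg.Agent.H81.pRegL X p) := by
      apply Submodule.span_le.mpr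
      rintro _ ⟨χ, rfl⟩
      exact Submodule.subset_span ⟨χ.1, χ.2, rfl⟩
    exact h1 hf
  have hproj : LinearMap.IsProj (W.comap V.subtype) R' :=
    ⟨fun x => hmapW x.1 x.2, fun x hx => Subtype.ext (hfixW x.1 hx)⟩
  haveI : Module.Free ℂ ↥(Submodule.comap V.subtype W) :=
    @Module.Free.of_divisionRing ℂ ↥(Submodule.comap V.subtype W) _ _ _
  haveI : Module.Free ℂ ↥(LinearMap.ker R') :=
    @Module.Free.of_divisionRing ℂ ↥(LinearMap.ker R') _ _ _
  have htr : LinearMap.trace ℂ V R' = (Module.finrank ℂ (W.comap V.subtype) : ℂ) := hproj.trace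
  have hfr : Module.finrank ℂ (W.comap V.subtype) = blockRank p A :=
    (Submodule.comapSubtypeEquivOfLe hWV).finrank_eq
  rw [← hfr, ← htr, LinearMap.trace_eq_matrix_trace ℂ b, Matrix.trace]
  simp only [Matrix.diag_apply, LinearMap.toMatrix_apply]
  have hdiag : ∀ i : A, b.repr (R' (b i)) i =
      classInner (pRegularPart p (v i)) (v i) := by
    intro i
    have h1 := b.sum_repr (R' (b i))
    have h2 := congrArg (Subtype.val) h1
    rw [Submodule.coe_sum] at h2
    simp only [Submodule.coe_smul, hbv] at h2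
    have h3 : ((R' (b i) : V) : X → ℂ) = pRegularPart p (v i) := by
      show Cfsg.Agent.H81.pRegL X p (b i : X → ℂ) = _
      rw [hbv]; rfl
    rw [h3] at h2
    rw [← h2, Cfsg.Agent.H4.classInner_sum_left]
    simp only [Cfsg.Agent.H4.classInner_smul_left]
    rw [Finset.sum_eq_single i]
    · rw [Cfsg.Agent.H4.irr_inner_self, mul_one]
    · intro j _ hj
      rw [Cfsg.Agent.H4.irr_inner_ne (fun e => hj (Subtype.ext e)), mul_zero]
    · intro h; exact absurd (Finset.mem_univ _) h
  rw [Finset.sum_congr rfl (fun i _ => hdiag i), ← Finset.sum_filter]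
  exact (Finset.sum_subtype (Finset.univ.filter (· ∈ A)) (by simp)
    (fun χ : IrrCharacter X => classInner (pRegularPart p (χ : X → ℂ)) (χ : X → ℂ))).symm

open scoped Classical in
/-- A sum over the group as a sum over all `p`-elements `u` of the sums over the `p`-regular
elements of `C(u)`. -/
theorem sum_eq_sum_all_sections [Fintype X] {p : ℕ} (hp : p.Prime) (Φ : X → ℂ) :
    ∑ g : X, Φ g = ∑ u : X, if (∃ k : ℕ, orderOf u = p ^ k) then
      ∑ᶠ s : Subgroup.centralizer ({u} : Set X),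
        pRegularPart p (fun s : Subgroup.centralizer ({u} : Set X) => Φ (u * (s : X))) s
      else 0 := by
  classical
  have h1 : ∀ u : X, ∑ᶠ s : Subgroup.centralizer ({u} : Set X),
        pRegularPart p (fun s : Subgroup.centralizer ({u} : Set X) => Φ (u * (s : X))) s
      = ∑ g : X, Φ g * ∑ᶠ s : Subgroup.centralizer ({u} : Set X),
          (if ¬ p ∣ orderOf s ∧ u * (s : X) = g then (1 : ℂ) else 0) := by
    intro u
    letI : Fintype (Subgroup.centralizer ({u} : Set X)) := Fintype.ofFinite _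
    simp only [finsum_eq_sum_of_fintype]
    simp only [Finset.mul_sum]
    rw [Finset.sum_comm]
    apply Finset.sum_congr rfl
    intro s _
    by_cases hs : p ∣ orderOf s
    · rw [Cfsg.Agent.H81.pRegularPart_of_dvd p _ hs]
      symm
      apply Finset.sum_eq_zero
      intro g _
      rw [if_neg (fun h => h.1 hs), mul_zero]
    · rw [Cfsg.Agent.H81.pRegularPart_of_not_dvd p _ hs, Finset.sum_eq_single (u * (s : X))]
      · rw [if_pos ⟨hs, rfl⟩, mul_one]
      · intro g _ hne
        rw [if_neg (fun h => hne h.2.symm), mul_zero]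
      · intro h; exact absurd (Finset.mem_univ _) h
  have h2 : ∀ u : X, (if (∃ k : ℕ, orderOf u = p ^ k) then
      ∑ᶠ s : Subgroup.centralizer ({u} : Set X),
        pRegularPart p (fun s : Subgroup.centralizer ({u} : Set X) => Φ (u * (s : X))) s
      else 0)
      = ∑ g : X, Φ g * (if (∃ k : ℕ, orderOf u = p ^ k) then
          ∑ᶠ s : Subgroup.centralizer ({u} : Set X),
          (if ¬ p ∣ orderOf s ∧ u * (s : X) = g then (1 : ℂ) else 0) else 0) := by
    intro u
    by_cases hu : ∃ k : ℕ, orderOf u = p ^ k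
    · simp only [if_pos hu]; exact h1 u
    · simp only [if_neg hu, mul_zero, Finset.sum_const_zero]
  rw [Finset.sum_congr rfl (fun u _ => h2 u), Finset.sum_comm]
  apply Finset.sum_congr rfl
  intro g _
  rw [← Finset.mul_sum]
  have hN : ∑ u : X, (if (∃ k : ℕ, orderOf u = p ^ k) then
      ∑ᶠ s : Subgroup.centralizer ({u} : Set X),
        (if ¬ p ∣ orderOf s ∧ u * (s : X) = g then (1 : ℂ) else 0) else 0) = 1 := by
    obtain ⟨i, j, c, hij, hic, hj⟩ := exists_pPart_decomp hp g
    obtain ⟨z, hzdef⟩ : ∃ z : X, z = g ^ i := ⟨_, rfl⟩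
    obtain ⟨w, hwdef⟩ : ∃ w : X, w = g ^ j := ⟨_, rfl⟩
    have hzw : z * w = w * z := by rw [hzdef, hwdef, ← pow_add, ← pow_add, add_comm]
    have hg : z * w = g := by rw [hzdef, hwdef]; exact hij
    have hz : ∃ k : ℕ, orderOf z = p ^ k := by
      have h1 : orderOf z ∣ p ^ c := by rw [hzdef]; exact orderOf_dvd_of_pow_eq_one hic
      obtain ⟨k, -, hk⟩ := (Nat.dvd_prime_pow hp).mp h1
      exact ⟨k, hk⟩
    have hw : ¬ p ∣ orderOf w := by rw [hwdef]; exact hj
    have key : ∀ u : X, (∃ k : ℕ, orderOf u = p ^ k) →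
        ∑ᶠ s : Subgroup.centralizer ({u} : Set X),
          (if ¬ p ∣ orderOf s ∧ u * (s : X) = g then (1 : ℂ) else 0)
        = if u = z then 1 else 0 := by
      intro u hu
      letI : Fintype (Subgroup.centralizer ({u} : Set X)) := Fintype.ofFinite _
      rw [finsum_eq_sum_of_fintype]
      have h3 := Cfsg.Agent.H84.sum_section_indicator hp u z w 1 hu hz hzw hw
      simp only [one_mul, inv_one, mul_one] at h3
      rw [← hg]
      exact h3
    rw [Finset.sum_eq_single z]
    · rw [if_pos hz, key z hz, if_pos rfl]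
    · intro u _ hne
      by_cases hu : ∃ k : ℕ, orderOf u = p ^ k
      · rw [if_pos hu, key u hu, if_neg hne]
      · rw [if_neg hu]
    · intro h; exact absurd (Finset.mem_univ _) h
  rw [hN, mul_one]

end KRLocal

section Union

variable {X : Type u} [Group X] [Finite X] {p : ℕ} [Fact p.Prime] {M : Ideal AlgInt}

/-- Sums over a union of blocks. -/
theorem finsum_mem_union_blocks {α : Type*} [AddCommMonoid α] (hMp : M.IsPrime)
    (𝔅 : Set (Set (IrrCharacter X))) (h𝔅 : ∀ β ∈ 𝔅, IsPBlock M β) (f : IrrCharacter X → α) :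
    ∑ᶠ χ ∈ {χ : IrrCharacter X | ∃ β ∈ 𝔅, χ ∈ β}, f χ = ∑ᶠ β ∈ 𝔅, ∑ᶠ χ ∈ β, f χ := by
  classical
  letI := fintypeIrr X
  have hset : {χ : IrrCharacter X | ∃ β ∈ 𝔅, χ ∈ β} = ⋃ β ∈ 𝔅, β := by
    ext χ
    simp
  rw [hset]
  apply finsum_mem_biUnion
  · intro β hβ β' hβ' hne
    rw [Function.onFun, Set.disjoint_left]
    intro χ hχ hχ'
    apply hne
    obtain ⟨χ₁, rfl⟩ := h𝔅 β hβ
    obtain ⟨χ₂, rfl⟩ := h𝔅 β' hβ'
    rw [← blockOf_eq_of_mem hMp hχ, ← blockOf_eq_of_mem hMp hχ']
  · exact Set.toFinite _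
  · intro β _; exact Set.toFinite _

/-- Sums over the blocks of a subgroup inducing into a set of blocks. -/
theorem finsum_mem_union_induced {α : Type*} [AddCommMonoid α] (hMp : M.IsPrime)
    (C : Subgroup X) (𝔅 : Set (Set (IrrCharacter X))) (f : Set (IrrCharacter C) → α) :
    ∑ᶠ γ ∈ {γ : Set (IrrCharacter C) | ∃ β ∈ 𝔅, IsInducedBlock M C γ β}, f γ
      = ∑ᶠ β ∈ 𝔅, ∑ᶠ γ ∈ {γ : Set (IrrCharacter C) | IsInducedBlock M C γ β}, f γ := by
  classical
  letI := fintypeIrr X
  letI := fintypeIrr C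
  have hset : {γ : Set (IrrCharacter C) | ∃ β ∈ 𝔅, IsInducedBlock M C γ β}
      = ⋃ β ∈ 𝔅, {γ : Set (IrrCharacter C) | IsInducedBlock M C γ β} := by
    ext γ
    simp
  rw [hset]
  apply finsum_mem_biUnion
  · intro β hβ β' hβ' hne
    rw [Function.onFun, Set.disjoint_left]
    intro γ hγ hγ'
    exact hne (Cfsg.Agent.H84.isInducedBlock_unique hMp hγ hγ')
  · exact Set.toFinite _
  · intro β _; exact Set.toFinite _

/-- **The second main theorem summed over a set of blocks.**  For a `p`-element `u`, the sum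
over the `p`-regular elements `s` of `C(u)` of `∑_{χ ∈ A} |χ(us)|²`, `A` a union of blocks, is
`|C(u)|` times the sum of the ranks of the blocks of `C(u)` inducing into `A`. -/
theorem section_sum_union (hM : IsPModular p M)
    (𝔅 : Set (Set (IrrCharacter X))) (h𝔅 : ∀ β ∈ 𝔅, IsPBlock M β)
    (u : X) (hu : ∃ k : ℕ, orderOf u = p ^ k) :
    ∑ᶠ s : Subgroup.centralizer ({u} : Set X), pRegularPart p
        (fun s : Subgroup.centralizer ({u} : Set X) =>
          ∑ᶠ χ ∈ {χ : IrrCharacter X | ∃ β ∈ 𝔅, χ ∈ β},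
            (χ : X → ℂ) (u * (s : X)) * conj ((χ : X → ℂ) (u * (s : X)))) s
      = (Nat.card (Subgroup.centralizer ({u} : Set X)) : ℂ) *
        ((∑ᶠ γ ∈ {γ : Set (IrrCharacter (Subgroup.centralizer ({u} : Set X))) |
            ∃ β ∈ 𝔅, IsInducedBlock M (Subgroup.centralizer ({u} : Set X)) γ β},
              blockRank p γ : ℕ) : ℂ) := by
  classical
  letI := Fintype.ofFinite X
  letI := fintypeIrr X
  letI : Fintype (Subgroup.centralizer ({u} : Set X)) := Fintype.ofFinite _
  have hMp := isPrime_of_isPModular hM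
  have h2 : Cfsg.Agent.H84.SecondMain p M X := fun x hx B hB χ hχ b hb hnot y hy =>
    Cfsg.Agent.S0923.result p M hM x hx B hB χ hχ b hb hnot y hy
  have hxC : ∀ c ∈ Subgroup.centralizer ({u} : Set X), u * c = c * u :=
    fun c hc => Subgroup.mem_centralizer_iff.mp hc u rfl
  have hCx : ∀ g : X, g * u = u * g → g ∈ Subgroup.centralizer ({u} : Set X) := by
    intro g hg
    rw [Subgroup.mem_centralizer_iff]
    intro w hw
    rw [Set.mem_singleton_iff] at hw
    rw [hw]
    exact hg.symm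
  have hC0 : (Nat.card (Subgroup.centralizer ({u} : Set X)) : ℂ) ≠ 0 := by
    exact_mod_cast (Nat.card_pos (α := Subgroup.centralizer ({u} : Set X))).ne'
  have hone : ∀ β ∈ 𝔅, ∑ᶠ s : Subgroup.centralizer ({u} : Set X), pRegularPart p
        (fun s : Subgroup.centralizer ({u} : Set X) =>
          ∑ᶠ χ ∈ β, (χ : X → ℂ) (u * (s : X)) * conj ((χ : X → ℂ) (u * (s : X)))) s
      = (Nat.card (Subgroup.centralizer ({u} : Set X)) : ℂ) *
        ((∑ᶠ γ ∈ {γ : Set (IrrCharacter (Subgroup.centralizer ({u} : Set X))) |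
            IsInducedBlock M (Subgroup.centralizer ({u} : Set X)) γ β},
              blockRank p γ : ℕ) : ℂ) := by
    intro β hβ
    have h3 := Cfsg.Agent.H84.sum_blockRank_induced hM u hu _ hxC hCx β
      (Cfsg.Agent.H84.secondMain_both hM h2 u hu β (h𝔅 β hβ))
    rw [h3, ← mul_assoc, mul_inv_cancel₀ hC0, one_mul]
  have h𝔅fin : 𝔅.Finite := Set.toFinite _
  have hL : ∀ s : Subgroup.centralizer ({u} : Set X), pRegularPart p
        (fun s : Subgroup.centralizer ({u} : Set X) =>
          ∑ᶠ χ ∈ {χ : IrrCharacter X | ∃ β ∈ 𝔅, χ ∈ β},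
            (χ : X → ℂ) (u * (s : X)) * conj ((χ : X → ℂ) (u * (s : X)))) s
      = ∑ β ∈ h𝔅fin.toFinset, pRegularPart p
        (fun s : Subgroup.centralizer ({u} : Set X) =>
          ∑ᶠ χ ∈ β, (χ : X → ℂ) (u * (s : X)) * conj ((χ : X → ℂ) (u * (s : X)))) s := by
    intro s
    by_cases hs : p ∣ orderOf s
    · rw [Cfsg.Agent.H81.pRegularPart_of_dvd p _ hs]
      symm
      apply Finset.sum_eq_zero
      intro β _
      exact Cfsg.Agent.H81.pRegularPart_of_dvd p _ hs
    · rw [Cfsg.Agent.H81.pRegularPart_of_not_dvd p _ hs, finsum_mem_union_blocks hMp 𝔅 h𝔅,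
        finsum_mem_eq_finite_toFinset_sum _ h𝔅fin]
      apply Finset.sum_congr rfl
      intro β _
      rw [Cfsg.Agent.H81.pRegularPart_of_not_dvd p _ hs]
  rw [finsum_eq_sum_of_fintype, Finset.sum_congr rfl (fun s _ => hL s), Finset.sum_comm]
  have hR : ∀ β ∈ h𝔅fin.toFinset, ∑ s : Subgroup.centralizer ({u} : Set X), pRegularPart p
        (fun s : Subgroup.centralizer ({u} : Set X) =>
          ∑ᶠ χ ∈ β, (χ : X → ℂ) (u * (s : X)) * conj ((χ : X → ℂ) (u * (s : X)))) s
      = (Nat.card (Subgroup.centralizer ({u} : Set X)) : ℂ) *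
        ((∑ᶠ γ ∈ {γ : Set (IrrCharacter (Subgroup.centralizer ({u} : Set X))) |
            IsInducedBlock M (Subgroup.centralizer ({u} : Set X)) γ β},
              blockRank p γ : ℕ) : ℂ) := by
    intro β hβ
    rw [← finsum_eq_sum_of_fintype]
    exact hone β ((Set.Finite.mem_toFinset _).mp hβ)
  rw [Finset.sum_congr rfl hR, ← Finset.mul_sum, ← Nat.cast_sum,
    finsum_mem_union_induced hMp _ 𝔅, finsum_mem_eq_finite_toFinset_sum _ h𝔅fin]

open scoped Classical in
/-- **`k - l` of a union of blocks, locally.**  For a union `A` of blocks of `X`,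
`|X| (k(A) - l(A))` is the sum over the nontrivial `p`-elements `u` of `|C(u)|` times the sum of
the ranks of the blocks of `C(u)` inducing into `A`. -/
theorem card_sub_blockRank_union [Fintype X] (hM : IsPModular p M)
    (𝔅 : Set (Set (IrrCharacter X))) (h𝔅 : ∀ β ∈ 𝔅, IsPBlock M β) :
    (Nat.card X : ℂ) * ((Nat.card {χ : IrrCharacter X | ∃ β ∈ 𝔅, χ ∈ β} : ℂ)
        - (blockRank p {χ : IrrCharacter X | ∃ β ∈ 𝔅, χ ∈ β} : ℂ))
      = ∑ u : X, if (∃ k : ℕ, orderOf u = p ^ k) ∧ u ≠ 1 then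
          (Nat.card (Subgroup.centralizer ({u} : Set X)) : ℂ) *
          ((∑ᶠ γ ∈ {γ : Set (IrrCharacter (Subgroup.centralizer ({u} : Set X))) |
            ∃ β ∈ 𝔅, IsInducedBlock M (Subgroup.centralizer ({u} : Set X)) γ β},
              blockRank p γ : ℕ) : ℂ) else 0 := by
  classical
  letI := fintypeIrr X
  have hp : p.Prime := Fact.out
  have hMp := isPrime_of_isPModular hM
  obtain ⟨A, hAdef⟩ : ∃ A : Set (IrrCharacter X),
      A = {χ : IrrCharacter X | ∃ β ∈ 𝔅, χ ∈ β} := ⟨_, rfl⟩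
  have hA : ∀ χ ∈ A, blockOf M (χ : X → ℂ) ⊆ A := by
    intro χ hχ ψ hψ
    rw [hAdef] at hχ ⊢
    obtain ⟨β, hβ, hχβ⟩ := hχ
    refine ⟨β, hβ, ?_⟩
    obtain ⟨χ₁, rfl⟩ := h𝔅 β hβ
    rw [← blockOf_eq_of_mem hMp hχβ]
    exact hψ
  have hX0 : (Nat.card X : ℂ) ≠ 0 := by exact_mod_cast (Nat.card_pos (α := X)).ne'
  obtain ⟨Φ, hΦdef⟩ : ∃ Φ : X → ℂ,
      Φ = fun g => ∑ᶠ χ ∈ A, (χ : X → ℂ) g * conj ((χ : X → ℂ) g) := ⟨_, rfl⟩
  have hΦ : ∀ g, Φ g = ∑ χ : IrrCharacter X,
      if χ ∈ A then (χ : X → ℂ) g * conj ((χ : X → ℂ) g) else 0 := by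
    intro g; rw [hΦdef]; exact finsum_mem_irr A _
  have hk : (Nat.card X : ℂ) * (Nat.card A : ℂ) = ∑ g : X, Φ g := by
    rw [Finset.sum_congr rfl (fun g _ => hΦ g), Finset.sum_comm]
    have h4 : ∀ χ : IrrCharacter X, ∑ g : X,
        (if χ ∈ A then (χ : X → ℂ) g * conj ((χ : X → ℂ) g) else 0) =
        if χ ∈ A then (Nat.card X : ℂ) else 0 := by
      intro χ
      by_cases hχ : χ ∈ A
      · simp only [if_pos hχ]
        have h5 := irr_inner_self χ
        unfold classInner at h5
        rw [← mul_one (Nat.card X : ℂ), ← h5, ← mul_assoc, mul_inv_cancel₀ hX0, one_mul]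
      · simp only [if_neg hχ, Finset.sum_const_zero]
    rw [Finset.sum_congr rfl (fun χ _ => h4 χ), ← Finset.sum_filter, Finset.sum_const,
      nsmul_eq_mul, mul_comm]
    congr 1
    exact_mod_cast Nat.subtype_card (Finset.univ.filter (· ∈ A)) (by simp)
  have hl : (Nat.card X : ℂ) * (blockRank p A : ℂ) = ∑ g : X, pRegularPart p Φ g := by
    rw [blockRank_eq_sum_of_closed hM A hA, finsum_mem_irr, Finset.mul_sum]
    have h6 : ∀ g : X, pRegularPart p Φ g = ∑ χ : IrrCharacter X,
        if χ ∈ A then pRegularPart p (χ : X → ℂ) g * conj ((χ : X → ℂ) g) else 0 := by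
      intro g
      by_cases hg : p ∣ orderOf g
      · rw [Cfsg.Agent.H81.pRegularPart_of_dvd p _ hg]
        symm
        apply Finset.sum_eq_zero
        intro χ _
        rw [Cfsg.Agent.H81.pRegularPart_of_dvd p _ hg, zero_mul, ite_self]
      · rw [Cfsg.Agent.H81.pRegularPart_of_not_dvd p _ hg, hΦ g]
        apply Finset.sum_congr rfl
        intro χ _
        rw [Cfsg.Agent.H81.pRegularPart_of_not_dvd p _ hg]
    rw [Finset.sum_congr rfl (fun g _ => h6 g), Finset.sum_comm]
    apply Finset.sum_congr rfl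
    intro χ _
    by_cases hχ : χ ∈ A
    · simp only [if_pos hχ]
      unfold classInner
      rw [← mul_assoc, mul_inv_cancel₀ hX0, one_mul]
    · simp only [if_neg hχ, Finset.sum_const_zero, mul_zero]
  rw [← hAdef, mul_sub, hk, hl, ← Finset.sum_sub_distrib]
  obtain ⟨Φ', hΦ'def⟩ : ∃ Φ' : X → ℂ, Φ' = fun g => if p ∣ orderOf g then Φ g else 0 :=
    ⟨_, rfl⟩
  have h7 : ∀ g : X, Φ g - pRegularPart p Φ g = Φ' g := by
    intro g
    rw [hΦ'def]
    by_cases hg : p ∣ orderOf g
    · simp only [if_pos hg]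
      rw [Cfsg.Agent.H81.pRegularPart_of_dvd p _ hg, sub_zero]
    · simp only [if_neg hg]
      rw [Cfsg.Agent.H81.pRegularPart_of_not_dvd p _ hg, sub_self]
  rw [Finset.sum_congr rfl (fun g _ => h7 g), sum_eq_sum_all_sections hp Φ']
  apply Finset.sum_congr rfl
  intro u _
  by_cases hu : ∃ k : ℕ, orderOf u = p ^ k
  · rw [if_pos hu]
    by_cases hu1 : u = 1
    · rw [if_neg (fun h => h.2 hu1)]
      apply finsum_eq_zero_of_forall_eq_zero
      intro s
      by_cases hs : p ∣ orderOf s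
      · exact Cfsg.Agent.H81.pRegularPart_of_dvd p _ hs
      · rw [Cfsg.Agent.H81.pRegularPart_of_not_dvd p _ hs, hΦ'def]
        have hs' : ¬ p ∣ orderOf (u * (s : X)) := by
          have h9 : u * (s : X) = 1 * (s : X) := congrArg (fun t => t * (s : X)) hu1
          rw [h9, one_mul, Subgroup.orderOf_coe]; exact hs
        simp only [if_neg hs']
    · rw [if_pos ⟨hu, hu1⟩, ← section_sum_union hM 𝔅 h𝔅 u hu]
      apply finsum_congr
      intro s
      by_cases hs : p ∣ orderOf s
      · rw [Cfsg.Agent.H81.pRegularPart_of_dvd p _ hs,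
          Cfsg.Agent.H81.pRegularPart_of_dvd p _ hs]
      · rw [Cfsg.Agent.H81.pRegularPart_of_not_dvd p _ hs,
          Cfsg.Agent.H81.pRegularPart_of_not_dvd p _ hs, hΦ'def, hΦdef, hAdef]
        have hs' : p ∣ orderOf (u * (s : X)) := by
          obtain ⟨k, hk⟩ := hu
          have hk0 : k ≠ 0 := by
            intro h0
            rw [h0, pow_zero, orderOf_eq_one_iff] at hk
            exact hu1 hk
          have hcomm : Commute u (s : X) := Subgroup.mem_centralizer_iff.mp s.2 u rfl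
          have hcop : (orderOf u).Coprime (orderOf (s : X)) := by
            rw [hk, Subgroup.orderOf_coe]
            exact Nat.Coprime.pow_left k ((Nat.Prime.coprime_iff_not_dvd hp).mpr hs)
          rw [hcomm.orderOf_mul_eq_mul_orderOf_of_coprime hcop, hk]
          exact Dvd.dvd.mul_right (dvd_pow_self p hk0) _
        simp only [if_pos hs']
  · rw [if_neg hu, if_neg (fun h => hu h.1)]

end Union

end Cfsg.Agent.H80
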