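import Cfsg.Agent.H80.KRLocal
import Cfsg.Agent.H5.BlockKer
import Cfsg.Agent.H20.BrauerMap
import Cfsg.Agent.H80.EqvIrr

set_option autoImplicit false
set_option linter.unusedSectionVars false
set_option linter.style.haveILetI false
set_option linter.unusedVariables false

/-!
# helper80: `k - l` of the blocks of a subgroup inducing a block of `G`

For a subgroup `H` of `G` and a block `b` of `G`, the quantity `|H| (k - l)` of the union of the
blocks of `H` inducing `b` is the sum over the nontrivial `p`-elements `u` of `H` of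
`krPsi p M b (H ⊓ C_G(u))`, where `krPsi p M b K` is `|K|` times the sum of the ranks of the
blocks of `K` inducing `b`.

* `blockRank_eqvIrr_image`: the rank is invariant under group isomorphisms.
* `isInducedBlock_inf_iff`: transitivity of block induction through `C_H(u) ≤ H ≤ G`.
* `card_sub_blockRank_induced`, `card_sub_blockRank_block`.
-/

namespace Cfsg.Agent.H80

open Cfsg Cfsg.Agent.H4 Cfsg.Agent.H20 Cfsg.Agent.H5.BlockKer
open scoped ComplexConjugate

universe u

section Rank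

variable {K K' : Type u} [Group K] [Group K']

theorem pRegularPart_eqvIrr (p : ℕ) (ψ : K ≃* K') (χ : IrrCharacter K) :
    pRegularPart p ((eqvIrr ψ χ : IrrCharacter K') : K' → ℂ)
      = fun k' => pRegularPart p (χ : K → ℂ) (ψ.symm k') := by
  classical
  funext k'
  have ho : orderOf (ψ.symm k') = orderOf k' := MulEquiv.orderOf_eq ψ.symm k'
  by_cases h : p ∣ orderOf k'
  · rw [Cfsg.Agent.H81.pRegularPart_of_dvd p _ h,
      Cfsg.Agent.H81.pRegularPart_of_dvd p _ (by rw [ho]; exact h)]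
  · rw [Cfsg.Agent.H81.pRegularPart_of_not_dvd p _ h,
      Cfsg.Agent.H81.pRegularPart_of_not_dvd p _ (by rw [ho]; exact h)]
    rfl

/-- The rank is invariant under group isomorphisms. -/
theorem blockRank_eqvIrr_image (p : ℕ) (ψ : K ≃* K') (A : Set (IrrCharacter K)) :
    blockRank p (eqvIrr ψ '' A) = blockRank p A := by
  unfold blockRank
  let L : (K → ℂ) ≃ₗ[ℂ] (K' → ℂ) := LinearEquiv.funCongrLeft ℂ ℂ ψ.symm.toEquiv
  have hL : ∀ f : K → ℂ, L f = fun k' => f (ψ.symm k') := fun f => rfl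
  have himg : (fun χ : IrrCharacter K' => pRegularPart p (χ : K' → ℂ)) '' (eqvIrr ψ '' A)
      = L '' ((fun χ : IrrCharacter K => pRegularPart p (χ : K → ℂ)) '' A) := by
    rw [Set.image_image, Set.image_image]
    apply Set.image_congr
    intro χ _
    rw [pRegularPart_eqvIrr, hL]
  have h2 : Submodule.span ℂ
      (L '' ((fun χ : IrrCharacter K => pRegularPart p (χ : K → ℂ)) '' A))
      = (Submodule.span ℂ ((fun χ : IrrCharacter K => pRegularPart p (χ : K → ℂ)) '' A)).map
        (L : (K → ℂ) →ₗ[ℂ] (K' → ℂ)) :=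
    (Submodule.map_span (L : (K → ℂ) →ₗ[ℂ] (K' → ℂ)) _).symm
  rw [himg, h2]
  exact LinearEquiv.finrank_map_eq L _

theorem eqvIrr_symm_image_image (ψ : K ≃* K') (A : Set (IrrCharacter K)) :
    eqvIrr ψ.symm '' (eqvIrr ψ '' A) = A := by
  rw [Set.image_image]
  simp only [eqvIrr_symm_eqvIrr]
  exact Set.image_id' A

theorem eqvIrr_image_symm_image (ψ : K ≃* K') (A : Set (IrrCharacter K')) :
    eqvIrr ψ '' (eqvIrr ψ.symm '' A) = A := by
  rw [Set.image_image]
  simp only [eqvIrr_eqvIrr_symm]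
  exact Set.image_id' A

end Rank

section Trans

variable {G : Type u} [Group G] [Finite G] {p : ℕ} [Fact p.Prime] {M : Ideal AlgInt}

/-- The isomorphism between `C_H(u)`, computed in `H`, and `H ∩ C_G(u)`. -/
def centInfEquiv (H : Subgroup G) (u : H) :
    ↥(Subgroup.centralizer ({u} : Set H)) ≃*
      ↥(H ⊓ Subgroup.centralizer ({(u : G)} : Set G)) where
  toFun c := ⟨((c : H) : G), Subgroup.mem_inf.mpr ⟨(c : H).2, by
    rw [Subgroup.mem_centralizer_iff]
    intro w hw
    rw [Set.mem_singleton_iff] at hw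
    rw [hw]
    have h1 := Subgroup.mem_centralizer_iff.mp c.2 u rfl
    exact congrArg Subtype.val h1⟩⟩
  invFun k := ⟨⟨(k : G), (Subgroup.mem_inf.mp k.2).1⟩, by
    rw [Subgroup.mem_centralizer_iff]
    intro w hw
    rw [Set.mem_singleton_iff] at hw
    rw [hw]
    apply Subtype.ext
    exact Subgroup.mem_centralizer_iff.mp (Subgroup.mem_inf.mp k.2).2 (u : G) rfl⟩
  left_inv c := rfl
  right_inv k := rfl
  map_mul' a b := rfl

/-- **Transitivity through `C_H(u) ≤ H ≤ G`.**  A block of `H ∩ C_G(u)` induces `b` iff, read as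
a block of `C_H(u)`, it induces a block of `H` inducing `b`. -/
theorem isInducedBlock_inf_iff (hM : IsPModular p M) (H : Subgroup G)
    (b : Set (IrrCharacter G)) (u : H) (hu : ∃ k : ℕ, orderOf u = p ^ k)
    (γ' : Set (IrrCharacter ↥(H ⊓ Subgroup.centralizer ({(u : G)} : Set G)))) :
    IsInducedBlock M (H ⊓ Subgroup.centralizer ({(u : G)} : Set G)) γ' b ↔
      ∃ β : Set (IrrCharacter H), IsInducedBlock M H β b ∧
        IsInducedBlock M (Subgroup.centralizer ({u} : Set H))
          (eqvIrr (centInfEquiv H u).symm '' γ') β := by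
  classical
  letI : Fintype G := Fintype.ofFinite G
  letI : Fintype H := Fintype.ofFinite H
  letI : Fintype (Subgroup.centralizer ({u} : Set H)) := Fintype.ofFinite _
  letI : Fintype ↥(H ⊓ Subgroup.centralizer ({(u : G)} : Set G)) := Fintype.ofFinite _
  have hMp := isPrime_of_isPModular hM
  have hcomp : (H.subtype).comp (Subgroup.centralizer ({u} : Set H)).subtype
      = (H ⊓ Subgroup.centralizer ({(u : G)} : Set G)).subtype.comp
        (centInfEquiv H u).toMonoidHom := MonoidHom.ext (fun c => rfl)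
  have hicc : ∀ (ξ' : IrrCharacter ↥(H ⊓ Subgroup.centralizer ({(u : G)} : Set G))) (x : G),
      icc ((H.subtype).comp (Subgroup.centralizer ({u} : Set H)).subtype)
        ((eqvIrr (centInfEquiv H u).symm ξ' : IrrCharacter _) : _ → ℂ) x
        = icc (H ⊓ Subgroup.centralizer ({(u : G)} : Set G)).subtype (ξ' : _ → ℂ) x := by
    intro ξ' x
    have hfun : ((eqvIrr (centInfEquiv H u).symm ξ' : IrrCharacter _) : _ → ℂ)
        = fun c => (ξ' : _ → ℂ) (centInfEquiv H u c) := by
      funext c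
      exact eqvIrr_symm_apply (centInfEquiv H u) ξ' c
    rw [hcomp, hfun]
    have h5 := icc_comp_equiv (centInfEquiv H u)
      (H ⊓ Subgroup.centralizer ({(u : G)} : Set G)).subtype ξ'.1 x
    exact h5
  constructor
  · rintro ⟨hγ', hb, hcong⟩
    have hγ : IsPBlock M (eqvIrr (centInfEquiv H u).symm '' γ') :=
      isPBlock_eqvIrr_image (centInfEquiv H u).symm hγ'
    obtain ⟨ξ₀, hξ₀⟩ := hγ
    have hξ₀mem : ξ₀ ∈ eqvIrr (centInfEquiv H u).symm '' γ' := by
      rw [hξ₀]; exact mem_blockOf_self hMp ξ₀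
    obtain ⟨ξ'', hξ''γ, hξ''eq⟩ := hξ₀mem
    have hP : IsPGroup p (Subgroup.zpowers u) := by
      obtain ⟨k, hk⟩ := hu
      apply IsPGroup.of_card (n := k)
      rw [Nat.card_zpowers, hk]
    have hcomm : ∀ c ∈ Subgroup.centralizer ({u} : Set H), Commute u c :=
      fun c hc => Subgroup.mem_centralizer_iff.mp hc u rfl
    have hPH : Subgroup.zpowers u ≤ Subgroup.centralizer ({u} : Set H) := by
      rw [Subgroup.zpowers_le, Subgroup.mem_centralizer_iff]
      intro w hw
      rw [Set.mem_singleton_iff] at hw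
      rw [hw]
    have hCH : Subgroup.centralizer ((Subgroup.zpowers u : Subgroup H) : Set H)
        ≤ Subgroup.centralizer ({u} : Set H) :=
      Subgroup.centralizer_le (Set.singleton_subset_iff.mpr (Subgroup.mem_zpowers u))
    have hHN : Subgroup.centralizer ({u} : Set H)
        ≤ Subgroup.normalizer ((Subgroup.zpowers u : Subgroup H) : Set H) := by
      refine le_trans ?_ (Subgroup.centralizer_le_normalizer _)
      intro c hc
      rw [Subgroup.mem_centralizer_iff]
      intro h hh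
      obtain ⟨n, rfl⟩ := Subgroup.mem_zpowers_iff.mp hh
      exact ((hcomm c hc).zpow_left n).eq
    obtain ⟨χ₁, hχ₁, -⟩ := Cfsg.Agent.H20.exists_isInducedBlock (G := H)
      (P := Subgroup.zpowers u) (H := Subgroup.centralizer ({u} : Set H)) hM hP hPH hCH hHN ξ₀
    refine ⟨blockOf M (χ₁ : H → ℂ), ⟨⟨χ₁, rfl⟩, hb, ?_⟩, ?_⟩
    · intro χ hχ χ₀ hχ₀ g
      have h1 : IndVia M (Subgroup.centralizer ({u} : Set H)).subtype
          (ξ₀ : _ → ℂ) (χ : H → ℂ) := by
        intro x
        rw [icc_subtype]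
        exact hχ₁.2.2 ξ₀ (mem_blockOf_self hMp ξ₀) χ hχ x
      have h2 : IndVia M ((H.subtype).comp (Subgroup.centralizer ({u} : Set H)).subtype)
          (ξ₀ : _ → ℂ) (χ₀ : G → ℂ) := by
        intro x
        rw [← hξ''eq, hicc ξ'' x, icc_subtype]
        exact hcong ξ'' hξ''γ χ₀ hχ₀ x
      have h3 := IndVia.of_comp hMp (irr_isClassFunction χ) h1 h2
      have h4 := h3 g
      rw [icc_subtype] at h4
      exact h4
    · rw [hξ₀]; exact hχ₁
  · rintro ⟨β, ⟨hβ, hb, hcongH⟩, ⟨hγ, -, hcongC⟩⟩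
    have hγ' : IsPBlock M γ' := by
      have h1 := isPBlock_eqvIrr_image (centInfEquiv H u) hγ
      have h2 := eqvIrr_symm_image_image (centInfEquiv H u).symm γ'
      rw [MulEquiv.symm_symm] at h2
      rwa [h2] at h1
    refine ⟨hγ', hb, ?_⟩
    intro ξ' hξ' χ₀ hχ₀ g
    obtain ⟨χ₁, hβeq⟩ := hβ
    have hχ₁ : χ₁ ∈ β := by rw [hβeq]; exact mem_blockOf_self hMp χ₁
    have hξmem : eqvIrr (centInfEquiv H u).symm ξ' ∈ eqvIrr (centInfEquiv H u).symm '' γ' :=
      ⟨ξ', hξ', rfl⟩
    have h1 : IndVia M (Subgroup.centralizer ({u} : Set H)).subtype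
        ((eqvIrr (centInfEquiv H u).symm ξ' : IrrCharacter _) : _ → ℂ) (χ₁ : H → ℂ) := by
      intro x
      rw [icc_subtype]
      exact hcongC _ hξmem χ₁ hχ₁ x
    have h2 : IndVia M H.subtype (χ₁ : H → ℂ) (χ₀ : G → ℂ) := by
      intro x
      rw [icc_subtype]
      exact hcongH χ₁ hχ₁ χ₀ hχ₀ x
    have h3 := IndVia.trans hMp (irr_isClassFunction χ₁) h1 h2
    have h4 := h3 g
    rw [hicc ξ' g, icc_subtype] at h4
    exact h4

/-- The blocks of `C_H(u)` inducing, through `H`, the block `b`, and the blocks of `H ∩ C_G(u)`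
inducing `b`. -/
theorem card_mul_finsum_inf (hM : IsPModular p M) (H : Subgroup G)
    (b : Set (IrrCharacter G)) (u : H) (hu : ∃ k : ℕ, orderOf u = p ^ k) :
    Nat.card (Subgroup.centralizer ({u} : Set H)) *
      ∑ᶠ γ ∈ {γ : Set (IrrCharacter (Subgroup.centralizer ({u} : Set H))) |
        ∃ β ∈ {β : Set (IrrCharacter H) | IsInducedBlock M H β b},
          IsInducedBlock M (Subgroup.centralizer ({u} : Set H)) γ β}, blockRank p γ
    = Nat.card ↥(H ⊓ Subgroup.centralizer ({(u : G)} : Set G)) *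
      ∑ᶠ γ' ∈ {γ' : Set (IrrCharacter ↥(H ⊓ Subgroup.centralizer ({(u : G)} : Set G))) |
        IsInducedBlock M (H ⊓ Subgroup.centralizer ({(u : G)} : Set G)) γ' b},
          blockRank p γ' := by
  classical
  have hcard : Nat.card (Subgroup.centralizer ({u} : Set H))
      = Nat.card ↥(H ⊓ Subgroup.centralizer ({(u : G)} : Set G)) :=
    Nat.card_congr (centInfEquiv H u).toEquiv
  rw [hcard]
  congr 1
  have hset : {γ : Set (IrrCharacter (Subgroup.centralizer ({u} : Set H))) |
        ∃ β ∈ {β : Set (IrrCharacter H) | IsInducedBlock M H β b},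
          IsInducedBlock M (Subgroup.centralizer ({u} : Set H)) γ β}
      = (fun γ' => eqvIrr (centInfEquiv H u).symm '' γ') ''
        {γ' | IsInducedBlock M (H ⊓ Subgroup.centralizer ({(u : G)} : Set G)) γ' b} := by
    ext γ
    constructor
    · rintro ⟨β, hβ, hγ⟩
      have h2 := eqvIrr_symm_image_image (centInfEquiv H u) γ
      refine ⟨eqvIrr (centInfEquiv H u) '' γ, ?_, h2⟩
      show IsInducedBlock M (H ⊓ Subgroup.centralizer ({(u : G)} : Set G)) _ b
      rw [isInducedBlock_inf_iff hM H b u hu]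
      refine ⟨β, hβ, ?_⟩
      rw [h2]; exact hγ
    · rintro ⟨γ', hγ', rfl⟩
      obtain ⟨β, hβ, hγ⟩ := (isInducedBlock_inf_iff hM H b u hu γ').mp hγ'
      exact ⟨β, hβ, hγ⟩
  rw [hset, finsum_mem_image]
  · apply finsum_mem_congr rfl
    intro γ' _
    exact blockRank_eqvIrr_image p _ γ'
  · intro γ₁ _ γ₂ _ h
    exact (Set.image_injective.mpr (eqvIrr_injective _)) h

/-- `|K|` times the sum of the ranks of the blocks of the subgroup `K` inducing `b`. -/
noncomputable def krPsi (p : ℕ) (M : Ideal AlgInt) (b : Set (IrrCharacter G))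
    (K : Subgroup G) : ℤ :=
  (Nat.card K : ℤ) *
    ((∑ᶠ γ ∈ {γ : Set (IrrCharacter K) | IsInducedBlock M K γ b}, blockRank p γ : ℕ) : ℤ)

open scoped Classical in
/-- **`k - l` for the blocks of `H` inducing `b`.** -/
theorem card_sub_blockRank_induced [Fintype G] (hM : IsPModular p M) (H : Subgroup G)
    (b : Set (IrrCharacter G)) :
    (Nat.card H : ℤ) * ((Nat.card {ψ : IrrCharacter H |
        ∃ β : Set (IrrCharacter H), ψ ∈ β ∧ IsInducedBlock M H β b} : ℤ)
      - (blockRank p {ψ : IrrCharacter H |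
        ∃ β : Set (IrrCharacter H), ψ ∈ β ∧ IsInducedBlock M H β b} : ℤ))
    = ∑ u : G, if u ∈ H ∧ (∃ k : ℕ, orderOf u = p ^ k) ∧ u ≠ 1 then
        krPsi p M b (H ⊓ Subgroup.centralizer ({u} : Set G)) else 0 := by
  classical
  letI : Fintype H := Fintype.ofFinite H
  obtain ⟨𝔅, h𝔅def⟩ : ∃ 𝔅 : Set (Set (IrrCharacter H)),
      𝔅 = {β | IsInducedBlock M H β b} := ⟨_, rfl⟩
  have h𝔅 : ∀ β ∈ 𝔅, IsPBlock M β := by
    intro β hβ
    rw [h𝔅def] at hβ
    exact hβ.1
  have hA : {ψ : IrrCharacter H | ∃ β : Set (IrrCharacter H), ψ ∈ β ∧ IsInducedBlock M H β b}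
      = {χ : IrrCharacter H | ∃ β ∈ 𝔅, χ ∈ β} := by
    ext ψ
    rw [h𝔅def]
    constructor
    · rintro ⟨β, h1, h2⟩; exact ⟨β, h2, h1⟩
    · rintro ⟨β, h2, h1⟩; exact ⟨β, h1, h2⟩
  rw [hA]
  have h1 := card_sub_blockRank_union (X := H) hM 𝔅 h𝔅
  apply Int.cast_injective (α := ℂ)
  rw [Int.cast_mul, Int.cast_sub, Int.cast_natCast, Int.cast_natCast, Int.cast_natCast, h1,
    Int.cast_sum]
  obtain ⟨F, hF⟩ : ∃ F : G → ℂ, F = fun x => if (∃ k : ℕ, orderOf x = p ^ k) ∧ x ≠ 1 then
      ((krPsi p M b (H ⊓ Subgroup.centralizer ({x} : Set G)) : ℤ) : ℂ) else 0 := ⟨_, rfl⟩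
  have hR : ∀ x : G, ((if x ∈ H ∧ (∃ k : ℕ, orderOf x = p ^ k) ∧ x ≠ 1 then
      krPsi p M b (H ⊓ Subgroup.centralizer ({x} : Set G)) else 0 : ℤ) : ℂ)
      = if x ∈ H then F x else 0 := by
    intro x
    rw [hF]
    by_cases hx : x ∈ H
    · by_cases h2 : (∃ k : ℕ, orderOf x = p ^ k) ∧ x ≠ 1
      · rw [if_pos ⟨hx, h2⟩, if_pos hx]
        simp only [if_pos h2]
      · rw [if_neg (fun h => h2 h.2), if_pos hx]
        simp only [if_neg h2, Int.cast_zero]
    · rw [if_neg (fun h => hx h.1), if_neg hx, Int.cast_zero]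
  rw [Finset.sum_congr rfl (fun x _ => hR x), ← sum_subgroup_eq H F]
  apply Finset.sum_congr rfl
  intro u _
  rw [hF]
  have hiff : ((∃ k : ℕ, orderOf u = p ^ k) ∧ u ≠ 1)
      ↔ ((∃ k : ℕ, orderOf (u : G) = p ^ k) ∧ (u : G) ≠ 1) := by
    rw [Subgroup.orderOf_coe, Ne, Ne, OneMemClass.coe_eq_one]
  by_cases h : (∃ k : ℕ, orderOf u = p ^ k) ∧ u ≠ 1
  · rw [if_pos h]
    simp only [if_pos (hiff.mp h)]
    unfold krPsi
    rw [Int.cast_mul, Int.cast_natCast, Int.cast_natCast, ← Nat.cast_mul,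
      ← Nat.cast_mul]
    congr 1
    rw [h𝔅def]
    exact card_mul_finsum_inf hM H b u h.1
  · rw [if_neg h]
    simp only [if_neg (fun h' => h (hiff.mpr h'))]

open scoped Classical in
/-- **`k - l` of a block**, as a sum over the nontrivial `p`-elements. -/
theorem card_sub_blockRank_block [Fintype G] (hM : IsPModular p M)
    (b : Set (IrrCharacter G)) (hb : IsPBlock M b) :
    (Nat.card G : ℤ) * ((Nat.card b : ℤ) - (blockRank p b : ℤ))
    = ∑ u : G, if (∃ k : ℕ, orderOf u = p ^ k) ∧ u ≠ 1 then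
        krPsi p M b (Subgroup.centralizer ({u} : Set G)) else 0 := by
  classical
  have h1 := card_sub_blockRank_union (X := G) hM {b} (by
    intro β hβ
    rw [Set.mem_singleton_iff] at hβ
    rw [hβ]
    exact hb)
  have hA : {χ : IrrCharacter G | ∃ β ∈ ({b} : Set (Set (IrrCharacter G))), χ ∈ β} = b := by
    ext χ
    simp
  rw [hA] at h1
  apply Int.cast_injective (α := ℂ)
  rw [Int.cast_mul, Int.cast_sub, Int.cast_natCast, Int.cast_natCast, Int.cast_natCast, h1,
    Int.cast_sum]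
  apply Finset.sum_congr rfl
  intro u _
  by_cases h : (∃ k : ℕ, orderOf u = p ^ k) ∧ u ≠ 1
  · rw [if_pos h, if_pos h]
    unfold krPsi
    rw [Int.cast_mul, Int.cast_natCast, Int.cast_natCast]
    have hset : {γ : Set (IrrCharacter (Subgroup.centralizer ({u} : Set G))) |
        ∃ β ∈ ({b} : Set (Set (IrrCharacter G))),
          IsInducedBlock M (Subgroup.centralizer ({u} : Set G)) γ β}
        = {γ | IsInducedBlock M (Subgroup.centralizer ({u} : Set G)) γ b} := by
      ext γ
      simp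
    rw [hset]
  · rw [if_neg h, if_neg h, Int.cast_zero]

end Trans

end Cfsg.Agent.H80
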