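import Cfsg.Agent.H46.OutGF4Defs
/-!
S2121 / S2122 (helper46), piece OG-NOFLIP-F4 (helper80): in type `F₄`, odd characteristic, no
automorphism swaps the root subgroups of the short root `α₁` (index 27) and the long root `α₂`
(index 25).

Invariant: `x_r(v)` commutes with `x_s(u)⁻¹ x_r(t)⁻¹ x_s(u) x_r(t)` for all `t u v`.  It holds
for `(r, s) = (α₂, α₁)` (the commutator is a word in `x_{28}`, `x_{30}`, which commute with
`x_{25}`) and fails for `(r, s) = (α₁, α₂)` at `t = u = v = 1` when `2 ≠ 0`.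
-/
set_option autoImplicit false
open Cfsg.Lie Cfsg.Agent.H23 Cfsg.Agent.H23.Stb Cfsg.Agent.H46.OutE Cfsg.Agent.H46.OutG

namespace Cfsg.Agent.H80.OutG

universe u

theorem f4_ct_25_27 : chevF4.commTerms 25 27 = [(28, 1, 1, 1), (30, -1, 1, 2)] := by
  decide +kernel
theorem f4_ct_27_25 : chevF4.commTerms 27 25 = [(28, -1, 1, 1), (30, -1, 2, 1)] := by
  decide +kernel
theorem f4_ct_28_25 : chevF4.commTerms 28 25 = [] := by decide +kernel
theorem f4_ct_30_25 : chevF4.commTerms 30 25 = [] := by decide +kernel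
theorem f4_ct_28_27 : chevF4.commTerms 28 27 = [(30, -2, 1, 1)] := by decide +kernel
theorem f4_ct_30_27 : chevF4.commTerms 30 27 = [] := by decide +kernel

section

variable (F : Type u) [Field F]

/-- `x_{27}(u) x_{25}(t) = x_{25}(t) x_{27}(u) x_{28}(-t u) x_{30}(t u²)` -/
theorem f4_c1 (t u : F) :
    xU (packS_F4 F).hP.sem 27 u * xU (packS_F4 F).hP.sem 25 t =
      xU (packS_F4 F).hP.sem 25 t * xU (packS_F4 F).hP.sem 27 u *
        (xU (packS_F4 F).hP.sem 28 (-(t * u)) * xU (packS_F4 F).hP.sem 30 (t * u ^ 2)) := by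
  have h := commF4 F 25 27 (by decide) (by decide) (by decide) (by decide) t u
  have hw : chevF4.commWord F 25 27 t u = [(28, -(t * u)), (30, t * u ^ 2)] := by
    unfold ChevalleyDatum.commWord
    rw [f4_ct_25_27]
    simp
  rw [hw] at h
  rw [h]
  simp [wordU]

/-- `x_{25}(u) x_{27}(t) = x_{27}(t) x_{25}(u) x_{28}(t u) x_{30}(-(t² u))` -/
theorem f4_c2 (t u : F) :
    xU (packS_F4 F).hP.sem 25 u * xU (packS_F4 F).hP.sem 27 t =
      xU (packS_F4 F).hP.sem 27 t * xU (packS_F4 F).hP.sem 25 u *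
        (xU (packS_F4 F).hP.sem 28 (t * u) * xU (packS_F4 F).hP.sem 30 (-(t ^ 2 * u))) := by
  have h := commF4 F 27 25 (by decide) (by decide) (by decide) (by decide) t u
  have hw : chevF4.commWord F 27 25 t u = [(28, t * u), (30, -(t ^ 2 * u))] := by
    unfold ChevalleyDatum.commWord
    rw [f4_ct_27_25]
    simp
  rw [hw] at h
  rw [h]
  simp [wordU]

/-- `x_{25}` commutes with `x_{28}` -/
theorem f4_c3 (t u : F) :
    xU (packS_F4 F).hP.sem 25 u * xU (packS_F4 F).hP.sem 28 t =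
      xU (packS_F4 F).hP.sem 28 t * xU (packS_F4 F).hP.sem 25 u := by
  have h := commF4 F 28 25 (by decide) (by decide) (by decide) (by decide) t u
  have hw : chevF4.commWord F 28 25 t u = [] := by
    unfold ChevalleyDatum.commWord
    rw [f4_ct_28_25]
    rfl
  rw [hw] at h
  rw [h]
  simp [wordU]

/-- `x_{25}` commutes with `x_{30}` -/
theorem f4_c4 (t u : F) :
    xU (packS_F4 F).hP.sem 25 u * xU (packS_F4 F).hP.sem 30 t =
      xU (packS_F4 F).hP.sem 30 t * xU (packS_F4 F).hP.sem 25 u := by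
  have h := commF4 F 30 25 (by decide) (by decide) (by decide) (by decide) t u
  have hw : chevF4.commWord F 30 25 t u = [] := by
    unfold ChevalleyDatum.commWord
    rw [f4_ct_30_25]
    rfl
  rw [hw] at h
  rw [h]
  simp [wordU]

/-- `x_{27}(u) x_{28}(t) = x_{28}(t) x_{27}(u) x_{30}(2 t u)` -/
theorem f4_c5 (t u : F) :
    xU (packS_F4 F).hP.sem 27 u * xU (packS_F4 F).hP.sem 28 t =
      xU (packS_F4 F).hP.sem 28 t * xU (packS_F4 F).hP.sem 27 u *
        xU (packS_F4 F).hP.sem 30 (2 * (t * u)) := by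
  have h := commF4 F 28 27 (by decide) (by decide) (by decide) (by decide) t u
  have hw : chevF4.commWord F 28 27 t u = [(30, 2 * (t * u))] := by
    unfold ChevalleyDatum.commWord
    rw [f4_ct_28_27]
    simp
    ring
  rw [hw] at h
  rw [h]
  simp [wordU]

/-- `x_{27}` commutes with `x_{30}` -/
theorem f4_c6 (t u : F) :
    xU (packS_F4 F).hP.sem 27 u * xU (packS_F4 F).hP.sem 30 t =
      xU (packS_F4 F).hP.sem 30 t * xU (packS_F4 F).hP.sem 27 u := by
  have h := commF4 F 30 27 (by decide) (by decide) (by decide) (by decide) t u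
  have hw : chevF4.commWord F 30 27 t u = [] := by
    unfold ChevalleyDatum.commWord
    rw [f4_ct_30_27]
    rfl
  rw [hw] at h
  rw [h]
  simp [wordU]

/-- the invariant holds for `(α₂, α₁)` -/
theorem f4_invA (t u v : F) :
    xU (packS_F4 F).hP.sem 25 v *
        ((xU (packS_F4 F).hP.sem 27 u)⁻¹ * (xU (packS_F4 F).hP.sem 25 t)⁻¹ *
          xU (packS_F4 F).hP.sem 27 u * xU (packS_F4 F).hP.sem 25 t) =
      ((xU (packS_F4 F).hP.sem 27 u)⁻¹ * (xU (packS_F4 F).hP.sem 25 t)⁻¹ *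
          xU (packS_F4 F).hP.sem 27 u * xU (packS_F4 F).hP.sem 25 t) *
        xU (packS_F4 F).hP.sem 25 v := by
  have hK : (xU (packS_F4 F).hP.sem 27 u)⁻¹ * (xU (packS_F4 F).hP.sem 25 t)⁻¹ *
      xU (packS_F4 F).hP.sem 27 u * xU (packS_F4 F).hP.sem 25 t =
      xU (packS_F4 F).hP.sem 28 (-(t * u)) * xU (packS_F4 F).hP.sem 30 (t * u ^ 2) := by
    rw [mul_assoc _ (xU (packS_F4 F).hP.sem 27 u), f4_c1 F t u]
    group
  rw [hK, ← mul_assoc, f4_c3, mul_assoc, f4_c4, ← mul_assoc]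

/-- the invariant fails for `(α₁, α₂)` -/
theorem f4_invB (h2 : (2 : F) ≠ 0) :
    ¬ (xU (packS_F4 F).hP.sem 27 1 *
        ((xU (packS_F4 F).hP.sem 25 1)⁻¹ * (xU (packS_F4 F).hP.sem 27 1)⁻¹ *
          xU (packS_F4 F).hP.sem 25 1 * xU (packS_F4 F).hP.sem 27 1) =
      ((xU (packS_F4 F).hP.sem 25 1)⁻¹ * (xU (packS_F4 F).hP.sem 27 1)⁻¹ *
          xU (packS_F4 F).hP.sem 25 1 * xU (packS_F4 F).hP.sem 27 1) *
        xU (packS_F4 F).hP.sem 27 1) := by
  intro h
  have hK : (xU (packS_F4 F).hP.sem 25 (1 : F))⁻¹ * (xU (packS_F4 F).hP.sem 27 1)⁻¹ *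
      xU (packS_F4 F).hP.sem 25 1 * xU (packS_F4 F).hP.sem 27 1 =
      xU (packS_F4 F).hP.sem 28 1 * xU (packS_F4 F).hP.sem 30 (-1) := by
    rw [mul_assoc _ (xU (packS_F4 F).hP.sem 25 1), f4_c2 F 1 1]
    simp only [one_pow, mul_one]
    group
  rw [hK] at h
  -- left side: x27(1) x28(1) x30(-1) = x28(1) x27(1) x30(2) x30(-1) = x28(1) x30(1) x27(1)
  have hL : xU (packS_F4 F).hP.sem 27 (1 : F) *
      (xU (packS_F4 F).hP.sem 28 1 * xU (packS_F4 F).hP.sem 30 (-1)) =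
      xU (packS_F4 F).hP.sem 28 1 * xU (packS_F4 F).hP.sem 30 1 * xU (packS_F4 F).hP.sem 27 1 := by
    rw [← mul_assoc, f4_c5 F 1 1, mul_assoc, xU_mul, mul_assoc, f4_c6, ← mul_assoc]
    norm_num
  rw [hL] at h
  have h3 : xU (packS_F4 F).hP.sem 30 (1 : F) = xU (packS_F4 F).hP.sem 30 (-1) := by
    have h4 := mul_right_cancel h
    exact mul_left_cancel h4
  have h5 : xU (packS_F4 F).hP.sem 30 ((1 : F) + 1) = 1 := by
    have e : (xU (packS_F4 F).hP.sem 30 (-1 : F))⁻¹ = xU (packS_F4 F).hP.sem 30 1 := by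
      rw [xU_inv, neg_neg]
    calc xU (packS_F4 F).hP.sem 30 ((1 : F) + 1)
        = xU (packS_F4 F).hP.sem 30 1 * xU (packS_F4 F).hP.sem 30 1 := (xU_mul _ _ _ _).symm
      _ = xU (packS_F4 F).hP.sem 30 1 * (xU (packS_F4 F).hP.sem 30 (-1 : F))⁻¹ := by rw [e]
      _ = 1 := by rw [h3, mul_inv_cancel]
  have h6 := xU_eq_one_imp (packS_F4 F).hP.sem (packS_F4 F).hP.tab (packS_F4 F).hP.tab2 30
    (by decide) _ h5
  apply h2
  rw [← h6]
  norm_num

end

theorem noFlipF4 : StNoFlipF4.{u} := by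
  intro F _ h2 θ hcon
  obtain ⟨h12, h21⟩ := hcon
  have e1 : chevF4.simple 1 = 27 := by decide
  have e2 : chevF4.simple 2 = 25 := by decide
  rw [e1, e2] at h12 h21
  -- h12 : RootTo θ 27 25 ; h21 : RootTo θ 25 27
  obtain ⟨t, ht⟩ := h21.2 1
  obtain ⟨u, hu⟩ := h12.2 1
  have hA := f4_invA F t u t
  have hA' : xG (packS_F4 F).hP.sem 25 t *
        ((xG (packS_F4 F).hP.sem 27 u)⁻¹ * (xG (packS_F4 F).hP.sem 25 t)⁻¹ *
          xG (packS_F4 F).hP.sem 27 u * xG (packS_F4 F).hP.sem 25 t) =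
      ((xG (packS_F4 F).hP.sem 27 u)⁻¹ * (xG (packS_F4 F).hP.sem 25 t)⁻¹ *
          xG (packS_F4 F).hP.sem 27 u * xG (packS_F4 F).hP.sem 25 t) *
        xG (packS_F4 F).hP.sem 25 t := Subtype.ext hA
  have hB := congrArg θ hA'
  simp only [map_mul, map_inv, ht, hu] at hB
  exact f4_invB F h2 (congrArg Subtype.val hB)

example : StNoFlipF4.{u} := noFlipF4

end Cfsg.Agent.H80.OutG
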