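import Cfsg.Agent.H46.OutGDefs
import Cfsg.Agent.H98.StbMatch
/-!
S2121 / S2122 (helper46), piece OG-NOTFIX (helper80): an automorphism mapping the root subgroup
of `α_i` onto that of `α_j`, `j ≠ i`, does not map it onto itself.
-/
set_option autoImplicit false
open Cfsg.Lie Cfsg.Agent.H23 Cfsg.Agent.H23.Stb Cfsg.Agent.H46.OutE Cfsg.Agent.H46.OutG

namespace Cfsg.Agent.H80.OutG

universe u

theorem notFix : StNotFix.{u} := by
  intro D F _ z η rT w0 hC θ i j hi hj hij hc2 hR hRi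
  obtain ⟨t, ht⟩ := hRi.2 1
  obtain ⟨a, ha⟩ := hR.1 t
  have h1 : xU hC.hP.sem (D.simple i) 1 = xU hC.hP.sem (D.simple j) a :=
    congrArg Subtype.val (ht.symm.trans ha)
  apply Cfsg.Agent.H98.Stb.not_comm_simple hC.hP hC.hV i hi
  rw [h1]
  exact hc2 i hi j hj hij 1 a

example : StNotFix.{u} := notFix

end Cfsg.Agent.H80.OutG
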