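import Cfsg.Agent.H80.OSDNGGen
import Cfsg.Agent.H23.Gens
import Cfsg.Agent.S2157
/-!
Team project S2159 (helper46), piece OS-DNG (helper80): graph automorphisms normalise the set of
diagonal automorphisms — the generic `dNG_gen` (H80/OSDNGGen) applied to the seven types through
`H23.packF_all`, `S2157.result` and `H23.hom_ext_fund`.
-/
set_option autoImplicit false

namespace Cfsg.Agent.H80.OS

open Cfsg Cfsg.Lie Cfsg.Agent.H23 Cfsg.Agent.H23.Stb Cfsg.Agent.H23.StbD Cfsg.Agent.H46.OS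
open scoped MatrixGroups

universe u

/-- **OS-DNG**. -/
theorem dNG (h1 : StHatEx.{u}) (h2 : StHatAut.{u}) (h3 : StRootChar.{u}) : StDNG.{u} := by
  intro F _ _ D hD m hm hchain g d hg hd
  obtain ⟨z, η, w, rT, par, dep, hP⟩ := Cfsg.Agent.H23.packF_all (F := F) D hD
  exact dNG_gen h1 h2 h3 F D z η hP.packB
    (fun χ hχ r hr t => Cfsg.Agent.S2157.result D hD χ hχ r hr t)
    (fun a b h => Cfsg.Agent.H23.hom_ext_fund hP.packB.sem hP.packB.semN hP.packB.tab a b h)
    m hm hchain g d hg hd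

example (h1 : Cfsg.Agent.H23.Stb.StHatEx.{u}) (h2 : Cfsg.Agent.H23.Stb.StHatAut.{u})
    (h3 : Cfsg.Agent.H23.StbD.StRootChar.{u}) : Cfsg.Agent.H46.OS.StDNG.{u} := dNG h1 h2 h3

end Cfsg.Agent.H80.OS
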