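import Cfsg.Agent.H23.StbDefs
/-!
Team project S2125 (helper23), piece S2125-MULT (helper80): adjacent fundamental roots carry the
same additive map, and it is multiplicative.
-/
set_option autoImplicit false
open Cfsg.Lie Cfsg.Agent.H23 Cfsg.Agent.H23.Stb

namespace Cfsg.Agent.H80.Stb

universe u

theorem mult : StMult.{u} := by
  intro D F _ z η hP θ i j hi hj hz φi φj hx hh h1 hinv
  have hri : D.simple i < D.nroots := hP.tab.simple_lt i hi
  have hrj : D.simple j < D.nroots := hP.tab.simple_lt j hj
  have hinj : ∀ a b : F, xG hP.sem (D.simple i) a = xG hP.sem (D.simple i) b → a = b := by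
    intro a b h
    have h0 : xU hP.sem (D.simple i) a = xU hP.sem (D.simple i) b := congrArg Subtype.val h
    have h1 : xU hP.sem (D.simple i) (a + -b) = 1 := by
      rw [← xU_mul, ← xU_inv, h0, mul_inv_cancel]
    have h2 := xU_eq_one_imp hP.sem hP.tab hP.tab2 (D.simple i) hri _ h1
    linear_combination h2
  have key : ∀ a : F, a ≠ 0 → ∀ u : F,
      hG hP.sem (D.simple j) a * xG hP.sem (D.simple i) u * (hG hP.sem (D.simple j) a)⁻¹ =
        xG hP.sem (D.simple i) (a⁻¹ * u) := by
    intro a ha u
    apply Subtype.ext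
    have h := hU_conj hP.sem (D.simple j) hrj a ha (D.simple i) hri u
    rw [hz, zpow_neg_one] at h
    exact h
  have hφj0 : ∀ a : F, a ≠ 0 → φj a ≠ 0 := by
    intro a ha h0
    exact ha ((AddEquiv.map_eq_zero_iff φj).mp h0)
  have key2 : ∀ a : F, a ≠ 0 → ∀ u : F, (φj a)⁻¹ * φi u = φi (a⁻¹ * u) := by
    intro a ha u
    have e := congrArg θ (key a ha u)
    rw [map_mul, map_mul, map_inv, hh a ha, hx, hx, key (φj a) (hφj0 a ha) (φi u)] at e
    exact hinj _ _ e
  have heq : ∀ a : F, φi a = φj a := by
    intro a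
    by_cases ha : a = 0
    · subst ha
      rw [map_zero, map_zero]
    · have h := key2 a ha 1
      rw [h1, mul_one, mul_one, hinv a ha] at h
      exact (inv_injective h).symm
  refine ⟨heq, ?_⟩
  intro a b
  by_cases ha : a = 0
  · subst ha
    rw [zero_mul, map_zero, zero_mul]
  · have h := key2 a⁻¹ (inv_ne_zero ha) b
    rw [inv_inv, ← heq, hinv a ha, inv_inv] at h
    exact h.symm

example : StMult.{u} := mult

end Cfsg.Agent.H80.Stb
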