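import Cfsg.Agent.H23.StbDefs
/-!
Team project S2125 (helper23), piece S2125-ROOTMAP (helper80): an automorphism fixing a root
subgroup acts on it by an additive bijection of the field.
-/
set_option autoImplicit false
open Cfsg.Lie Cfsg.Agent.H23 Cfsg.Agent.H23.Stb

namespace Cfsg.Agent.H80.Stb

universe u

theorem rootMap : StRootMap.{u} := by
  intro D F _ z η hP θ r hr hR
  obtain ⟨h1, h2⟩ := hR
  have hinj : ∀ a b : F, xG hP.sem r a = xG hP.sem r b → a = b := by
    intro a b h
    have h0 : xU hP.sem r a = xU hP.sem r b := congrArg Subtype.val h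
    have h1 : xU hP.sem r (a + -b) = 1 := by
      rw [← xU_mul, ← xU_inv, h0, mul_inv_cancel]
    have h2 := xU_eq_one_imp hP.sem hP.tab hP.tab2 r hr _ h1
    linear_combination h2
  have hmul : ∀ a b : F, xG hP.sem r a * xG hP.sem r b = xG hP.sem r (a + b) := by
    intro a b
    apply Subtype.ext
    exact xU_mul hP.sem r a b
  choose f hf using h1
  have hadd : ∀ a b, f (a + b) = f a + f b := by
    intro a b
    apply hinj
    rw [← hf, ← hmul, map_mul, hf, hf, hmul]
  have hfinj : Function.Injective f := by
    intro a b hab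
    apply hinj
    apply θ.injective
    rw [hf, hf, hab]
  have hfsurj : Function.Surjective f := by
    intro t'
    obtain ⟨t, ht⟩ := h2 t'
    refine ⟨t, ?_⟩
    apply hinj
    rw [← hf, ht]
  exact ⟨AddEquiv.ofBijective (AddMonoidHom.mk' f hadd) ⟨hfinj, hfsurj⟩, fun t => hf t⟩

example : StRootMap.{u} := rootMap

end Cfsg.Agent.H80.Stb
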