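import Mathlib
import Cfsg.Agent.H90.TRDefs

/-!
# Team piece S5156-M1 (for helper90)

The system induced by a normal subgroup `K` of a finite group `G` on the preimage `T₀` of `K` in a
Sylow subgroup is realized by `K` on a Sylow subgroup of `K`.
-/

set_option autoImplicit false

namespace Cfsg.Agent.H80.TR

open Cfsg Cfsg.FusionSystem Cfsg.Agent.H86 Cfsg.Agent.H87 Cfsg.Agent.H90.TR

universe u

theorem m1 : Cfsg.Agent.H90.TR.M1Stmt.{u} := by
  intro Ω _ S G _ _ p _ ι hι T hT K _ T₀ hT₀S hT₀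
  obtain ⟨ι', hι'⟩ : ∃ ι' : T₀ →* K, ∀ x : T₀, ((ι' x : K) : G) = ι ⟨x, hT₀S x.2⟩ :=
    ⟨(ι.comp (Subgroup.inclusion hT₀S)).codRestrict K (fun x => (hT₀ _).1 x.2), fun _ => rfl⟩
  have hinj : Function.Injective ι' := by
    intro x y hxy
    have h1 : ι ⟨x, hT₀S x.2⟩ = ι ⟨y, hT₀S y.2⟩ := by
      rw [← hι' x, ← hι' y, hxy]
    exact Subtype.ext (congrArg (fun z : S => (z : Ω)) (hι h1))
  refine ⟨ι', ⟨hinj, ?_⟩, ?_⟩
  · intro P hP φ hφ
    constructor
    · rintro ⟨hP', hφ', k, hk, h⟩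
      refine ⟨⟨k, hk⟩, fun x => ?_⟩
      apply Subtype.ext
      rw [hι']
      show ι ⟨φ x, _⟩ = k * (ι' ⟨x, hP x.2⟩ : G) * k⁻¹
      rw [hι']
      exact h x
    · rintro ⟨g, hg⟩
      refine ⟨hP, hφ, (g : G), g.2, fun u => ?_⟩
      have h1 := congrArg (fun z : K => (z : G)) (hg u)
      simp only [Subgroup.coe_mul, Subgroup.coe_inv, hι'] at h1
      exact h1
  · have hrange : ι'.range = (T : Subgroup G).subgroupOf K := by
      ext k
      rw [Subgroup.mem_subgroupOf, hT]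
      constructor
      · rintro ⟨x, rfl⟩
        exact ⟨⟨x, hT₀S x.2⟩, (hι' x).symm⟩
      · rintro ⟨s, hs⟩
        have hsT₀ : (s : Ω) ∈ T₀ := (hT₀ s).2 (by rw [hs]; exact k.2)
        refine ⟨⟨s, hsT₀⟩, Subtype.ext ?_⟩
        rw [hι']
        exact hs
    have hp : IsPGroup p ι'.range := by
      rw [hrange]
      exact T.2.comap_subtype
    have hidx : ¬ p ∣ ι'.range.index := by
      rw [hrange]
      have h := not_dvd_relIndex_of_normal T K
      rw [Subgroup.inf_relIndex_right] at h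
      exact h
    exact ⟨hp.toSylow hidx, rfl⟩

end Cfsg.Agent.H80.TR
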