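import Mathlib
import Cfsg.Agent.H90.TRDefs

/-!
# Team piece S5156-R1a (for helper90)

The system of `O^{p'}(G)` has index prime to `p` in the system of `G`.
-/

set_option autoImplicit false

namespace Cfsg.Agent.H80.TR

open Cfsg Cfsg.FusionSystem Cfsg.Agent.H86 Cfsg.Agent.H87 Cfsg.Agent.H90.TR

universe u

/-- An element of `p`-power order acting through `ι` as conjugation by `g₀` acts as conjugation by
an element of `p`-power order. -/
theorem exists_pPow_conj {Ω : Type*} [Group Ω] {S : Subgroup Ω} {G : Type*} [Group G] [Finite G]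
    {p : ℕ} [hp : Fact p.Prime] (ι : S →* G) {P : Subgroup Ω} (hP : P ≤ S) {a : MulAut P}
    {g₀ : G} (H : ∀ x : P, ι ⟨(a x : Ω), hP (a x).2⟩ = g₀ * ι ⟨x, hP x.2⟩ * g₀⁻¹)
    {k : ℕ} (hk : orderOf a = p ^ k) :
    ∃ g : G, (∃ j : ℕ, orderOf g = p ^ j) ∧
      ∀ x : P, ι ⟨(a x : Ω), hP (a x).2⟩ = g * ι ⟨x, hP x.2⟩ * g⁻¹ := by
  have Hpow : ∀ (m : ℕ) (x : P), ι ⟨((a ^ m) x : Ω), hP ((a ^ m) x).2⟩ =
      g₀ ^ m * ι ⟨x, hP x.2⟩ * (g₀ ^ m)⁻¹ := by
    intro m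
    induction m with
    | zero => intro x; simp
    | succ m ih =>
      intro x
      have e : (a ^ (m + 1)) x = (a ^ m) (a x) := by
        rw [pow_succ]; rfl
      rw [e, ih (a x), H x, pow_succ, mul_inv_rev]
      simp only [mul_assoc]
  have ho : orderOf g₀ ≠ 0 := (orderOf_pos g₀).ne'
  obtain ⟨e, he⟩ : ∃ e : ℕ, e = (orderOf g₀).factorization p := ⟨_, rfl⟩
  obtain ⟨n', hn'⟩ : ∃ n' : ℕ, n' = orderOf g₀ / p ^ e := ⟨_, rfl⟩
  have hmul : p ^ e * n' = orderOf g₀ := by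
    rw [hn', he]
    exact Nat.ordProj_mul_ordCompl_eq_self (orderOf g₀) p
  have hcopn : Nat.Coprime p n' := by
    rw [hn', he]
    exact Nat.coprime_ordCompl hp.out ho
  have hco : Nat.Coprime n' (p ^ k) := (Nat.Coprime.pow_left k hcopn).symm
  obtain ⟨m, hm0, hm1⟩ := Nat.chineseRemainder hco 0 1
  have hdvd : n' ∣ m := (Nat.modEq_zero_iff_dvd).1 hm0
  have hpow : (g₀ ^ m) ^ (p ^ e) = 1 := by
    rw [← pow_mul]
    apply orderOf_dvd_iff_pow_eq_one.mp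
    rw [← hmul, mul_comm]
    exact Nat.mul_dvd_mul hdvd dvd_rfl
  have hord : ∃ j : ℕ, orderOf (g₀ ^ m) = p ^ j := by
    obtain ⟨j, -, hj⟩ := (Nat.dvd_prime_pow hp.out).1 (orderOf_dvd_of_pow_eq_one hpow)
    exact ⟨j, hj⟩
  have ham : a ^ m = a := by
    have h2 : m ≡ 1 [MOD orderOf a] := by rw [hk]; exact hm1
    have h3 := pow_eq_pow_iff_modEq.mpr h2
    rw [h3, pow_one]
  refine ⟨g₀ ^ m, hord, fun x => ?_⟩
  have h := Hpow m x
  rw [ham] at h
  exact h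

theorem r1a : Cfsg.Agent.H90.TR.R1aStmt.{u} := by
  intro Ω _ S _ p _ F G _ _ ι hreal hM
  refine ⟨?_, ?_⟩
  · rintro P φ ⟨hP, hφ, k, -, h⟩
    exact (hreal.2 P hP φ hφ).2 ⟨k, h⟩
  · intro P hP
    rw [Subgroup.map_le_iff_le_comap, Subgroup.closure_le]
    rintro α ⟨k, hk⟩
    have hk' : orderOf (α : MulAut P) = p ^ k := by
      rw [Subgroup.orderOf_coe]
      exact hk
    obtain ⟨φ, hφ, hφf⟩ := (mem_autGroup_iff hP _).1 α.2
    have hφS : ∀ x : P, φ x ∈ S := (F.le_of_mem hφ).2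
    obtain ⟨g₀, hg₀⟩ := (hreal.2 P hP φ hφS).1 hφ
    have H : ∀ x : P, ι ⟨(((α : MulAut P) x : P) : Ω), hP ((α : MulAut P) x).2⟩ =
        g₀ * ι ⟨x, hP x.2⟩ * g₀⁻¹ := by
      intro x
      rw [← hg₀ x]
      congr 1
      apply Subtype.ext
      show (((α : MulAut P) x : P) : Ω) = φ x
      rw [hφf x, autFun_apply]
    obtain ⟨g, hg, Hg⟩ := exists_pPow_conj ι hP H hk'
    show (α : MulAut P) ∈ (conjSys ι hreal.1 (opPrimeGrp p G) S le_rfl hM).autGroup P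
    rw [mem_autGroup_iff hP, mor_conjSys_iff]
    refine ⟨hP, fun x hx => hP (autFun_mem _ hx), g, Subgroup.subset_closure hg, ?_⟩
    intro x hx hfx
    have h := Hg ⟨x, hx⟩
    rw [← h]
    congr 1
    apply Subtype.ext
    show autFun P (α : MulAut P) x = _
    rw [autFun_of_mem _ hx]

end Cfsg.Agent.H80.TR
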