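import Mathlib
import Cfsg.Agent.Lib.Helper96.TWDefs

/-!
# S5707-STD: standardisation of the frozen hypotheses (tensor power of a symplectic form in
characteristic 2 → the exchange model)
-/

set_option autoImplicit false

namespace Cfsg.Agent.H80.TW

open Cfsg Cfsg.Geo Matrix Cfsg.Agent.Lib.Helper96.TW
open scoped MatrixGroups

universe u

theorem two_eq_zero_of_card_not_odd {F : Type u} [Field F] [Fintype F]
    (h : ¬ Odd (Fintype.card F)) : (2 : F) = 0 := by
  have h1 : ringChar F = 2 := by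
    rw [FiniteField.even_card_iff_char_two]
    exact Nat.even_iff.mp (Nat.not_odd_iff_even.1 h)
  have h2 : CharP F 2 := ringChar.of_eq h1
  exact_mod_cast CharP.cast_eq_zero F 2

theorem glReindex_mulVec {F : Type u} [Field F] {n k t : ℕ} (e : Fin n ≃ Idx k t)
    (g : GL (Idx k t) F) (x : Idx k t → F) :
    ((glReindex (F := F) e.symm g : GL (Fin n) F) : Matrix (Fin n) (Fin n) F) *ᵥ (x ∘ e) =
      ((g : Matrix (Idx k t) (Idx k t) F) *ᵥ x) ∘ e := by
  have h : ((glReindex (F := F) e.symm g : GL (Fin n) F) : Matrix (Fin n) (Fin n) F) =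
      Matrix.reindex e.symm e.symm (g : Matrix (Idx k t) (Idx k t) F) := rfl
  rw [h]
  funext i
  simp only [Matrix.mulVec, dotProduct, Matrix.reindex_apply, Matrix.submatrix_apply,
    Function.comp_apply, Equiv.symm_symm]
  exact Fintype.sum_equiv e _ _ (fun j => rfl)

theorem map_conj_mul_of_mem {G : Type*} [Group G] (S : Subgroup G) (P T : G) (hT : T ∈ S) :
    S.map (MulAut.conj (P * T)).toMonoidHom = S.map (MulAut.conj P).toMonoidHom := by
  ext x
  simp only [Subgroup.mem_map, MulEquiv.coe_toMonoidHom, MulAut.conj_apply]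
  constructor
  · rintro ⟨s, hs, rfl⟩
    exact ⟨T * s * T⁻¹, S.mul_mem (S.mul_mem hT hs) (S.inv_mem hT), by group⟩
  · rintro ⟨s, hs, rfl⟩
    exact ⟨T⁻¹ * s * T, S.mul_mem (S.mul_mem (S.inv_mem hT) hs) hT, by group⟩

theorem pureM_transpose {F : Type u} [Field F] {k t : ℕ}
    (gs : Fin t → Matrix (Fin k) (Fin k) F) :
    (pureM gs)ᵀ = pureM (fun i => (gs i)ᵀ) := by
  ext x y
  rfl

theorem pureM_Jm (F : Type u) [Field F] (k t : ℕ) (a b : Idx k t) :
    pureM (fun _ : Fin t => Jm F k) a b = if b = revI a then 1 else 0 := by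
  unfold pureM Jm
  rw [Fintype.prod_ite_zero]
  have h : (∀ i, b i = (a i).rev) ↔ b = revI a := by
    constructor
    · intro h; funext i; exact h i
    · intro h i; rw [h]; rfl
  simp only [Finset.prod_const_one, h]

theorem dot_conj {m : Type*} [Fintype m] {F : Type u} [Field F] (M N : Matrix m m F)
    (x y : m → F) : (M *ᵥ x) ⬝ᵥ (N *ᵥ (M *ᵥ y)) = x ⬝ᵥ ((Mᵀ * N * M) *ᵥ y) := by
  rw [← Matrix.mulVec_mulVec, ← Matrix.mulVec_mulVec, Matrix.dotProduct_mulVec x Mᵀ,
    Matrix.vecMul_transpose]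

theorem std : StStd.{u} := by
  intro hAlg hSympB F _ _ n hn13 Q hQ hodd k t ht hk4 e P f₁ hf₁ hT hpure
  have h2 : (2 : F) = 0 := two_eq_zero_of_card_not_odd hodd
  have hn : n = k ^ t := by simpa using Fintype.card_congr e
  have hk1 : 1 ≤ k := by
    rcases Nat.eq_zero_or_pos k with h0 | h0
    · subst h0
      rw [zero_pow (by omega)] at hn
      omega
    · exact h0
  obtain ⟨hk24, R, hR⟩ := hSympB F k h2 hk1 hk4 f₁ hf₁
  have hcases : Cases k t := by
    rcases hk24 with rfl | rfl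
    · left
      refine ⟨rfl, ?_⟩
      by_contra hlt
      have h3 : t = 2 ∨ t = 3 := by omega
      rcases h3 with rfl | rfl <;> norm_num at hn <;> omega
    · right; exact ⟨rfl, ht⟩
  refine ⟨hcases, h2, ?_⟩
  obtain ⟨-, -, -, -, -, -, -, hA8, hA9, -, -, -⟩ := hAlg F k t
  have hRR : (R : Matrix (Fin k) (Fin k) F) *
      ((R⁻¹ : GL (Fin k) F) : Matrix (Fin k) (Fin k) F) = 1 := by
    rw [← Units.val_mul, mul_inv_cancel, Units.val_one]
  have hRR' : ((R⁻¹ : GL (Fin k) F) : Matrix (Fin k) (Fin k) F) *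
      (R : Matrix (Fin k) (Fin k) F) = 1 := by
    rw [← Units.val_mul, inv_mul_cancel, Units.val_one]
  let T : GL (Idx k t) F := ⟨pureM (fun _ => (R : Matrix (Fin k) (Fin k) F)),
    pureM (fun _ => ((R⁻¹ : GL (Fin k) F) : Matrix (Fin k) (Fin k) F)),
    by rw [hA8]; simp only [hRR]; exact hA9, by rw [hA8]; simp only [hRR']; exact hA9⟩
  have hTval : (T : Matrix (Idx k t) (Idx k t) F) =
      pureM (fun _ => (R : Matrix (Fin k) (Fin k) F)) := rfl
  have hTmem : T ∈ tensorWreathStandard k t F :=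
    Subgroup.subset_closure (Or.inl ⟨fun _ => R, fun x y => rfl⟩)
  obtain ⟨c, hc, hform⟩ := hT
  have hP' : ∀ x : Idx k t → F,
      ((P * glReindex (F := F) e.symm T : GL (Fin n) F) : Matrix (Fin n) (Fin n) F) *ᵥ (x ∘ e) =
        (P : Matrix (Fin n) (Fin n) F) *ᵥ (((T : Matrix (Idx k t) (Idx k t) F) *ᵥ x) ∘ e) := by
    intro x
    rw [Units.val_mul, ← Matrix.mulVec_mulVec, glReindex_mulVec]
  refine ⟨P * glReindex (F := F) e.symm T, c, hc, ?_, ?_, ?_⟩
  · unfold tensorWreathSubgroup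
    exact map_conj_mul_of_mem _ P _ (Subgroup.mem_map_of_mem _ hTmem)
  · intro x y
    rw [hP', hP', hform]
    congr 1
    have e1 : ∑ a, ∑ b, ((T : Matrix (Idx k t) (Idx k t) F) *ᵥ x) a *
          (∏ i, gramMatrix f₁ (a i) (b i)) * id (((T : Matrix (Idx k t) (Idx k t) F) *ᵥ y) b) =
        ((T : Matrix (Idx k t) (Idx k t) F) *ᵥ x) ⬝ᵥ
          (pureM (fun _ : Fin t => gramMatrix f₁) *ᵥ
            ((T : Matrix (Idx k t) (Idx k t) F) *ᵥ y)) := by
      simp only [dotProduct, Matrix.mulVec, pureM, id, Finset.mul_sum, mul_assoc]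
    rw [e1, dot_conj, hTval, pureM_transpose, hA8, hA8]
    simp only [hR]
    simp only [dotProduct, Matrix.mulVec, pureM_Jm]
    apply Finset.sum_congr rfl
    intro a _
    congr 1
    simp
  · intro a
    rw [hP']
    have e2 : (T : Matrix (Idx k t) (Idx k t) F) *ᵥ (Pi.single a 1) =
        fun b => ∏ i, (fun p => (R : Matrix (Fin k) (Fin k) F) p (a i)) (b i) := by
      funext b
      rw [Matrix.mulVec_single_one]
      rfl
    rw [e2]
    exact hpure (fun i p => (R : Matrix (Fin k) (Fin k) F) p (a i))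

example : Cfsg.Agent.Lib.Helper96.TW.StStd.{u} := Cfsg.Agent.H80.TW.std.{u}

end Cfsg.Agent.H80.TW
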