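import Mathlib
import Cfsg.Agent.H74.TsDefs

/-!
# TS-K1A (piece of S2948): some conjugate of `D` is not centralized by `J` modulo `C`
-/

set_option autoImplicit false
open Cfsg
open scoped commutatorElement

namespace Cfsg.Agent.H80.Ts

universe u

/-- K1A. -/
theorem k1a : Cfsg.Agent.H74.Ts.StK1A.{u} := by
  intro X _ _ C M J D hC hM hJM hmin hCD hidx hMD hnot
  by_contra hall
  push Not at hall
  -- the subgroup of elements centralizing `D` modulo `C`
  let R : Subgroup X :=
    { carrier := {g | ∀ d ∈ D, d * g * d⁻¹ * g⁻¹ ∈ C}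
      one_mem' := by
        intro d _
        have : d * 1 * d⁻¹ * (1 : X)⁻¹ = 1 := by group
        rw [this]; exact C.one_mem
      mul_mem' := by
        intro g h hg hh d hd
        have : d * (g * h) * d⁻¹ * (g * h)⁻¹
            = (d * g * d⁻¹ * g⁻¹) * (g * (d * h * d⁻¹ * h⁻¹) * g⁻¹) := by group
        rw [this]
        exact C.mul_mem (hg d hd) (hC.conj_mem _ (hh d hd) g)
      inv_mem' := by
        intro g hg d hd
        have : d * g⁻¹ * d⁻¹ * g⁻¹⁻¹ = g⁻¹ * (d * g * d⁻¹ * g⁻¹)⁻¹ * g⁻¹⁻¹ := by group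
        rw [this]
        exact hC.conj_mem _ (C.inv_mem (hg d hd)) g⁻¹ }
  have hRmem : ∀ g, g ∈ R ↔ ∀ d ∈ D, d * g * d⁻¹ * g⁻¹ ∈ C := fun g => Iff.rfl
  -- every conjugate of an element of `J` lies in `R`
  have hconj : ∀ x : X, ∀ j ∈ J, x⁻¹ * j * x ∈ R := by
    intro x j hj
    let f : X →* X := (MulAut.conj x).toMonoidHom
    have hf : Function.Injective f := (MulAut.conj x).injective
    have hfx : ∀ y, f y = x * y * x⁻¹ := fun y => rfl
    have hCmap : C.map f = C := by
      ext y
      constructor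
      · rintro ⟨c, hc, rfl⟩
        rw [hfx]; exact hC.conj_mem c hc x
      · intro hy
        refine ⟨x⁻¹ * y * x, ?_, ?_⟩
        · have := hC.conj_mem y hy x⁻¹
          simpa using this
        · rw [hfx]; group
    have h1 : C ≤ D.map f := by
      rw [← hCmap]; exact Subgroup.map_mono hCD
    have h2 : C.relIndex (D.map f) = 3 := by
      have := Subgroup.relIndex_map_map_of_injective C D hf
      rw [hCmap] at this
      rw [this]; exact hidx
    have h3 : M ≤ Subgroup.normalizer ((D.map f : Subgroup X) : Set X) := by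
      intro m hm
      have hmem : ∀ m' ∈ M, ∀ y ∈ D.map f, m' * y * m'⁻¹ ∈ D.map f := by
        intro m' hm' y hy
        obtain ⟨d, hd, rfl⟩ := hy
        have hm2 : x⁻¹ * m' * x ∈ M := by
          have := hM.conj_mem m' hm' x⁻¹
          simpa using this
        have hn := (Subgroup.mem_normalizer_iff.mp (hMD hm2) d).mp hd
        refine ⟨x⁻¹ * m' * x * d * (x⁻¹ * m' * x)⁻¹, hn, ?_⟩
        rw [hfx, hfx]; group
      rw [Subgroup.mem_normalizer_iff]
      intro y
      constructor
      · intro hy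
        exact hmem m hm y hy
      · intro hy
        have := hmem m⁻¹ (M.inv_mem hm) _ hy
        have e : m⁻¹ * (m * y * m⁻¹) * m⁻¹⁻¹ = y := by group
        rwa [e] at this
    have h4 := hall (D.map f) h1 h2 h3
    rw [hRmem]
    intro d hd
    have h5 : ⁅f d, j⁆ ∈ C :=
      h4 (Subgroup.commutator_mem_commutator (Subgroup.mem_map_of_mem f hd) hj)
    rw [commutatorElement_def, hfx] at h5
    have h6 := hC.conj_mem _ h5 x⁻¹
    have e : x⁻¹ * (x * d * x⁻¹ * j * (x * d * x⁻¹)⁻¹ * j⁻¹) * x⁻¹⁻¹
        = d * (x⁻¹ * j * x) * d⁻¹ * (x⁻¹ * j * x)⁻¹ := by group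
    rwa [e] at h6
  -- the normal core-like subgroup: the normal closure of `J` is inside `R`
  have hNR : Subgroup.normalClosure (J : Set X) ≤ R := by
    rw [Subgroup.normalClosure]
    rw [Subgroup.closure_le]
    intro y hy
    rw [Group.mem_conjugatesOfSet_iff] at hy
    obtain ⟨j, hj, hconjy⟩ := hy
    rw [isConj_iff] at hconjy
    obtain ⟨c, rfl⟩ := hconjy
    have := hconj c⁻¹ j hj
    simpa using this
  have hMR : M ≤ R :=
    (hmin _ Subgroup.normalClosure_normal Subgroup.subset_normalClosure).trans hNR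
  apply hnot
  rw [Subgroup.commutator_le]
  intro d hd m hm
  rw [commutatorElement_def]
  exact (hRmem m).mp (hMR hm) d hd

example : Cfsg.Agent.H74.Ts.StK1A.{u} := k1a

end Cfsg.Agent.H80.Ts
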