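import Mathlib
import Cfsg.Agent.H74.TsDefs

/-!
# TS-K2 (piece of S2948): `K := ⟨odd elements of U⟩`
-/

set_option autoImplicit false
open Cfsg
open scoped commutatorElement

namespace Cfsg.Agent.H80.Ts

universe u

/-- K2. -/
theorem k2 : Cfsg.Agent.H74.Ts.StK2.{u} := by
  intro X _ _ Q J U hQ hQ2 hQU hidx hJU hUJ
  obtain ⟨K, hKdef⟩ :
      ∃ K : Subgroup X, K = Subgroup.closure {g : X | g ∈ U ∧ Odd (orderOf g)} := ⟨_, rfl⟩
  have hKU : K ≤ U := by
    rw [hKdef, Subgroup.closure_le]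
    intro g hg; exact hg.1
  have hgenK : ∀ g ∈ U, Odd (orderOf g) → g ∈ K := by
    intro g hg ho
    rw [hKdef]; exact Subgroup.subset_closure ⟨hg, ho⟩
  -- (a) `K` is generated by its elements of odd order
  have ha : Subgroup.closure {g : X | g ∈ K ∧ Odd (orderOf g)} = K := by
    apply le_antisymm
    · rw [Subgroup.closure_le]; intro g hg; exact hg.1
    · conv_lhs => rw [hKdef]
      apply Subgroup.closure_mono
      intro g hg
      exact ⟨hgenK g hg.1 hg.2, hg.2⟩
  -- the normalizer of `U` normalizes `K`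
  have hnorm1 : ∀ n ∈ Subgroup.normalizer (U : Set X), ∀ h ∈ K, n * h * n⁻¹ ∈ K := by
    intro n hn h hh
    have hle : K ≤ K.comap (MulAut.conj n).toMonoidHom := by
      conv_lhs => rw [hKdef]
      rw [Subgroup.closure_le]
      intro g hg
      show (MulAut.conj n).toMonoidHom g ∈ K
      apply hgenK
      · exact (Subgroup.mem_normalizer_iff.mp hn g).mp hg.1
      · have : orderOf ((MulAut.conj n).toMonoidHom g) = orderOf g :=
          orderOf_injective _ (MulAut.conj n).injective g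
        rw [this]; exact hg.2
    exact hle hh
  have hnorm : Subgroup.normalizer (U : Set X) ≤ Subgroup.normalizer (K : Set X) := by
    intro n hn
    rw [Subgroup.mem_normalizer_iff]
    intro h
    constructor
    · exact hnorm1 n hn h
    · intro hh
      have := hnorm1 n⁻¹ (inv_mem hn) _ hh
      have e : n⁻¹ * (n * h * n⁻¹) * n⁻¹⁻¹ = h := by group
      rwa [e] at this
  have hQN : Q ≤ Subgroup.normalizer (K : Set X) :=
    (hQU.trans Subgroup.le_normalizer).trans hnorm
  have hJN : J ≤ Subgroup.normalizer (K : Set X) := hJU.trans hnorm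
  -- cubes of elements of `U` lie in `Q`
  have hpow3 : ∀ u ∈ U, u ^ 3 ∈ Q := by
    intro u hu
    have : (Q.subgroupOf U).Normal := hQ.subgroupOf U
    have h := Subgroup.pow_index_mem (Q.subgroupOf U) (⟨u, hu⟩ : U)
    have h3 : (Q.subgroupOf U).index = 3 := hidx
    rw [h3, Subgroup.mem_subgroupOf] at h
    simpa using h
  -- (c) `K ⊔ Q = U`
  have hKQ : K ⊔ Q = U := by
    apply le_antisymm (sup_le hKU hQU)
    intro u hu
    have h3 := hpow3 u hu
    obtain ⟨k, hk⟩ := hQ2 ⟨u ^ 3, h3⟩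
    have hk' : (u ^ 3) ^ (2 ^ k) = 1 := by
      have := congrArg Subtype.val hk
      simpa using this
    have hk4 : (u ^ 3) ^ (4 ^ k) = 1 := by
      have : (4 : ℕ) ^ k = 2 ^ k * 2 ^ k := by rw [← mul_pow]; norm_num
      rw [this, pow_mul, hk', one_pow]
    have hmod : 4 ^ k % 3 = 1 := by
      rw [Nat.pow_mod]; simp
    obtain ⟨t, ht⟩ : ∃ t, 4 ^ k = 3 * t + 1 := ⟨4 ^ k / 3, by omega⟩
    have hv3 : (u ^ (4 ^ k)) ^ 3 = 1 := by
      rw [← pow_mul, mul_comm, pow_mul]; exact hk4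
    have hvodd : Odd (orderOf (u ^ (4 ^ k))) := by
      have hdvd := orderOf_dvd_of_pow_eq_one hv3
      rcases (Nat.dvd_prime Nat.prime_three).mp hdvd with h | h
      · rw [h]; exact odd_one
      · rw [h]; decide
    have hvK : u ^ (4 ^ k) ∈ K := hgenK _ (U.pow_mem hu _) hvodd
    have hu_eq : u = ((u ^ 3) ^ t)⁻¹ * u ^ (4 ^ k) := by
      rw [ht, pow_add, pow_mul, pow_one, inv_mul_cancel_left]
    rw [hu_eq]
    exact Subgroup.mul_mem _ (Subgroup.mem_sup_right (Q.inv_mem (Q.pow_mem h3 t)))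
      (Subgroup.mem_sup_left hvK)
  -- (d) the index
  have hd : (K ⊓ Q).relIndex K = 3 := by
    rw [Subgroup.inf_relIndex_left, ← Subgroup.relIndex_sup_right (K := Q) (H := K), hKQ]
    exact hidx
  -- (e) `[K, J] = K`
  obtain ⟨P, hPdef⟩ : ∃ P : Subgroup X, P = ⁅K, J⁆ := ⟨_, rfl⟩
  have hPK : P ≤ K := by
    rw [hPdef, Subgroup.commutator_le]
    intro k hk j hj
    rw [commutatorElement_def]
    have h1 := (Subgroup.mem_normalizer_iff.mp (hJN hj) k⁻¹).mp (K.inv_mem hk)
    have : k * j * k⁻¹ * j⁻¹ = k * (j * k⁻¹ * j⁻¹) := by group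
    rw [this]; exact K.mul_mem hk h1
  have hPnorm : ∀ k ∈ K, ∀ p ∈ P, k * p * k⁻¹ ∈ P := by
    intro k hk p hp
    have hle : P ≤ P.comap (MulAut.conj k).toMonoidHom := by
      conv_lhs => rw [hPdef, Subgroup.commutator_def]
      rw [Subgroup.closure_le]
      rintro _ ⟨k', hk', j, hj, rfl⟩
      show k * ⁅k', j⁆ * k⁻¹ ∈ P
      have e : k * ⁅k', j⁆ * k⁻¹ = ⁅k * k', j⁆ * ⁅k, j⁆⁻¹ := by
        simp only [commutatorElement_def]; group
      rw [e, hPdef]
      exact Subgroup.mul_mem _ (Subgroup.commutator_mem_commutator (K.mul_mem hk hk') hj)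
        (Subgroup.inv_mem _ (Subgroup.commutator_mem_commutator hk hj))
    exact hle hp
  have hUPQ : U ≤ P ⊔ Q := by
    have h1 : ⁅U, J⁆ ≤ P ⊔ Q := by
      rw [Subgroup.commutator_le]
      intro u hu j hj
      have hu' : u ∈ ((K ⊔ Q : Subgroup X) : Set X) := by
        rw [hKQ]; exact hu
      rw [Subgroup.mul_normal] at hu'
      obtain ⟨k, hk, q, hq, rfl⟩ := Set.mem_mul.mp hu'
      have e : ⁅k * q, j⁆ = (k * (q * (j * q⁻¹ * j⁻¹)) * k⁻¹) * ⁅k, j⁆ := by
        simp only [commutatorElement_def]; group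
      rw [e]
      apply Subgroup.mul_mem
      · apply Subgroup.mem_sup_right
        apply hQ.conj_mem
        exact Q.mul_mem hq (hQ.conj_mem _ (Q.inv_mem hq) j)
      · apply Subgroup.mem_sup_left
        rw [hPdef]; exact Subgroup.commutator_mem_commutator hk hj
    calc U = ⁅U, J⁆ ⊔ Q := hUJ.symm
      _ ≤ P ⊔ Q := sup_le h1 le_sup_right
  have hoddP : ∀ g ∈ K, Odd (orderOf g) → g ∈ P := by
    intro g hg hodd
    have hg' : g ∈ ((P ⊔ Q : Subgroup X) : Set X) := hUPQ (hKU hg)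
    rw [Subgroup.mul_normal] at hg'
    obtain ⟨p, hp, q, hq, rfl⟩ := Set.mem_mul.mp hg'
    have hqK : q ∈ K := by
      have : q = p⁻¹ * (p * q) := by group
      rw [this]; exact K.mul_mem (K.inv_mem (hPK hp)) hg
    have hind : ∀ m : ℕ, (p * q) ^ m * (q ^ m)⁻¹ ∈ P := by
      intro m
      induction m with
      | zero => simp
      | succ m ih =>
        have hqm := hPnorm _ (K.pow_mem hqK m) p hp
        have e : (p * q) ^ (m + 1) * (q ^ (m + 1))⁻¹
            = ((p * q) ^ m * (q ^ m)⁻¹) * (q ^ m * p * (q ^ m)⁻¹) := by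
          rw [pow_succ, pow_succ]
          generalize (p * q) ^ m = A
          generalize q ^ m = B
          group
        rw [e]
        exact P.mul_mem ih hqm
    obtain ⟨a, ha⟩ := hQ2 ⟨q, hq⟩
    have ha' : q ^ (2 ^ a) = 1 := by
      have := congrArg Subtype.val ha
      simpa using this
    have h2a : (p * q) ^ (2 ^ a) ∈ P := by
      have := hind (2 ^ a)
      rw [ha'] at this
      simpa using this
    have hcop : Nat.Coprime (2 ^ a) (orderOf (p * q)) :=
      Nat.Coprime.pow_left a (Nat.coprime_two_left.mpr hodd)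
    obtain ⟨m, hm⟩ := exists_pow_eq_self_of_coprime hcop
    rw [← hm]; exact P.pow_mem h2a m
  have hKP : K ≤ P := by
    conv_lhs => rw [hKdef]
    rw [Subgroup.closure_le]
    intro g hg
    exact hoddP g (hgenK g hg.1 hg.2) hg.2
  have he : ⁅K, J⁆ = K := by
    rw [← hPdef]; exact le_antisymm hPK hKP
  exact ⟨K, ha, he, hd, hQN, hKQ⟩

example : Cfsg.Agent.H74.Ts.StK2.{u} := k2

end Cfsg.Agent.H80.Ts
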