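import Mathlib
import Cfsg.Prelude.Def_Classical
import Cfsg.Agent.H91.U62Defs

/-!
# Fusion of points and of products of two points in `SU₆(2)` (team piece S5452-FUS2)

Given the Levi piece (conjugation by `SL₃(4)` inside the stabilizer of a maximal totally
isotropic subspace), all points `xmat (v v*)` are conjugate, and all products of two distinct
points are conjugate.
-/

set_option autoImplicit false

namespace Cfsg.Agent.H80.U62

open Subgroup Cfsg.Agent.H91.U62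

universe u

theorem conj_vv {K : Type*} [Field K] (h2 : (2 : K) = 0) (A : Matrix (Fin 3) (Fin 3) K)
    (v : Fin 3 → K) : A * vv v * cj A = vv (A.mulVec v) := by
  have hsq : ∀ x y : K, (x + y) ^ 2 = x ^ 2 + y ^ 2 := by
    intro x y; linear_combination (x * y) * h2
  ext i j
  simp only [Matrix.mul_apply, vv, cj, Matrix.of_apply, Matrix.mulVec, dotProduct,
    Fin.sum_univ_three]
  rw [hsq, hsq]
  ring

theorem xmat_mul {K : Type*} [Field K] (h2 : (2 : K) = 0) (M M' : Matrix (Fin 3) (Fin 3) K) :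
    xmat M * xmat M' = xmat (M + M') := by
  have hz : M.submatrix r3 r3 * M'.submatrix r3 r3 = 0 := by
    ext i j
    rw [Matrix.mul_apply, Fin.sum_univ_six]
    have e0 : r3 0 = 0 := rfl
    have e1 : r3 1 = 1 := rfl
    have e2 : r3 2 = 2 := rfl
    have e3 : r3 3 = 0 := rfl
    have e4 : r3 4 = 1 := rfl
    have e5 : r3 5 = 2 := rfl
    simp only [Matrix.submatrix_apply, e0, e1, e2, e3, e4, e5, Matrix.zero_apply]
    linear_combination (M (r3 i) 0 * M' 0 (r3 j) + M (r3 i) 1 * M' 1 (r3 j) +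
      M (r3 i) 2 * M' 2 (r3 j)) * h2
  unfold xmat
  have hexp : (1 + M.submatrix r3 r3) * (1 + M'.submatrix r3 r3) =
      1 + (M.submatrix r3 r3 + M'.submatrix r3 r3) + M.submatrix r3 r3 * M'.submatrix r3 r3 := by
    noncomm_ring
  rw [hexp, hz, add_zero]
  rfl

theorem vv_smul {K : Type*} [Field K] (c : K) (hc : c ^ 3 = 1) (v : Fin 3 → K) :
    vv (c • v) = vv v := by
  ext i j
  simp only [vv, Matrix.of_apply, Pi.smul_apply, smul_eq_mul]
  linear_combination (v i * v j ^ 2) * hc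

theorem exists_sl_cols {K : Type*} [Field K] {v w : Fin 3 → K}
    (h : LinearIndependent K ![v, w]) :
    ∃ B : Matrix (Fin 3) (Fin 3) K, B.det = 1 ∧ B.mulVec ![0, 1, 0] = v ∧
      B.mulVec ![0, 0, 1] = w := by
  classical
  obtain ⟨x, hx⟩ := exists_linearIndependent_cons_of_lt_finrank (R := K) (v := ![v, w]) h
    (by rw [Module.finrank_fin_fun]; norm_num)
  obtain ⟨B₀, hB₀⟩ : ∃ B₀ : Matrix (Fin 3) (Fin 3) K,
      B₀ = Matrix.of (fun i j => (Fin.cons x ![v, w] : Fin 3 → Fin 3 → K) j i) := ⟨_, rfl⟩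
  have hcol : B₀.col = (Fin.cons x ![v, w] : Fin 3 → Fin 3 → K) := by
    rw [hB₀]; ext j i; rfl
  have hunit : IsUnit B₀ := Matrix.linearIndependent_cols_iff_isUnit.mp (hcol ▸ hx)
  have hdet : B₀.det ≠ 0 := ((Matrix.isUnit_iff_isUnit_det B₀).mp hunit).ne_zero
  have h1 : ∀ i, B₀ i 1 = v i := by intro i; rw [hB₀]; rfl
  have h2 : ∀ i, B₀ i 2 = w i := by intro i; rw [hB₀]; rfl
  refine ⟨B₀ * Matrix.diagonal ![B₀.det⁻¹, 1, 1], ?_, ?_, ?_⟩
  · rw [Matrix.det_mul, Matrix.det_diagonal, Fin.prod_univ_three]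
    simp [hdet]
  · ext i
    simp [Matrix.mulVec, dotProduct, Fin.sum_univ_three, Matrix.mul_apply, Matrix.diagonal_apply,
      h1]
  · ext i
    simp [Matrix.mulVec, dotProduct, Fin.sum_univ_three, Matrix.mul_apply, Matrix.diagonal_apply,
      h2]

theorem exists_sl_map_two {K : Type*} [Field K] {v w v' w' : Fin 3 → K}
    (h : LinearIndependent K ![v, w]) (h' : LinearIndependent K ![v', w']) :
    ∃ A : Matrix (Fin 3) (Fin 3) K, A.det = 1 ∧ A.mulVec v = v' ∧ A.mulVec w = w' := by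
  classical
  obtain ⟨B, hB, hBv, hBw⟩ := exists_sl_cols h
  obtain ⟨B', hB', hBv', hBw'⟩ := exists_sl_cols h'
  have hadj : B.adjugate * B = 1 := by rw [Matrix.adjugate_mul, hB, one_smul]
  refine ⟨B' * B.adjugate, ?_, ?_, ?_⟩
  · rw [Matrix.det_mul, Matrix.det_adjugate, hB, hB']; simp
  · rw [← hBv, Matrix.mulVec_mulVec, Matrix.mul_assoc, hadj, Matrix.mul_one, hBv']
  · rw [← hBw, Matrix.mulVec_mulVec, Matrix.mul_assoc, hadj, Matrix.mul_one, hBw']

theorem exists_sl_map_one {K : Type*} [Field K] {v w : Fin 3 → K} (hv : v ≠ 0) (hw : w ≠ 0) :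
    ∃ A : Matrix (Fin 3) (Fin 3) K, A.det = 1 ∧ A.mulVec v = w := by
  have hfin : 1 < Module.finrank K (Fin 3 → K) := by rw [Module.finrank_fin_fun]; norm_num
  obtain ⟨y, hy⟩ := exists_linearIndependent_pair_of_one_lt_finrank hfin hv
  obtain ⟨y', hy'⟩ := exists_linearIndependent_pair_of_one_lt_finrank hfin hw
  obtain ⟨A, hA, hAv, -⟩ := exists_sl_map_two hy hy'
  exact ⟨A, hA, hAv⟩

theorem fus2 (hl : LeviStmt.{u}) : Fus2Stmt.{u} := by
  intro K _ _ hK
  have h4 : (4 : K) = 0 := by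
    have h := Nat.cast_card_eq_zero K
    rw [hK] at h
    exact_mod_cast h
  have h2 : (2 : K) = 0 := by
    have h : (2 : K) * 2 = 0 := by rw [← h4]; norm_num
    exact mul_self_eq_zero.mp h
  have h3 : ∀ x : K, x ≠ 0 → x ^ 3 = 1 := by
    intro x hx
    have h := FiniteField.pow_card_sub_one_eq_one x hx
    rw [hK] at h
    exact h
  have hindep : ∀ (s t : ↥(Cfsg.SU 6 K 2)) (v w : Fin 3 → K), v ≠ 0 → w ≠ 0 →
      (s.1.1 : Matrix (Fin 6) (Fin 6) K) = xmat (vv v) →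
      (t.1.1 : Matrix (Fin 6) (Fin 6) K) = xmat (vv w) → s ≠ t →
      LinearIndependent K ![v, w] := by
    intro s t v w hv hw hs ht hst
    rw [LinearIndependent.pair_iff' hv]
    intro a ha
    apply hst
    have ha0 : a ≠ 0 := by
      rintro rfl
      rw [zero_smul] at ha
      exact hw ha.symm
    apply Subtype.ext
    apply Subtype.ext
    rw [hs, ht, ← ha, vv_smul a (h3 a ha0)]
  refine ⟨?_, ?_⟩
  · rintro s ⟨v, hv, hs⟩ t ⟨w, hw, ht⟩
    obtain ⟨A, hA, hAv⟩ := exists_sl_map_one hv hw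
    obtain ⟨g, hg⟩ := hl hK A hA
    refine isConj_iff.mpr ⟨g, hg (vv v) s t hs ?_⟩
    rw [conj_vv h2, hAv]
    exact ht
  · rintro s ⟨v, hv, hs⟩ t ⟨w, hw, ht⟩ s' ⟨v', hv', hs'⟩ t' ⟨w', hw', ht'⟩ hst hst'
    have hind := hindep s t v w hv hw hs ht hst
    have hind' := hindep s' t' v' w' hv' hw' hs' ht' hst'
    obtain ⟨A, hA, hAv, hAw⟩ := exists_sl_map_two hind hind'
    obtain ⟨g, hg⟩ := hl hK A hA
    refine isConj_iff.mpr ⟨g, hg (vv v + vv w) (s * t) (s' * t') ?_ ?_⟩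
    · change (s.1.1 : Matrix (Fin 6) (Fin 6) K) * t.1.1 = _
      rw [hs, ht, xmat_mul h2]
    · rw [Matrix.mul_add, Matrix.add_mul, conj_vv h2, conj_vv h2, hAv, hAw]
      change (s'.1.1 : Matrix (Fin 6) (Fin 6) K) * t'.1.1 = _
      rw [hs', ht', xmat_mul h2]

example (hl : LeviStmt.{u}) : Fus2Stmt.{u} := fus2 hl

end Cfsg.Agent.H80.U62
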