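import Mathlib
import Cfsg.Agent.H77.UfDefs
import Cfsg.Agent.H7.Unitary

/-!
# S2149, piece UF-CENT (helper80, for helper77)

The centralizer in `SU₃(5)` of the element with matrix `B7` injects into the set of unitary
determinant-one elements of `F25[B7]` (twin of `H82.U4Cent.cent_le`).
-/

set_option autoImplicit false

namespace Cfsg.Agent.H80.Uf

open Cfsg Matrix
open Cfsg.Agent.H77.Uf

theorem det3_eq_det (M : Matrix (Fin 3) (Fin 3) F25) : det3 M = M.det := by
  rw [Matrix.det_fin_three]
  rfl

/-- **UF-CENT**. -/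
theorem cent (hCyc : StCyc) (hCount : StCount) : StCent := by
  intro a ha
  unfold StCount at hCount
  generalize hS : (Finset.univ.filter (fun x : F25 × F25 × F25 =>
    det3 (T3 x) = 1 ∧ (T3 x)ᵀ * (T3 x).map (fun y => y ^ 5) = 1)) = S at hCount
  have hfacts : ∀ g : ↥(Subgroup.centralizer ({a} : Set SU35)),
      ∃ x : F25 × F25 × F25, g.1.1.1 = T3 x := by
    intro g
    have hcomm : a * g.1 = g.1 * a := Subgroup.mem_centralizer_iff.mp g.2 a rfl
    have hM : g.1.1.1 * B7 = B7 * g.1.1.1 := by
      have h2 : (g.1 * a).1.1 = (a * g.1).1.1 := by rw [hcomm]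
      have h3 : g.1.1.1 * a.1.1 = a.1.1 * g.1.1.1 := h2
      rwa [ha] at h3
    exact hCyc _ hM
  choose X hX using hfacts
  have hU : ∀ g : ↥(Subgroup.centralizer ({a} : Set SU35)),
      g.1.1.1ᵀ * g.1.1.1.map (fun y => y ^ 5) = 1 := by
    intro g
    exact Cfsg.Agent.H7.GUI_transpose_mul_map (by norm_num)
      (Matrix.SpecialLinearGroup.toGL g.1.1) g.1.2
  have hmem : ∀ g, X g ∈ S := by
    intro g
    rw [← hS, Finset.mem_filter]
    refine ⟨Finset.mem_univ _, ?_, ?_⟩
    · rw [← hX g, det3_eq_det]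
      exact g.1.1.2
    · rw [← hX g]
      exact hU g
  have hinj : Function.Injective (fun g => (⟨X g, hmem g⟩ : {x // x ∈ S})) := by
    intro g g' hgg
    have hx : X g = X g' := congrArg Subtype.val hgg
    have hMM : g.1.1.1 = g'.1.1.1 := by rw [hX g, hX g', hx]
    exact Subtype.ext (Subtype.ext (Subtype.ext hMM))
  have hle := Nat.card_le_card_of_injective _ hinj
  have h21 : Nat.card {x // x ∈ S} ≤ 21 := by
    rw [Nat.card_eq_fintype_card, Fintype.card_coe]
    exact hCount
  exact hle.trans h21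

example (hCyc : StCyc) (hCount : StCount) : StCent := cent hCyc hCount

end Cfsg.Agent.H80.Uf
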