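import Mathlib
import Cfsg.Agent.H77.UfDefs

/-!
# S2149, piece UF-CYC (helper80, for helper77)

The commutant of the cyclic matrix `B7` over `F25` is its polynomial algebra `{T3 x}`:
`e₃`, `B7 e₃`, `B7² e₃` form a basis (explicit inverse, checked by `decide`), so a matrix
commuting with `B7` is determined by its last column.  (Twin of `H51.U4Cyc`.)
-/

set_option autoImplicit false

universe u

namespace Cfsg.Agent.H80.Uf

open Cfsg Matrix
open Cfsg.Agent.H77.Uf

/-- the column vector `e₃` -/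
def e3 : Matrix (Fin 3) (Fin 1) F25 := !![0; 0; 1]

/-- the rows of the inverse of `[e₃, B7 e₃, B7² e₃]` -/
def r0 : Matrix (Fin 1) (Fin 3) F25 := !![0, ⟨1, 2⟩, 1]

def r1 : Matrix (Fin 1) (Fin 3) F25 := !![1, 0, 0]

def r2 : Matrix (Fin 1) (Fin 3) F25 := !![0, 3, 0]

set_option maxRecDepth 100000 in
theorem decomp : e3 * r0 + (B7 * e3) * r1 + (B7 * B7 * e3) * r2 = 1 := by decide +kernel

theorem mul_scalar (M : Matrix (Fin 3) (Fin 1) F25) (s : Matrix (Fin 1) (Fin 1) F25) :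
    M * s = (s 0 0) • M := by
  apply Matrix.ext
  intro i j
  have hj : j = 0 := Subsingleton.elim _ _
  subst hj
  simp [Matrix.mul_apply, mul_comm]

theorem T3_comm (x : F25 × F25 × F25) : T3 x * B7 = B7 * T3 x := by
  simp only [T3, Matrix.add_mul, Matrix.mul_add, Matrix.smul_mul, Matrix.mul_smul,
    Matrix.one_mul, Matrix.mul_one, Matrix.mul_assoc]

/-- A matrix commuting with `B7` and killing `e₃` is zero. -/
theorem kill (d : Matrix (Fin 3) (Fin 3) F25) (hd : d * B7 = B7 * d) (hde : d * e3 = 0) :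
    d = 0 := by
  have h1 : d * (B7 * e3) = 0 := by
    rw [← Matrix.mul_assoc, hd, Matrix.mul_assoc, hde, Matrix.mul_zero]
  have h2 : d * (B7 * B7 * e3) = 0 := by
    rw [← Matrix.mul_assoc, ← Matrix.mul_assoc, hd, Matrix.mul_assoc B7 d B7, hd,
      Matrix.mul_assoc, Matrix.mul_assoc, hde, Matrix.mul_zero, Matrix.mul_zero]
  calc d = d * 1 := (Matrix.mul_one d).symm
    _ = d * (e3 * r0 + (B7 * e3) * r1 + (B7 * B7 * e3) * r2) := by rw [decomp]
    _ = (d * e3) * r0 + (d * (B7 * e3)) * r1 + (d * (B7 * B7 * e3)) * r2 := by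
      simp only [Matrix.mul_add, Matrix.mul_assoc]
    _ = 0 := by rw [hde, h1, h2]; simp

/-- **UF-CYC**. -/
theorem cyc : StCyc := by
  intro t h
  refine ⟨((r0 * (t * e3)) 0 0, (r1 * (t * e3)) 0 0, (r2 * (t * e3)) 0 0), ?_⟩
  have hTx := T3_comm ((r0 * (t * e3)) 0 0, (r1 * (t * e3)) 0 0, (r2 * (t * e3)) 0 0)
  have hcol : t * e3 =
      T3 ((r0 * (t * e3)) 0 0, (r1 * (t * e3)) 0 0, (r2 * (t * e3)) 0 0) * e3 := by
    calc t * e3 = (e3 * r0 + (B7 * e3) * r1 + (B7 * B7 * e3) * r2) * (t * e3) := by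
          rw [decomp, Matrix.one_mul]
      _ = e3 * (r0 * (t * e3)) + (B7 * e3) * (r1 * (t * e3)) +
            (B7 * B7 * e3) * (r2 * (t * e3)) := by
          simp only [Matrix.add_mul, Matrix.mul_assoc]
      _ = (r0 * (t * e3)) 0 0 • e3 + (r1 * (t * e3)) 0 0 • (B7 * e3) +
            (r2 * (t * e3)) 0 0 • (B7 * B7 * e3) := by
          rw [mul_scalar, mul_scalar, mul_scalar]
      _ = T3 ((r0 * (t * e3)) 0 0, (r1 * (t * e3)) 0 0, (r2 * (t * e3)) 0 0) * e3 := by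
          simp only [T3, Matrix.add_mul, Matrix.smul_mul, Matrix.one_mul]
  have hd : (t - T3 ((r0 * (t * e3)) 0 0, (r1 * (t * e3)) 0 0, (r2 * (t * e3)) 0 0)) * B7 =
      B7 * (t - T3 ((r0 * (t * e3)) 0 0, (r1 * (t * e3)) 0 0, (r2 * (t * e3)) 0 0)) := by
    rw [Matrix.sub_mul, Matrix.mul_sub, h, hTx]
  have hde : (t - T3 ((r0 * (t * e3)) 0 0, (r1 * (t * e3)) 0 0, (r2 * (t * e3)) 0 0)) * e3 =
      0 := by
    rw [Matrix.sub_mul, ← hcol, sub_self]
  exact sub_eq_zero.1 (kill _ hd hde)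

example : StCyc := cyc

end Cfsg.Agent.H80.Uf
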