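import Mathlib
import Cfsg.Agent.H42.UnDefs
import Cfsg.Agent.H80.UnFib

/-!
# S5954 piece UN-UEX: elements of `SU_n(q)` of order `p` with prescribed Jordan type
(port of helper96's SPN-UEX to hermitian forms)
-/

set_option autoImplicit false

namespace Cfsg.Agent.H80.Un

open Cfsg.Agent.H45 Cfsg.Agent.H42.Spd Cfsg.Agent.H42.Un Module Matrix

universe u

/-- the kernel of a conjugated endomorphism. -/
theorem ker_conj_equiv {F : Type*} [Field F] {V V' : Type*} [AddCommGroup V] [Module F V]
    [AddCommGroup V'] [Module F V'] (e : V ≃ₗ[F] V') (M : Module.End F V) :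
    LinearMap.ker (e.conj M) = (LinearMap.ker M).map e.toLinearMap := by
  ext z
  rw [LinearMap.mem_ker, Submodule.mem_map, LinearEquiv.conj_apply_apply]
  constructor
  · intro hz
    refine ⟨e.symm z, ?_, e.apply_symm_apply z⟩
    rw [LinearMap.mem_ker]
    apply e.injective
    rw [hz, map_zero]
  · rintro ⟨w, hw, rfl⟩
    rw [LinearMap.mem_ker] at hw
    show e (M (e.symm (e w))) = 0
    rw [e.symm_apply_apply, hw, map_zero]

theorem uUniEx (hM : StUModAll.{u}) (hC : StUCay.{u,u}) : StUUniEx.{u} := by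
  classical
  intro F _ _ p _ _ q hcard hp2 n μ hμ hsum
  have hp : p.Prime := Fact.out
  obtain ⟨σ, hσq⟩ := Cfsg.Agent.H7.exists_frobQ hcard
  have hσ : ∀ a, σ (σ a) = a := frob_invol q σ hcard hσq
  have hσnt : ∃ a, σ a ≠ a := frob_nontriv q σ hcard hσq
  have h2F : (2 : F) ≠ 0 := by
    intro h
    have h' : ((2 : ℕ) : F) = 0 := by exact_mod_cast h
    rw [CharP.cast_eq_zero_iff F p] at h'
    exact hp2 ((Nat.prime_dvd_prime_iff_eq hp Nat.prime_two).1 h')
  obtain ⟨V, _, _, _, B, N, hherm, hnd, hskew, hfr, hker⟩ :=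
    hM F σ hσ hσnt h2F μ (fun a ha => (hμ a ha).1)
  -- `N ^ p = 0`
  have hNp : N ^ p = 0 := by
    have h1 : μ.map (fun s => min p s) = μ := by
      rw [Multiset.map_congr rfl (fun s hs => Nat.min_eq_right (hμ s hs).2)]
      exact Multiset.map_id' μ
    have h2 : Module.finrank F ↥(LinearMap.ker (N ^ p)) = Module.finrank F V := by
      rw [hker p, h1, hfr]
    have h3 : LinearMap.ker (N ^ p) = ⊤ := Submodule.eq_top_of_finrank_eq h2
    exact LinearMap.ker_eq_top.1 h3
  obtain ⟨g, hgiso, hgker, hgnil⟩ := hC F σ V B N h2F ⟨p, hNp⟩ hskew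
  have hg1 : (g - 1) ^ p = 0 := hgnil p hNp
  have hgp : g ^ p = 1 := by
    by_cases hV : Subsingleton V
    · exact LinearMap.ext fun v => Subsingleton.elim _ _
    · rw [not_subsingleton_iff_nontrivial] at hV
      obtain ⟨v, hv⟩ := exists_ne (0 : V)
      have hinj : Function.Injective (algebraMap F (Module.End F V)) := by
        intro a b hab
        have h0 := congrArg (fun f : Module.End F V => f v) hab
        simp only [Module.algebraMap_end_apply] at h0
        have h1 : (a - b) • v = 0 := by rw [sub_smul, h0, sub_self]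
        rcases smul_eq_zero.1 h1 with h | h
        · exact sub_eq_zero.1 h
        · exact absurd h hv
      have : CharP (Module.End F V) p := charP_of_injective_algebraMap hinj p
      have h := sub_pow_char_of_commute (Commute.one_right g) (p := p)
      rw [hg1, one_pow] at h
      exact sub_eq_zero.1 h.symm
  -- transport to the standard space
  have hσne : σ ≠ RingHom.id F := by
    intro h
    obtain ⟨a, ha⟩ := hσnt
    apply ha
    rw [h]
    rfl
  have hgood : Good σ 1 B (1 : Module.End F V) :=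
    ⟨fun x y => by rw [one_mul]; exact hherm x y, hnd, fun h => absurd h hσne,
      fun _ _ => rfl, Module.End.isSemisimple_id⟩
  have hstd : Good σ 1 (hermB σ n) (1 : Module.End F (Fin n → F)) := by
    refine ⟨?_, ?_, fun h => absurd h hσne, fun _ _ => rfl, Module.End.isSemisimple_id⟩
    · intro x y
      rw [hermB_apply, hermB_apply, one_mul, map_sum]
      apply Finset.sum_congr rfl
      intro i _
      rw [map_mul, hσ, mul_comm]
    · intro x hx
      funext i
      have h1 := hx (Pi.single i 1)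
      rw [hermB_apply] at h1
      simp only [Pi.single_apply, apply_ite σ, map_one, map_zero, mul_ite, mul_one, mul_zero,
        Finset.sum_ite_eq', Finset.mem_univ, if_true] at h1
      exact h1
  have hfr' : Module.finrank F V = Module.finrank F (Fin n → F) := by
    rw [hfr, hsum, Module.finrank_fintype_fun_eq_card, Fintype.card_fin]
  obtain ⟨e, _, hiso⟩ := isoConj_of_charpoly_eq σ hσ 1 _ B (hermB σ n) 1 1 rfl hgood hstd
    (by rw [LinearMap.charpoly_one, LinearMap.charpoly_one, hfr'])
  obtain ⟨g', hg'⟩ : ∃ g' : Module.End F (Fin n → F), g' = e.conj g := ⟨_, rfl⟩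
  have hg'iso : ∀ x y, hermB σ n (g' x) (g' y) = hermB σ n x y := by
    intro x y
    rw [hg', LinearEquiv.conj_apply_apply, LinearEquiv.conj_apply_apply, hiso, hgiso, ← hiso,
      e.apply_symm_apply, e.apply_symm_apply]
  have hg'p : g' ^ p = 1 := by
    have h1 : e.conj (g ^ p) = (e.conj g) ^ p := map_pow e.conjRingEquiv g p
    rw [hg', ← h1, hgp]
    exact LinearEquiv.conj_id e
  have h2 : ∀ z, g' z = LinearMap.toMatrix' g' *ᵥ z := by
    intro z
    rw [← Matrix.toLin'_apply, Matrix.toLin'_toMatrix']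
  have hmatp : (LinearMap.toMatrix' g') ^ p = 1 := by
    apply Matrix.toLin'.injective
    rw [Matrix.toLin'_pow, Matrix.toLin'_toMatrix', hg'p, Matrix.toLin'_one]
    rfl
  have hdet : (LinearMap.toMatrix' g').det = 1 := by
    have h3 : (LinearMap.toMatrix' g').det ^ p = 1 := by
      rw [← Matrix.det_pow, hmatp, Matrix.det_one]
    have h4 : ((LinearMap.toMatrix' g').det - 1) ^ p = 0 := by
      rw [sub_pow_char, h3, one_pow, sub_self]
    exact sub_eq_zero.1 ((pow_eq_zero_iff hp.ne_zero).1 h4)
  obtain ⟨x, hx⟩ : ∃ x : Matrix.SpecialLinearGroup (Fin n) F,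
      (x : Matrix (Fin n) (Fin n) F) = LinearMap.toMatrix' g' := ⟨⟨_, hdet⟩, rfl⟩
  refine ⟨x, ?_, ?_, ?_⟩
  · show ∀ u v, Cfsg.hermForm n F q (Cfsg.slToMat n F x *ᵥ u) (Cfsg.slToMat n F x *ᵥ v) =
        Cfsg.hermForm n F q u v
    intro u v
    have hmat : Cfsg.slToMat n F x = (x : Matrix (Fin n) (Fin n) F) := rfl
    rw [hmat, hx, ← h2, ← h2, ← hermB_eq_hermForm σ hσq, ← hermB_eq_hermForm σ hσq]
    exact hg'iso u v
  · apply Subtype.ext
    rw [Matrix.SpecialLinearGroup.coe_pow, hx, hmatp]
    rfl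
  · intro j
    rw [hx, Matrix.toLin'_toMatrix']
    have hconj : (g' - 1) ^ j = e.conj ((g - 1) ^ j) := by
      have h1 : e.conj ((g - 1) ^ j) = (e.conj (g - 1)) ^ j := map_pow e.conjRingEquiv (g - 1) j
      have h3 : e.conj (g - 1) = e.conj g - 1 := by
        have h4 := map_sub e.conjRingEquiv g 1
        rw [map_one] at h4
        exact h4
      rw [h1, h3, hg']
    rw [hconj, ker_conj_equiv, ← hker j, ← hgker j]
    exact LinearEquiv.finrank_eq
      (Submodule.equivMapOfInjective e.toLinearMap e.injective _).symm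

example (hM : Cfsg.Agent.H42.Un.StUModAll.{u}) (hC : Cfsg.Agent.H42.Un.StUCay.{u,u}) :
    Cfsg.Agent.H42.Un.StUUniEx.{u} := Cfsg.Agent.H80.Un.uUniEx hM hC

end Cfsg.Agent.H80.Un
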